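import Cfsg.Agent.SLTwoPair6.Inner

/-!
A 2-element of order at least four in one classical component, commuting with the involution of
another, normalises the component of the other.
-/

set_option autoImplicit false
set_option maxHeartbeats 1600000

namespace CfsgLib.SLTwoPair

open Cfsg CfsgLib.Cores
open scoped commutatorElement

variable {G : Type*} [Group G] [Finite G] {n : ℕ} {z w y : G} {J K : Subgroup G}

/-- A 2-element anticommuting with an element of square `c` has square `c`. -/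
theorem Comp.order_four {c : G} {A : Subgroup G} (hA : Comp c A) {p q : G} (hp : p ∈ A) (hq : q ∈ A)
    (hq2 : q * q = c) {k : ℕ} (hk : p ^ 2 ^ k = 1) (hpq : q * p * q⁻¹ = p * c) : p * p = c := by
  obtain ⟨j, -, hj⟩ := (Nat.dvd_prime_pow Nat.prime_two).mp (orderOf_dvd_of_pow_eq_one hk)
  have hnc : ¬ q * p = p * q := fun e => hA.ne_one (by
    rw [e, mul_inv_cancel_right] at hpq
    exact (left_eq_mul.mp hpq))
  rcases j with _ | j
  · rw [pow_zero, orderOf_eq_one_iff] at hj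
    exact absurd (by rw [hj, one_mul, mul_one]) hnc
  rcases j with _ | j
  · have h2 : p * p = 1 := by rw [← sq, ← show orderOf p = 2 by rw [hj]; rfl, pow_orderOf_eq_one]
    rcases hA.sqCases hp h2 with e | e
    · exact absurd (by rw [e, one_mul, mul_one]) hnc
    · exact absurd (by rw [e, hA.cent q]) hnc
  rcases j with _ | j
  · refine (hA.sqCases (mul_mem hp hp) ?_).resolve_left fun e => ?_
    · rw [← sq p, ← sq, ← pow_mul, show 2 * 2 = orderOf p by rw [hj]; rfl, pow_orderOf_eq_one]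
    · have h := orderOf_dvd_of_pow_eq_one (show p ^ 2 = 1 by rw [sq, e])
      rw [hj] at h
      exact absurd (Nat.le_of_dvd (by norm_num) h) (by norm_num)
  exfalso
  set r := p ^ 2 ^ (j + 1) with hr
  have hr2 : r * r = c := by
    refine (hA.sqCases (mul_mem (pow_mem hp _) (pow_mem hp _)) ?_).resolve_left fun e => ?_
    · rw [← pow_add, ← pow_add,
        show 2 ^ (j + 1) + 2 ^ (j + 1) + (2 ^ (j + 1) + 2 ^ (j + 1)) = orderOf p by rw [hj]; ring,
        pow_orderOf_eq_one]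
    · rw [← pow_add] at e
      have h := Nat.le_of_dvd (by positivity) (orderOf_dvd_of_pow_eq_one e)
      rw [hj, pow_succ 2 (j + 1 + 1), pow_succ 2 (j + 1)] at h
      have : 0 < 2 ^ (j + 1) := by positivity
      rw [pow_succ 2 j] at h
      have : 0 < 2 ^ j := by positivity
      omega
  have hrq : q * r * q⁻¹ = r := by
    rw [hr, ← conj_pow, hpq, (show Commute p c from hA.cent p).mul_pow, pow_succ' 2 j, pow_mul c 2, sq,
      hA.csq, one_pow, mul_one]
  have hrqc : r * q = q * r := by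
    conv_lhs => rw [← hrq]
    group
  have h1 : r * q * (r * q) = 1 := by
    rw [(show Commute r q from hrqc).symm.mul_mul_mul_comm, hr2, hq2, hA.csq]
  refine hnc ?_
  have hpr : Commute p r := (Commute.refl p).pow_right _
  rcases hA.sqCases (mul_mem (pow_mem hp _) hq) h1 with e | e
  · rw [eq_inv_of_mul_eq_one_right e]
    exact hpr.inv_right.symm.eq
  · rw [show q = r⁻¹ * c by rw [← e, inv_mul_cancel_left]]
    exact ((hpr.inv_right.mul_right (hA.cent p))).symm.eq

omit [Finite G] in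
theorem conj_pow_shift {g u c : G} (h : g * u * g⁻¹ = u * c) (hgc : g * c = c * g) :
    ∀ m : ℕ, g ^ m * u * (g ^ m)⁻¹ = u * c ^ m := by
  intro m
  induction m with
  | zero => simp
  | succ m ih =>
    have h1 : g ^ m * c * (g ^ m)⁻¹ = c := by
      rw [((show Commute g c from hgc).pow_left m).eq, mul_inv_cancel_right]
    calc g ^ (m + 1) * u * (g ^ (m + 1))⁻¹ = g ^ m * (g * u * g⁻¹) * (g ^ m)⁻¹ := by rw [pow_succ]; group
      _ = (g ^ m * u * (g ^ m)⁻¹) * (g ^ m * c * (g ^ m)⁻¹) := by rw [h]; group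
      _ = u * c ^ (m + 1) := by rw [ih, h1, pow_succ, mul_assoc]

theorem pow_sq_one {c : G} (h : c * c = 1) {m : ℕ} (hm : Odd m) : c ^ m = c := by
  obtain ⟨j, rfl⟩ := hm
  rw [pow_succ, pow_mul, sq, h, one_pow, one_mul]

/-- An element of `J` anticommuting with `w`, with image of order four. -/
theorem Moves.exists_inverted_four (H : Moves n z J w K y) :
    ∃ a ∈ J, a * w * a⁻¹ = w * z ∧ q z a * q z a = q z z ∧ q z w * q z a * q z w = q z a * q z z := by
  have hA := H.hJ.isComp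
  have hs : q z w * q z w = 1 := by rw [← q_mul H.hwz H.hwz, sq_of_orderOf H.hK.ord, q_one]
  have hsi : (q z w)⁻¹ = q z w := inv_eq_of_mul_eq_one_right hs
  obtain ⟨t, ht, ht2, htw⟩ := hA.exists_four_stable hs ((H.hJ.cs_q H.hwz).mp H.wN)
  obtain ⟨g, hg, hgC, hgq⟩ := bar_lift ht
  have hw2 := sq_of_orderOf H.hK.ord
  have hwgJ : w * g * w * g⁻¹ ∈ J := by
    have h1 := (Subgroup.mem_normalizer_iff.mp H.wN g).mp hg
    rw [inv_eq_of_mul_eq_one_right hw2] at h1
    exact mul_mem h1 (inv_mem hg)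
  rcases htw with e | e
  · -- `t` is fixed: `w` induces an inner automorphism
    obtain ⟨o, ho, -, h2, h3⟩ := lift_comm hw2 H.hwz hgC (by
      rw [hgq]
      conv_lhs => rw [← e]
      rw [mul_assoc, hs, mul_one])
    have hgo : o * g ∈ J := mul_mem (mem_zpowers_le (by
      rwa [show w * (g * w * g⁻¹) = w * g * w * g⁻¹ by group]) ho) hg
    obtain ⟨q0, hq0, hq02, hq0q, hq0c, -⟩ := H.hJ.exists_lift_pow hgo (by rw [h3, hgq, ht2])
    have hq0w : q0 * w = w * q0 := hq0c w (mem_Cz.mp h2)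
    have hq0z := H.hJ.le hq0
    set t0 := q z q0 with ht0
    have ht0A : t0 ∈ bar z J := H.hJ.q_mem hq0
    have hmain : ∀ a ∈ bar z J, q z w * a * q z w = a * q z z → t0 * a * t0⁻¹ = a * q z z := by
      by_cases hq0K : q0 ∈ Subgroup.normalizer (K : Set G)
      · set Q := q0 * y * q0⁻¹ * y⁻¹ with hQ
        have hQK : Q ∈ K := K.mul_mem ((Subgroup.mem_normalizer_iff.mp hq0K y).mp H.mem) (K.inv_mem H.mem)
        have hQz : Q ∈ Cz z := mul_mem (mul_mem (mul_mem hq0z H.hyz) (inv_mem hq0z)) (inv_mem H.hyz)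
        have hQq : q z Q = t0 * (q z y * t0⁻¹ * (q z y)⁻¹) := by
          rw [hQ, q_mul (mul_mem (mul_mem hq0z H.hyz) (inv_mem hq0z)) (inv_mem H.hyz), q_conj hq0z H.hyz,
            q_inv H.hyz, ← ht0]
          group
        have hB := hA.conj (q z y)
        have hQ2 : q z Q * q z Q = 1 := by
          have hc : Commute t0 (q z y * t0⁻¹ * (q z y)⁻¹) := hA.commute hB H.ne.symm ht0A (mem_cs (inv_mem ht0A))
          rw [hQq, hc.symm.mul_mul_mul_comm, hq0q,
            show q z y * t0⁻¹ * (q z y)⁻¹ * (q z y * t0⁻¹ * (q z y)⁻¹) = q z y * (t0 * t0)⁻¹ * (q z y)⁻¹ by group,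
            hq0q, inv_eq_of_mul_eq_one_right hA.csq, hA.cent (q z y), mul_inv_cancel_right, hA.csq]
        obtain ⟨m, -, hm2, hm3⟩ := exists_invol_pow hQz hQ2
        have hne : q z Q ≠ 1 := fun e1 => by
          rw [hQq] at e1
          rcases hA.meet hB H.ne.symm ht0A (by
            rw [eq_inv_of_mul_eq_one_left e1]; exact inv_mem (mem_cs (inv_mem ht0A))) with e2 | e2
          · exact (hA.out2_of_sq hq0q).1 e2
          · exact (hA.out2_of_sq hq0q).2 e2
        have hQw : Q ^ m = w := H.hK.uniq _ (pow_mem hQK m) (orderOf_eq_prime (by rw [sq, hm2])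
          (fun e1 => hne (by rw [← hm3, e1, q_one])))
        have hwb : q z w = t0 * (q z y * t0⁻¹ * (q z y)⁻¹) := by rw [← hQw, hm3, hQq]
        intro a ha hae
        have hc1 : Commute (q z y * t0⁻¹ * (q z y)⁻¹) a := (hA.commute hB H.ne.symm ha (mem_cs (inv_mem ht0A))).symm
        rw [← hae]
        conv_rhs => arg 2; rw [← hsi]
        rw [hwb, mul_inv_rev]
        calc t0 * a * t0⁻¹ = t0 * (a * (q z y * t0⁻¹ * (q z y)⁻¹)) * (q z y * t0⁻¹ * (q z y)⁻¹)⁻¹ * t0⁻¹ := by group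
          _ = _ := by rw [← hc1.eq]; group
      · have H' : Moves n w K z J q0 :=
          { hJ := H.hK
            hK := H.hJ
            hzw := H.hzw.symm
            mem := hq0
            two := ⟨2, by rw [show (2 : ℕ) ^ 2 = 2 * 2 from rfl, pow_mul, sq, sq, hq02, sq_of_orderOf H.hJ.ord]⟩
            four := by
              have h4 : orderOf q0 = 2 ^ (1 + 1) := orderOf_eq_prime_pow
                (by rw [pow_one, sq, hq02]; intro e1; have := H.hJ.ord; rw [e1, orderOf_one] at this; omega)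
                (by rw [show (2 : ℕ) ^ (1 + 1) = 2 * 2 from rfl, pow_mul, sq, sq, hq02, sq_of_orderOf H.hJ.ord])
              rw [h4]; norm_num
            comm := hq0w
            move := hq0K
            sqFix := by rw [hq02]; exact H.zN }
        obtain ⟨a', ha', -, ha'A, ha'e⟩ := H'.exists_inverted
        obtain ⟨d, hd, hdq, -⟩ := H'.lift_diag ha'A (Or.inr ha'e)
        obtain ⟨hne, hform⟩ := (H'.inner ha'A ha'e).2 d hd hdq
        intro a ha hae
        have hc1 : Commute (q z d * t0 * (q z d)⁻¹) a :=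
          (hA.conj (q z d)).commute hA hne (mem_cs ht0A) ha
        have h1 : t0⁻¹ * a * t0 = a * q z z := by
          rw [← hae]
          conv_rhs => arg 2; rw [← hsi]
          rw [hform, mul_inv_rev, inv_inv]
          calc t0⁻¹ * a * t0 = (q z d * t0 * (q z d)⁻¹) * (q z d * t0 * (q z d)⁻¹)⁻¹ * (t0⁻¹ * a * t0) := by group
            _ = _ := by
              have e2 : Commute (q z d * t0 * (q z d)⁻¹) t0⁻¹ :=
                (hA.conj (q z d)).commute hA hne (mem_cs ht0A) (inv_mem ht0A)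
              rw [show (q z d * t0 * (q z d)⁻¹) * (q z d * t0 * (q z d)⁻¹)⁻¹ * (t0⁻¹ * a * t0) =
                (t0⁻¹ * a * t0) by group]
              symm
              calc q z d * t0 * (q z d)⁻¹ * t0⁻¹ * a * (t0 * (q z d * t0 * (q z d)⁻¹)⁻¹)
                  = t0⁻¹ * ((q z d * t0 * (q z d)⁻¹) * a) * (t0 * (q z d * t0 * (q z d)⁻¹)⁻¹) := by
                    rw [e2.eq]; group
                _ = t0⁻¹ * (a * (q z d * t0 * (q z d)⁻¹)) * (t0 * (q z d * t0 * (q z d)⁻¹)⁻¹) := by rw [hc1.eq]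
                _ = t0⁻¹ * a * ((q z d * t0 * (q z d)⁻¹) * t0) * (q z d * t0 * (q z d)⁻¹)⁻¹ := by group
                _ = t0⁻¹ * a * (t0 * (q z d * t0 * (q z d)⁻¹)) * (q z d * t0 * (q z d)⁻¹)⁻¹ := by
                    rw [show (q z d * t0 * (q z d)⁻¹) * t0 = t0 * (q z d * t0 * (q z d)⁻¹) from
                      (hA.conj (q z d)).commute hA hne (mem_cs ht0A) ht0A]
                _ = t0⁻¹ * a * t0 := by group
        calc t0 * a * t0⁻¹ = t0 * (a * q z z) * t0⁻¹ * q z z := by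
              rw [← mul_assoc t0 a, mul_assoc (t0 * a) (q z z) t0⁻¹, ← hA.cent t0⁻¹, ← mul_assoc (t0 * a),
                mul_assoc (t0 * a * t0⁻¹) (q z z) (q z z), hA.csq, mul_one]
          _ = a * q z z := by conv_lhs => rw [← h1]
                              group
    obtain ⟨a, ha, hae, haA, haw⟩ := H.exists_inverted
    have hp : ∃ m, Odd m ∧ ∃ k, (a ^ m) ^ 2 ^ k = 1 := by
      refine ⟨orderOf a / 2 ^ (orderOf a).factorization 2, ?_, (orderOf a).factorization 2, ?_⟩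
      · exact Nat.odd_iff.mpr (Nat.two_dvd_ne_zero.mp (Nat.not_dvd_ordCompl Nat.prime_two (orderOf_pos a).ne'))
      · rw [← pow_mul, mul_comm, Nat.ordProj_mul_ordCompl_eq_self, pow_orderOf_eq_one]
    obtain ⟨m, hm, k, hk⟩ := hp
    have haC := H.hJ.le ha
    have hexact : a ^ m * w * (a ^ m)⁻¹ = w * z := by
      rw [conj_pow_shift hae (mem_Cz.mp haC) m, pow_sq_one (sq_of_orderOf H.hJ.ord) hm]
    have hamC := H.hJ.le (pow_mem ha m)
    have himg : q z w * q z (a ^ m) * q z w = q z (a ^ m) * q z z := by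
      have h : q z (a ^ m) * q z w = q z w * q z z * q z (a ^ m) := by
        rw [← q_mul hamC H.hwz, ← q_mul H.hwz (self_mem_Cz z), ← q_mul (mul_mem H.hwz (self_mem_Cz z)) hamC,
          ← hexact]
        congr 1
        group
      rw [mul_assoc, h, ← mul_assoc, ← mul_assoc, hs, one_mul, q_self_cent z (q z (a ^ m))]
    refine ⟨a ^ m, pow_mem ha m, hexact, hA.order_four (H.hJ.q_mem (pow_mem ha m)) ht0A hq0q (k := k) ?_
      (hmain _ (H.hJ.q_mem (pow_mem ha m)) himg), himg⟩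
    rw [← q_pow hamC, hk, q_one]
  · -- `t` itself is inverted
    have hwz2 : w * z * (w * z) = 1 := by
      rw [mul_assoc w z _, ← mul_assoc z w z, ← mem_Cz.mp H.hwz, mul_assoc w z z, sq_of_orderOf H.hJ.ord, mul_one, hw2]
    have hgwg : g * w * g⁻¹ * (g * w * g⁻¹) = 1 := by
      rw [show g * w * g⁻¹ * (g * w * g⁻¹) = g * (w * w) * g⁻¹ by group, hw2]; group
    have hprod : w * z * (g * w * g⁻¹) ∈ Oz z := by
      have hC1 := mul_mem H.hwz (self_mem_Cz z)
      have hC2 : g * w * g⁻¹ ∈ Cz z := mul_mem (mul_mem hgC H.hwz) (inv_mem hgC)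
      rw [← q_eq_one (mul_mem hC1 hC2), q_mul hC1 hC2, q_mul H.hwz (self_mem_Cz z), q_conj hgC H.hwz, hgq]
      have h : t * q z w = q z w * (t * q z z) := by
        rw [← e, ← mul_assoc, ← mul_assoc, hs, one_mul]
      rw [h, show q z w * q z z * (q z w * (t * q z z) * t⁻¹) = q z w * (q z z * (q z w * t)) * (q z z * t⁻¹) by group,
        ← hA.cent (q z w * t), ← hA.cent t⁻¹,
        show q z w * (q z w * t * q z z) * (t⁻¹ * q z z) = (q z w * q z w) * t * (q z z * t⁻¹) * q z z by group,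
        ← hA.cent t⁻¹, hs, one_mul, ← mul_assoc, mul_inv_cancel, one_mul, hA.csq]
    have hmemJ : w * z * (g * w * g⁻¹) ∈ J := by
      rw [show w * z = z * w from mem_Cz.mp H.hwz, mul_assoc, show w * (g * w * g⁻¹) = w * g * w * g⁻¹ by group]
      exact mul_mem H.hJ.mem hwgJ
    obtain ⟨o, ho, hoc⟩ := exists_conj_of_odd hwz2 hgwg (odd_orderOf_of_mem (odd_Oz z) hprod)
    have hoO := mem_zpowers_le hprod ho
    have hq : q z (o * g) = t := by
      rw [q_mul (Oz_le z hoO) hgC, (q_eq_one (Oz_le z hoO)).mpr hoO, one_mul, hgq]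
    refine ⟨o * g, mul_mem (mem_zpowers_le hmemJ ho) hg, ?_, by rw [hq, ht2], by rw [hq, e]⟩
    rw [← hoc]
    group

/-- Exact lifting of a pair of commuting involutions. -/
theorem exactify {C : Subgroup G} {d f d' f' : G} (hd : d * d = 1) (hf : f * f = 1)
    (hd' : d' * d' = 1) (hf' : f' * f' = 1) (hfd : f * d = d * f) (hfd' : f' * d' = d' * f')
    (hfC : f ∈ C)
    (h1 : d' * d⁻¹ ∈ coreIn C) (h2 : f' * f⁻¹ ∈ coreIn C) :
    ∃ r ∈ C, r * d' * r⁻¹ = d ∧ r * f' * r⁻¹ = f := by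
  have hdi : d⁻¹ = d := inv_eq_of_mul_eq_one_right hd
  have hfi : f⁻¹ = f := inv_eq_of_mul_eq_one_right hf
  have hd'i : d'⁻¹ = d' := inv_eq_of_mul_eq_one_right hd'
  have h1' : d * d' ∈ coreIn C := by
    have := inv_mem h1
    rwa [mul_inv_rev, inv_inv, hd'i] at this
  obtain ⟨r1, hr1, hr1d⟩ := exists_conj_of_odd hd hd' (odd_orderOf_of_mem (odd_coreIn C) h1')
  have hr1O := mem_zpowers_le h1' hr1
  set f'' := r1 * f' * r1⁻¹ with hf''
  have hf''2 : f'' * f'' = 1 := by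
    rw [hf'', show r1 * f' * r1⁻¹ * (r1 * f' * r1⁻¹) = r1 * (f' * f') * r1⁻¹ by group, hf']; group
  have hf''d : f'' * d = d * f'' := by
    rw [← hr1d, hf'', show r1 * f' * r1⁻¹ * (r1 * d' * r1⁻¹) = r1 * (f' * d') * r1⁻¹ by group, hfd']
    group
  have hprod : f'' * f ∈ coreIn C := by
    have h2' : f' * f ∈ coreIn C := by rwa [hfi] at h2
    rw [show f'' * f = r1 * (f' * r1⁻¹ * f'⁻¹) * (f' * f) by rw [hf'']; group]
    refine mul_mem (mul_mem hr1O ?_) h2'
    rw [show f' * r1⁻¹ * f'⁻¹ = (f' * f) * (f⁻¹ * r1⁻¹ * (f⁻¹)⁻¹) * (f' * f)⁻¹ by group]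
    exact mul_mem (mul_mem h2' (coreIn_conj (Subgroup.le_normalizer (inv_mem hfC)) (inv_mem hr1O)))
      (inv_mem h2')
  obtain ⟨r2, hr2, hr2f⟩ := exists_conj_of_odd hf hf''2 (odd_orderOf_of_mem (odd_coreIn C) (s := f * f'') (by
    have := inv_mem hprod
    rwa [mul_inv_rev, hfi, inv_eq_of_mul_eq_one_right hf''2] at this))
  have hr2C : r2 ∈ coreIn C := mem_zpowers_le (by
    have := inv_mem hprod
    rwa [mul_inv_rev, hfi, inv_eq_of_mul_eq_one_right hf''2] at this) hr2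
  have hr2d : Commute r2 d := by
    obtain ⟨i, rfl⟩ := hr2
    exact ((show Commute f d from hfd).mul_left hf''d).zpow_left i
  refine ⟨r2 * r1, mul_mem (coreIn_le C hr2C) (coreIn_le C hr1O), ?_, ?_⟩
  · rw [show r2 * r1 * d' * (r2 * r1)⁻¹ = r2 * (r1 * d' * r1⁻¹) * r2⁻¹ by group, hr1d, hr2d.eq,
      mul_inv_cancel_right]
  · rw [show r2 * r1 * f' * (r2 * r1)⁻¹ = r2 * (r1 * f' * r1⁻¹) * r2⁻¹ by group]
    exact hr2f

/-- Two diagonal lifts are conjugate inside `C(w) ∩ C(d)`. -/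
theorem Moves.exists_move (H : Moves n z J w K y) {d : G} (hd : d ∈ Cz z ⊓ Cz w) (hd2 : d * d = 1)
    (hne : cs (q w d) (bar w K) ≠ bar w K)
    (hform : q w z = q w d * q w y * (q w d)⁻¹ * (q w y)⁻¹)
    (hyy : y * y = w) {X : Y w} (hX : X ∈ bar w K) (hX2 : X * X = q w w) {F : G}
    (hF : F ∈ Cz w ⊓ Cz d) (hF2 : F * F = 1) (hFq : q w F = q w d * X * (q w d)⁻¹ * X) :
    ∃ h ∈ Cz w ⊓ Cz d, h * (z * w) * h⁻¹ = F := by
  obtain ⟨hdz, hdw⟩ := Subgroup.mem_inf.mp hd
  obtain ⟨hFw, hFd⟩ := Subgroup.mem_inf.mp hF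
  have hKc := H.hK.isComp
  have hy := H.hK.q_mem H.mem
  set yb := q w y with hyb
  set db := q w d with hdb
  have hdb2 : db * db = 1 := by rw [hdb, ← q_mul hdw hdw, hd2, q_one]
  have hdbi : db⁻¹ = db := inv_eq_of_mul_eq_one_right hdb2
  have hyb2 : yb * yb = q w w := by rw [hyb, ← q_mul H.hyw H.hyw, hyy]
  have hybi : yb⁻¹ = yb * q w w := inv_eq_of_mul_eq_one_right (by rw [← mul_assoc, hyb2, hKc.csq])
  have hv : q w (z * w) = db * yb * db⁻¹ * yb := by
    rw [q_mul H.hzw' (self_mem_Cz w), hform, hybi, mul_assoc (db * yb * db⁻¹), mul_assoc yb, hKc.csq, mul_one]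
  obtain ⟨⟨k, hk⟩, hkX⟩ := hKc.good.conj ⟨yb, hy⟩ ⟨X, hX⟩
    (by rw [Subgroup.orderOf_mk]; exact orderOf_four_of_sq hKc hyb2)
    (by rw [Subgroup.orderOf_mk]; exact orderOf_four_of_sq hKc hX2)
  have hF' : q w F = db * (k * yb * k⁻¹) * db⁻¹ * (k * yb * k⁻¹) := by
    rcases hkX with e | e
    · rw [show k * yb * k⁻¹ = X from congrArg Subtype.val e, hFq]
    · have hXi : X⁻¹ = X * q w w := inv_eq_of_mul_eq_one_right (by rw [← mul_assoc, hX2, hKc.csq])
      rw [show k * yb * k⁻¹ = X⁻¹ from congrArg Subtype.val e, hXi, hFq]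
      rw [show db * (X * q w w) * db⁻¹ * (X * q w w) = db * X * (q w w * db⁻¹) * (X * q w w) by group,
        ← hKc.cent db⁻¹, show db * X * (db⁻¹ * q w w) * (X * q w w) = db * X * db⁻¹ * (q w w * X) * q w w by group,
        ← hKc.cent X, mul_assoc (db * X * db⁻¹), mul_assoc X, hKc.csq, mul_one]
  have hB := hKc.conj db
  set k' := db * k * db⁻¹ with hk'
  have hk'B : k' ∈ cs db (bar w K) := mem_cs hk
  have hkk : Commute k' k := hB.commute hKc hne hk'B hk
  obtain ⟨g, hg, hgq⟩ := q_surj (k * k')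
  have hcomm : q w g * db = db * q w g := by
    rw [hgq, hk']
    calc k * (db * k * db⁻¹) * db = (k * db * k) := by group
      _ = (db * db) * k * db * k := by rw [hdb2, one_mul]
      _ = db * (db * k * db⁻¹ * k) := by rw [hdbi]; group
      _ = db * (k' * k) := by rw [hk']
      _ = db * (k * (db * k * db⁻¹)) := by rw [hkk.eq, hk']
  obtain ⟨o1, -, hn1, hn2, hn3⟩ := lift_comm hd2 hdw hg hcomm
  set m := o1 * g with hm
  rw [hgq] at hn3
  set v := z * w with hvdef
  have hvw : v ∈ Cz w := mul_mem H.hzw' (self_mem_Cz w)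
  have hvd : v ∈ Cz d := by
    refine mem_Cz.mpr ?_
    exact ((show Commute z d from (mem_Cz.mp hdz).symm).mul_left (show Commute w d from (mem_Cz.mp hdw).symm)).eq
  have hv2 : v * v = 1 := by
    rw [hvdef, (show Commute z w from mem_Cz.mp H.hzw').symm.mul_mul_mul_comm, sq_of_orderOf H.hJ.ord,
      sq_of_orderOf H.hK.ord, one_mul]
  have hu : m * v * m⁻¹ ∈ Cz w ⊓ Cz d :=
    mul_mem (mul_mem ⟨hn1, hn2⟩ ⟨hvw, hvd⟩) (inv_mem ⟨hn1, hn2⟩)
  have hu2 : m * v * m⁻¹ * (m * v * m⁻¹) = 1 := by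
    rw [show m * v * m⁻¹ * (m * v * m⁻¹) = m * (v * v) * m⁻¹ by group, hv2]; group
  have hprod : F * (m * v * m⁻¹) ∈ Oz w := by
    have hq : q w (m * v * m⁻¹) = q w F := by
      rw [q_conj hn1 hvw, hn3, hv, hF']
      have h1 : Commute k' yb := hB.commute hKc hne hk'B hy
      have h2 : Commute (k' * (db * yb * db⁻¹) * k'⁻¹) k := hB.commute hKc hne
        (mul_mem (mul_mem hk'B (mem_cs hy)) (inv_mem hk'B)) hk
      calc k * k' * (db * yb * db⁻¹ * yb) * (k * k')⁻¹
          = k * (k' * (db * yb * db⁻¹) * k'⁻¹) * (k' * yb * k'⁻¹) * k⁻¹ := by group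
        _ = (k' * (db * yb * db⁻¹) * k'⁻¹) * k * yb * k⁻¹ := by rw [h1.eq, mul_inv_cancel_right, h2.eq]
        _ = _ := by rw [hk']; group
    rw [← q_eq_one (mul_mem hFw (Subgroup.mem_inf.mp hu).1), q_mul hFw (Subgroup.mem_inf.mp hu).1, hq,
      ← q_mul hFw hFw, hF2, q_one]
  obtain ⟨o, ho, hoF⟩ := exists_conj_of_odd hF2 hu2 (odd_orderOf_of_mem (odd_Oz w) hprod)
  refine ⟨o * m, mul_mem (mem_zpowers_le (mul_mem hF hu) ho) ⟨hn1, hn2⟩, ?_⟩
  rw [← hoF]; group

/-- **The fusion chain.** -/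
theorem Moves.core (H : Moves n z J w K y) {a d x f : G} (haJ : a ∈ J) (haw : a * w * a⁻¹ = w * z)
    (ha2 : q z a * q z a = q z z)
    (hd : d ∈ Cz z ⊓ Cz w) (hd2 : d * d = 1) (hdq : q z d = q z a * (q z y * q z a * (q z y)⁻¹))
    (hyy : y * y = w) (hne : cs (q w d) (bar w K) ≠ bar w K)
    (hform : q w z = q w d * q w y * (q w d)⁻¹ * (q w y)⁻¹)
    (hxK : x ∈ K) (hxz : x * z * x⁻¹ = z * w) (hx2 : q w x * q w x = q w w)
    (hxy : q w y * q w x * (q w y)⁻¹ = q w x * q w w)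
    (hf : f ∈ Cz z ⊓ Cz w) (hf2 : f * f = 1) (hfd : f * d = d * f)
    (hfq : q w f = q w x * (q w d * q w x * (q w d)⁻¹))
    (hfa : q z f * q z a * (q z f)⁻¹ = q z y * q z a * (q z y)⁻¹ * q z z) : False := by
  obtain ⟨hdz, hdw⟩ := Subgroup.mem_inf.mp hd
  obtain ⟨hfz, hfw⟩ := Subgroup.mem_inf.mp hf
  have hA := H.hJ.isComp
  have hB := hA.conj (q z y)
  have hKc := H.hK.isComp
  have hw2 := sq_of_orderOf H.hK.ord
  have hz2 := sq_of_orderOf H.hJ.ord
  have hzw : z * w = w * z := mem_Cz.mp H.hzw'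
  have haz : a ∈ Cz z := H.hJ.le haJ
  have hxw : x ∈ Cz w := H.hK.le hxK
  have hCz : Cz z ⊓ Cz w ≤ Cz z := inf_le_left
  have hdN : d ∈ Subgroup.normalizer (J : Set G) := by
    rw [H.hJ.cs_q hdz, cs_eq_iff, hdq]
    refine mul_mem (Subgroup.le_normalizer (H.hJ.q_mem haJ)) ?_
    exact component_le_normalizer hB.comp hA.comp (mem_cs (H.hJ.q_mem haJ))
  -- `a` acts on the four involutions
  have haN : a ∈ Subgroup.normalizer ((Cz z ⊓ Cz w : Subgroup G) : Set G) := by
    rw [inf_comm]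
    exact normalizes_inf hz2 haw (mem_Cz.mp haz)
  have hab : Commute (q z a) (q z y * q z a * (q z y)⁻¹) :=
    hA.commute hB H.ne.symm (H.hJ.q_mem haJ) (mem_cs (H.hJ.q_mem haJ))
  obtain ⟨r, hr, hrd, hrf⟩ := exactify (C := Cz z ⊓ Cz w) (d := d) (f := f * d)
    (d' := a * d * a⁻¹) (f' := a * f * a⁻¹) hd2
    (by rw [(show Commute f d from hfd).symm.mul_mul_mul_comm, hf2, hd2, one_mul])
    (by rw [show a * d * a⁻¹ * (a * d * a⁻¹) = a * (d * d) * a⁻¹ by group, hd2]; group)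
    (by rw [show a * f * a⁻¹ * (a * f * a⁻¹) = a * (f * f) * a⁻¹ by group, hf2]; group)
    (by rw [mul_assoc f d d, ← mul_assoc d f d, ← hfd, mul_assoc f d d])
    (by rw [show a * f * a⁻¹ * (a * d * a⁻¹) = a * (f * d) * a⁻¹ by group, hfd]; group)
    (mul_mem hf hd)
    (by
      have h1 : a * d * a⁻¹ ∈ Cz z ⊓ Cz w := (Subgroup.mem_normalizer_iff.mp haN d).mp hd
      refine Oz_inf_le_coreIn hCz (Subgroup.mem_inf.mpr ⟨?_, mul_mem h1 (inv_mem hd)⟩)
      rw [← q_eq_iff (mul_mem (mul_mem haz hdz) (inv_mem haz)) hdz, q_conj haz hdz, hdq]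
      rw [← mul_assoc (q z a) (q z a), mul_assoc (q z a * q z a), hab.symm.inv_right.eq]
      group)
    (by
      have h1 : a * f * a⁻¹ ∈ Cz z ⊓ Cz w := (Subgroup.mem_normalizer_iff.mp haN f).mp hf
      refine Oz_inf_le_coreIn hCz (Subgroup.mem_inf.mpr ⟨?_, mul_mem h1 (inv_mem (mul_mem hf hd))⟩)
      rw [← q_eq_iff (mul_mem (mul_mem haz hfz) (inv_mem haz)) (mul_mem hfz hdz), q_conj haz hfz,
        q_mul hfz hdz, hdq]
      have hfi : (q z f)⁻¹ = q z f := by
        rw [← q_inv hfz, inv_eq_of_mul_eq_one_right hf2]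
      have hfa' : (q z f)⁻¹ * q z a * q z f = q z y * q z a * (q z y)⁻¹ * q z z := by
        rw [← hfa, hfi]
      have hai : (q z a)⁻¹ = q z z * q z a := by
        rw [← hA.cent (q z a)]
        exact inv_eq_of_mul_eq_one_right (by rw [← mul_assoc, ha2, hA.csq])
      calc q z a * q z f * (q z a)⁻¹ = q z f * ((q z f)⁻¹ * q z a * q z f) * (q z a)⁻¹ := by group
        _ = q z f * (q z y * q z a * (q z y)⁻¹) * (q z z * (q z z * q z a)) := by rw [hfa', hai]; group
        _ = _ := by rw [← mul_assoc (q z z), hA.csq, one_mul, mul_assoc, ← hab.eq])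
  set A' := r * a with hA'
  have hrz := mem_Cz.mp (Subgroup.mem_inf.mp hr).1
  have hrw := mem_Cz.mp (Subgroup.mem_inf.mp hr).2
  have hAz : A' * z * A'⁻¹ = z := by
    rw [hA', show r * a * z * (r * a)⁻¹ = r * (a * z) * a⁻¹ * r⁻¹ by group, mem_Cz.mp haz, ← mul_assoc r z,
      hrz]
    group
  have hAw : A' * w * A'⁻¹ = w * z := by
    rw [hA', show r * a * w * (r * a)⁻¹ = r * (a * w * a⁻¹) * r⁻¹ by group, haw, ← mul_assoc, hrw,
      mul_assoc w r, hrz]
    group
  have hAd : A' * d * A'⁻¹ = d := by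
    rw [hA', show r * a * d * (r * a)⁻¹ = r * (a * d * a⁻¹) * r⁻¹ by group, hrd]
  have hAf : A' * f * A'⁻¹ = f * d := by
    rw [hA', show r * a * f * (r * a)⁻¹ = r * (a * f * a⁻¹) * r⁻¹ by group, hrf]
  -- `x` acts on the four involutions
  have hxN : x ∈ Subgroup.normalizer ((Cz z ⊓ Cz w : Subgroup G) : Set G) :=
    normalizes_inf hw2 hxz (mem_Cz.mp hxw)
  have hwC : w ∈ Cz z ⊓ Cz w := ⟨H.hwz, self_mem_Cz w⟩
  have hdi : (q w d)⁻¹ = q w d := by rw [← q_inv hdw, inv_eq_of_mul_eq_one_right hd2]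
  have hxx : Commute (q w d * q w x * (q w d)⁻¹) (q w x) :=
    (hKc.conj (q w d)).commute hKc hne (mem_cs (H.hK.q_mem hxK)) (H.hK.q_mem hxK)
  have hfdw : d * f * w * (d * f * w) = 1 := by
    have h1 : Commute (d * f) w :=
      (show Commute d w from mem_Cz.mp hdw).mul_left (show Commute f w from mem_Cz.mp hfw)
    rw [h1.symm.mul_mul_mul_comm, (show Commute f d from hfd).mul_mul_mul_comm, hd2, hf2, hw2, one_mul, one_mul]
  obtain ⟨s, hs, hsd, hsf⟩ := exactify (C := Cz z ⊓ Cz w) (d := d * f * w) (f := f)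
    (d' := x * d * x⁻¹) (f' := x * f * x⁻¹) hfdw hf2
    (by rw [show x * d * x⁻¹ * (x * d * x⁻¹) = x * (d * d) * x⁻¹ by group, hd2]; group)
    (by rw [show x * f * x⁻¹ * (x * f * x⁻¹) = x * (f * f) * x⁻¹ by group, hf2]; group)
    (((show Commute f d from hfd).mul_right (Commute.refl f)).mul_right (mem_Cz.mp hfw)).eq
    (by rw [show x * f * x⁻¹ * (x * d * x⁻¹) = x * (f * d) * x⁻¹ by group, hfd]; group)
    hf
    (by
      have h1 : x * d * x⁻¹ ∈ Cz z ⊓ Cz w := (Subgroup.mem_normalizer_iff.mp hxN d).mp hd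
      refine Oz_inf_le_coreIn inf_le_right (Subgroup.mem_inf.mpr ⟨?_, mul_mem h1 (inv_mem (mul_mem (mul_mem hd hf) hwC))⟩)
      rw [← q_eq_iff (mul_mem (mul_mem hxw hdw) (inv_mem hxw)) (mul_mem (mul_mem hdw hfw) (self_mem_Cz w)),
        q_conj hxw hdw, q_mul (mul_mem hdw hfw) (self_mem_Cz w), q_mul hdw hfw, hfq]
      have hxi : (q w x)⁻¹ = q w x * q w w :=
        inv_eq_of_mul_eq_one_right (by rw [← mul_assoc, hx2, hKc.csq])
      rw [hxi, ← hxx.eq]
      calc q w x * q w d * (q w x * q w w) = q w d * ((q w d)⁻¹ * q w x * q w d) * q w x * q w w := by group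
        _ = _ := by
          rw [show (q w d)⁻¹ * q w x * q w d = q w d * q w x * (q w d)⁻¹ by rw [hdi]]
          group)
    (by
      have h1 : x * f * x⁻¹ ∈ Cz z ⊓ Cz w := (Subgroup.mem_normalizer_iff.mp hxN f).mp hf
      refine Oz_inf_le_coreIn inf_le_right (Subgroup.mem_inf.mpr ⟨?_, mul_mem h1 (inv_mem hf)⟩)
      rw [← q_eq_iff (mul_mem (mul_mem hxw hfw) (inv_mem hxw)) hfw, q_conj hxw hfw, hfq, ← hxx.eq]
      rw [← mul_assoc (q w x), mul_inv_cancel_right, hxx.eq])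
  set X' := s * x with hX'
  have hsz := mem_Cz.mp (Subgroup.mem_inf.mp hs).1
  have hsw := mem_Cz.mp (Subgroup.mem_inf.mp hs).2
  have hXz : X' * z * X'⁻¹ = z * w := by
    rw [hX', show s * x * z * (s * x)⁻¹ = s * (x * z * x⁻¹) * s⁻¹ by group, hxz, ← mul_assoc, hsz,
      mul_assoc z s, hsw]
    group
  have hXw : X' * w * X'⁻¹ = w := by
    rw [hX', show s * x * w * (s * x)⁻¹ = s * (x * w) * x⁻¹ * s⁻¹ by group, mem_Cz.mp hxw, ← mul_assoc s w, hsw]
    group
  have hXd : X' * d * X'⁻¹ = d * f * w := by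
    rw [hX', show s * x * d * (s * x)⁻¹ = s * (x * d * x⁻¹) * s⁻¹ by group, hsd]
  have hXf : X' * f * X'⁻¹ = f := by
    rw [hX', show s * x * f * (s * x)⁻¹ = s * (x * f * x⁻¹) * s⁻¹ by group, hsf]
  -- conjugators from `v` to `f` and to `f v`
  obtain ⟨h, hh, hhv⟩ := H.exists_move hd hd2 hne hform hyy (H.hK.q_mem hxK) hx2
    (F := f) ⟨hfw, mem_Cz.mpr hfd⟩ hf2 (by rw [hfq, hxx.eq])
  set v := z * w with hvdef
  have hfv : Commute f v :=
    (show Commute f z from mem_Cz.mp hfz).mul_right (show Commute f w from mem_Cz.mp hfw)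
  have hdv : Commute d v :=
    (show Commute d z from mem_Cz.mp hdz).mul_right (show Commute d w from mem_Cz.mp hdw)
  have hv2 : v * v = 1 := by
    rw [hvdef, (show Commute z w from hzw).symm.mul_mul_mul_comm, hz2, hw2, one_mul]
  have hyx : q w x * q w y * (q w x * q w y) = q w w := by
    have h1 : q w y * q w x = q w x * q w w * q w y := by rw [← hxy]; group
    rw [show q w x * q w y * (q w x * q w y) = q w x * (q w y * q w x) * q w y by group, h1,
      show q w x * (q w x * q w w * q w y) * q w y = q w x * q w x * q w w * (q w y * q w y) by group,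
      hx2, hKc.csq, one_mul, ← q_mul H.hyw H.hyw, hyy]
  obtain ⟨g, hg, hgv⟩ := H.exists_move hd hd2 hne hform hyy
    (mul_mem (H.hK.q_mem hxK) (H.hK.q_mem H.mem)) hyx (F := f * v)
    ⟨mul_mem hfw (mul_mem H.hzw' (self_mem_Cz w)),
      mem_Cz.mpr ((show Commute f d from hfd).mul_left hdv.symm).eq⟩
    (by rw [hfv.symm.mul_mul_mul_comm, hf2, hv2, one_mul])
    (by
      rw [q_mul hfw (mul_mem H.hzw' (self_mem_Cz w)), q_mul H.hzw' (self_mem_Cz w), hform, hfq]
      have hybi : (q w y)⁻¹ = q w y * q w w := inv_eq_of_mul_eq_one_right (by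
        rw [← mul_assoc, ← q_mul H.hyw H.hyw, hyy, hKc.csq])
      have hxyd : Commute (q w x) (q w d * q w y * (q w d)⁻¹) :=
        hKc.commute (hKc.conj _) hne.symm (H.hK.q_mem hxK) (mem_cs (H.hK.q_mem H.mem))
      rw [hybi, ← hxx.eq, mul_assoc (q w d * q w y * (q w d)⁻¹), mul_assoc (q w y), hKc.csq, mul_one]
      calc q w d * q w x * (q w d)⁻¹ * q w x * (q w d * q w y * (q w d)⁻¹ * q w y)
          = q w d * q w x * (q w d)⁻¹ * (q w x * (q w d * q w y * (q w d)⁻¹)) * q w y := by group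
        _ = _ := by rw [hxyd.eq]; group)
  obtain ⟨hhw, hhd⟩ := Subgroup.mem_inf.mp hh
  obtain ⟨hgw, hgd⟩ := Subgroup.mem_inf.mp hg
  have hhw' : h * w * h⁻¹ = w := by rw [mem_Cz.mp hhw, mul_inv_cancel_right]
  have hhd' : h * d * h⁻¹ = d := by rw [mem_Cz.mp hhd, mul_inv_cancel_right]
  have hgd' : g * d * g⁻¹ = d := by rw [mem_Cz.mp hgd, mul_inv_cancel_right]
  have mc : ∀ (c u1 u2 : G), c * (u1 * u2) * c⁻¹ = c * u1 * c⁻¹ * (c * u2 * c⁻¹) := fun c u1 u2 => by group
  have hhz : h * z * h⁻¹ = f * w := by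
    rw [show z = v * w by rw [hvdef, mul_assoc, hw2, mul_one], mc, hhv, hhw']
  have hhzd : h * (z * d) * h⁻¹ = f * w * d := by rw [mc, hhz, hhd']
  have hAfw : A' * (f * w) * A'⁻¹ = f * d * (w * z) := by rw [mc, hAf, hAw]
  have hAfwd : A' * (f * w * d) * A'⁻¹ = f * d * (w * z) * d := by rw [mc, hAfw, hAd]
  have e1 : f * d * (w * z) * d = v * f := by
    rw [← hzw, mul_assoc f d v, hdv.eq, mul_assoc, mul_assoc v d d, hd2, mul_one, hfv.eq]
  have hA2 : A' * (f * v) * A'⁻¹ = f * d * w := by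
    rw [hvdef, mc, mc A' z w, hAf, hAz, hAw, hzw.symm, ← mul_assoc z z w, hz2, one_mul]
  -- classical components
  have cf : ∀ {p : G} {L : Subgroup G}, Classical n p L → ∀ c : G, ∀ p' : G, c * p * c⁻¹ = p' →
      Classical n p' (cs c L) := fun hL c p' e => e ▸ hL.conj c
  have cn : ∀ {u : G} {L : Subgroup G}, u ∈ Subgroup.normalizer (L : Set G) → ∀ c : G, ∀ u' : G,
      c * u * c⁻¹ = u' → u' ∈ Subgroup.normalizer (cs c L : Set G) := fun hu c u' e =>
    e ▸ (mem_normalizer_cs).mpr (by rwa [show ∀ a b : G, a⁻¹ * (a * b * a⁻¹) * a = b from fun a b => by group])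
  have Cv : Classical n v (cs X' J) := cf H.hJ X' v hXz
  have Cfw : Classical n (f * w) (cs h J) := cf H.hJ h _ hhz
  have Cfv : Classical n (f * v) (cs g (cs X' J)) := cf Cv g _ hgv
  have Cfdw : Classical n (f * w * d) (cs A' (cs g (cs X' J))) := cf Cfv A' _ (by
    rw [hA2, mul_assoc f d w, mem_Cz.mp hdw, ← mul_assoc])
  have Cq : Classical n (f * d * (w * z)) (cs A' (cs h J)) := cf Cfw A' _ hAfw
  -- the positive side
  set Lzd := cs h⁻¹ (cs A' (cs g (cs X' J))) with hLzd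
  have Czd : Classical n (z * d) Lzd := cf Cfdw h⁻¹ _ (by rw [← hhzd]; group)
  have hzdN : z * d ∈ Subgroup.normalizer (J : Set G) :=
    mul_mem (Subgroup.le_normalizer H.hJ.mem) hdN
  have h1 : z ∈ Subgroup.normalizer (Lzd : Set G) := rel Czd H.hJ hzdN
  have C2 : Classical n (v * f) (cs A' (cs h Lzd)) :=
    cf (cf Czd h _ hhzd) A' _ (hAfwd.trans e1)
  have h2 : f * d * (w * z) ∈ Subgroup.normalizer (cs A' (cs h Lzd) : Set G) :=
    cn (cn h1 h _ hhz) A' _ hAfw
  -- the negative side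
  have C3 : Classical n v (cs g⁻¹ (cs A' (cs h Lzd))) := cf C2 g⁻¹ v (by
    rw [← hfv.eq, ← hgv, hvdef]; group)
  have e2 : g⁻¹ * (f * d * (w * z)) * g⁻¹⁻¹ = v * d := by
    rw [← hzw, mul_assoc f d v, hdv.eq, ← mul_assoc f v d, ← hgv]
    calc g⁻¹ * (g * v * g⁻¹ * d) * g⁻¹⁻¹ = v * (g⁻¹ * d * g) := by group
      _ = v * d := by rw [show g⁻¹ * d * g = d by
                        conv_lhs => rw [← hgd']
                        group]
  have h3 := cn h2 g⁻¹ _ e2
  have hXv : X' * v * X'⁻¹ = z := by rw [hvdef, mc, hXz, hXw, mul_assoc, hw2, mul_one]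
  have C4 : Classical n z (cs X' (cs g⁻¹ (cs A' (cs h Lzd)))) := cf C3 X' z hXv
  have e3 : X' * (v * d) * X'⁻¹ = f * d * (w * z) := by
    rw [mc, hXv, hXd, ← hfd]
    exact ((show Commute z (f * d * w) from
      (((show Commute f z from mem_Cz.mp hfz).mul_left (show Commute d z from mem_Cz.mp hdz)).mul_left
        (show Commute w z from hzw.symm)).symm).eq.trans (mul_assoc _ w z))
  have h4 := cn h3 X' _ e3
  have h5 : f * d * (w * z) ∈ Subgroup.normalizer (J : Set G) := rel H.hJ Cq (rel Cq C4 h4)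
  have hfN : f ∈ Subgroup.normalizer (J : Set G) := by
    have h6 := mul_mem h5 (inv_mem (mul_mem hdN (mul_mem H.wN (Subgroup.le_normalizer H.hJ.mem))))
    rwa [show f * d * (w * z) * (d * (w * z))⁻¹ = f by group] at h6
  have hmem : q z y * q z a * (q z y)⁻¹ * q z z ∈ bar z J := by
    rw [← hfa]
    have h := mem_cs (g := q z f) (H.hJ.q_mem haJ)
    rwa [(H.hJ.cs_q hfz).mp hfN] at h
  have hy'A : q z y * q z a * (q z y)⁻¹ ∈ bar z J := by
    have h := mul_mem hmem hA.mem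
    rwa [mul_assoc, hA.csq, mul_one] at h
  have hout := hA.out2_of_sq (t := q z y * q z a * (q z y)⁻¹) (by
    rw [show q z y * q z a * (q z y)⁻¹ * (q z y * q z a * (q z y)⁻¹) =
      q z y * (q z a * q z a) * (q z y)⁻¹ by group, ha2, hA.cent, mul_inv_cancel_right])
  rcases hA.meet hB H.ne.symm hy'A (mem_cs (H.hJ.q_mem haJ)) with e | e
  · exact hout.1 e
  · exact hout.2 e

/-- An involution lifting a diagonal element cannot fix the component. -/
theorem Moves.not_fix (H : Moves n z J w K y) {a x f : G} (haJ : a ∈ J)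
    (ha2 : q z a * q z a = q z z) (hwa : q z w * q z a * q z w = q z a * q z z)
    (hf : f ∈ Cz z ⊓ Cz w) (hf2 : f * f = 1)
    (hxK : x ∈ K) (hxy : q w y * q w x * (q w y)⁻¹ = q w x * q w w)
    (hfy : ∀ b ∈ bar w K, q w f * b * (q w f)⁻¹ = q w x * b * (q w x)⁻¹)
    (hdf : Commute (q z f) (q z a * (q z y * q z a * (q z y)⁻¹))) :
    cs (q z f) (bar z J) ≠ bar z J := by
  intro hfix
  obtain ⟨hfz, hfw⟩ := Subgroup.mem_inf.mp hf
  have hA := H.hJ.isComp
  have hB := hA.conj (q z y)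
  have hKc := H.hK.isComp
  have haA := H.hJ.q_mem haJ
  have hs : q z w * q z w = 1 := by rw [← q_mul H.hwz H.hwz, sq_of_orderOf H.hK.ord, q_one]
  set ab := q z a with hab'
  set yb := q z y with hyb
  set fb := q z f with hfb
  set c := q z z with hc
  set a' := yb * ab * yb⁻¹ with ha'
  have hfi : fb⁻¹ = fb := by rw [hfb, ← q_inv hfz, inv_eq_of_mul_eq_one_right hf2]
  have ha1 : fb * ab * fb⁻¹ ∈ bar z J := by
    have h := mem_cs (g := fb) haA
    rwa [hfix] at h
  have hprod : fb * ab * fb⁻¹ * (fb * a' * fb⁻¹) = ab * a' := by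
    rw [show fb * ab * fb⁻¹ * (fb * a' * fb⁻¹) = fb * (ab * a') * fb⁻¹ by group, hdf.eq, mul_inv_cancel_right]
  -- the image of `a` is `a` times a central element
  have hne2 : cs fb (cs yb (bar z J)) ≠ bar z J := fun e => H.ne (cs_inj (e.trans hfix.symm))
  have hcen : ∀ b ∈ bar z J, ((fb * ab * fb⁻¹)⁻¹ * ab) * b = b * ((fb * ab * fb⁻¹)⁻¹ * ab) := by
    intro b hb
    have e : (fb * ab * fb⁻¹)⁻¹ * ab = fb * a' * fb⁻¹ * a'⁻¹ := by
      rw [eq_mul_inv_iff_mul_eq, mul_assoc, ← hprod]; group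
    rw [e]
    exact (Commute.mul_left (hA.commute (hB.conj fb) hne2.symm hb (mem_cs (mem_cs haA))).symm
      (Commute.inv_left (hA.commute hB H.ne.symm hb (mem_cs haA)).symm)).eq
  set e0 := (fb * ab * fb⁻¹)⁻¹ * ab with he0
  have he0c : ∀ u, u * e0 = e0 * u := by
    intro u
    rcases hA.eq_of_central (mul_mem (inv_mem ha1) haA) hcen with e | e <;> rw [he0, e]
    · simp
    · exact hA.cent u
  have ha1e : fb * ab * fb⁻¹ = ab * e0⁻¹ := by rw [he0, mul_inv_rev, inv_inv, mul_inv_cancel_left]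
  have hp2 : fb * a' * fb⁻¹ = a' * e0 := by
    have h := hprod
    rw [ha1e, mul_assoc] at h
    rw [he0c a']
    exact eq_inv_mul_iff_mul_eq.mp (mul_left_cancel h).symm |>.symm
  have hfaf : fb⁻¹ * ab * fb = ab * e0⁻¹ := by rw [← ha1e, hfi]
  -- a congruence in `C(z) ∩ C(w)`
  set r := f * y * f⁻¹ * (y * w)⁻¹ with hr
  have hyC : y ∈ Cz z ⊓ Cz w := ⟨H.hyz, H.hyw⟩
  have hwC : w ∈ Cz z ⊓ Cz w := ⟨H.hwz, self_mem_Cz w⟩
  have hrC : r ∈ Cz z ⊓ Cz w := mul_mem (mul_mem (mul_mem hf hyC) (inv_mem hf)) (inv_mem (mul_mem hyC hwC))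
  have hrO : r ∈ coreIn (Cz z ⊓ Cz w) := by
    refine Oz_inf_le_coreIn inf_le_right (Subgroup.mem_inf.mpr ⟨?_, hrC⟩)
    rw [hr, ← q_eq_iff (mul_mem (mul_mem hfw H.hyw) (inv_mem hfw)) (mul_mem H.hyw (self_mem_Cz w)),
      q_conj hfw H.hyw, hfy _ (H.hK.q_mem H.mem), q_mul H.hyw (self_mem_Cz w)]
    have h : q w y * q w x = q w x * q w w * q w y := by rw [← hxy]; group
    rw [mul_inv_eq_iff_eq_mul, mul_assoc (q w y), ← hKc.cent (q w x), ← mul_assoc (q w y), h,
      mul_assoc _ (q w y) (q w w), hKc.cent (q w y), ← mul_assoc, mul_assoc (q w x) (q w w) (q w w),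
      hKc.csq, mul_one]
  have hrz := (Subgroup.mem_inf.mp hrC).1
  have hq : q z r = fb * yb * fb⁻¹ * (q z w)⁻¹ * yb⁻¹ := by
    rw [hr, q_mul (mul_mem (mul_mem hfz H.hyz) (inv_mem hfz)) (inv_mem (mul_mem H.hyz H.hwz)),
      q_conj hfz H.hyz, q_inv (mul_mem H.hyz H.hwz), q_mul H.hyz H.hwz, ← hfb, ← hyb]
    group
  have hrel : q z r * a' * (q z r)⁻¹ = a' * c := by
    have hwi : (q z w)⁻¹ = q z w := inv_eq_of_mul_eq_one_right hs
    have h1 : (q z w)⁻¹ * ab * q z w = ab * c := by rw [hwi, hwa]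
    have h2 : fb⁻¹ * (ab * c) * fb = ab * e0⁻¹ * c := by
      rw [show fb⁻¹ * (ab * c) * fb = fb⁻¹ * ab * (c * fb) by group, ← hA.cent fb, ← mul_assoc, hfaf]
    have h3 : yb * (ab * e0⁻¹ * c) * yb⁻¹ = a' * e0⁻¹ * c := by
      calc yb * (ab * e0⁻¹ * c) * yb⁻¹ = yb * ab * e0⁻¹ * (c * yb⁻¹) := by group
        _ = yb * ab * (e0⁻¹ * yb⁻¹) * c := by rw [← hA.cent yb⁻¹]; group
        _ = yb * ab * (yb⁻¹ * e0⁻¹) * c := by
          rw [((show Commute yb e0 from he0c yb).inv_left.inv_right).eq]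
        _ = a' * e0⁻¹ * c := by rw [ha']; group
    have h4 : fb * (a' * e0⁻¹ * c) * fb⁻¹ = a' * c := by
      calc fb * (a' * e0⁻¹ * c) * fb⁻¹ = fb * a' * e0⁻¹ * (c * fb⁻¹) := by group
        _ = fb * a' * (e0⁻¹ * fb⁻¹) * c := by rw [← hA.cent fb⁻¹]; group
        _ = fb * a' * (fb⁻¹ * e0⁻¹) * c := by
          rw [((show Commute fb e0 from he0c fb).inv_left.inv_right).eq]
        _ = a' * e0 * e0⁻¹ * c := by rw [← mul_assoc, hp2]
        _ = a' * c := by rw [mul_inv_cancel_right]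
    calc q z r * a' * (q z r)⁻¹
        = fb * (yb * (fb⁻¹ * ((q z w)⁻¹ * ab * q z w) * fb) * yb⁻¹) * fb⁻¹ := by rw [hq, ha']; group
      _ = a' * c := by rw [h1, h2, h3, h4]
  have hodd : Odd (orderOf (q z r)) := by
    refine (odd_orderOf_of_mem (odd_coreIn _) hrO).of_dvd_nat (orderOf_dvd_of_pow_eq_one ?_)
    rw [← q_pow hrz, pow_orderOf_eq_one, q_one]
  have h := conj_pow_shift hrel (hA.cent (q z r)) (orderOf (q z r))
  rw [pow_orderOf_eq_one, pow_sq_one hA.csq hodd, one_mul, inv_one, mul_one] at h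
  exact hA.ne_one (left_eq_mul.mp h)

/-- **No element moves.** -/
theorem Moves.false (H : Moves n z J w K y) : False := by
  have hA := H.hJ.isComp
  have hB := hA.conj (q z y)
  have hKc := H.hK.isComp
  obtain ⟨a, haJ, haw, ha2, hwa⟩ := H.exists_inverted_four
  have haA := H.hJ.q_mem haJ
  obtain ⟨hyy, hinner⟩ := H.inner haA hwa
  -- the diagonal involution
  obtain ⟨d0, hd0, hd0q, -⟩ := H.lift_diag haA (Or.inr hwa)
  have hd0z := (Subgroup.mem_inf.mp hd0).1
  have hab : Commute (q z a) (q z y * q z a * (q z y)⁻¹) :=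
    hA.commute hB H.ne.symm haA (mem_cs haA)
  have hd0sq : q z d0 * q z d0 = 1 := by
    rw [hd0q, hab.symm.mul_mul_mul_comm, ha2,
      show q z y * q z a * (q z y)⁻¹ * (q z y * q z a * (q z y)⁻¹) =
        q z y * (q z a * q z a) * (q z y)⁻¹ by group, ha2, hA.cent, mul_inv_cancel_right, hA.csq]
  obtain ⟨md, -, hd2, hdq0⟩ := exists_invol_pow hd0z hd0sq
  set d := d0 ^ md with hd'
  have hd : d ∈ Cz z ⊓ Cz w := pow_mem hd0 md
  have hdq := hdq0.trans hd0q
  obtain ⟨hne, hform⟩ := hinner d hd hdq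
  obtain ⟨hdz, hdw⟩ := Subgroup.mem_inf.mp hd
  -- the element of order four in `K`
  obtain ⟨x0, hx0, hx0z⟩ := (H.hK.exists_inverting H.hJ.ord H.zN).resolve_right H.sigma
  obtain ⟨m, hm, k, hk⟩ : ∃ m, Odd m ∧ ∃ k, (x0 ^ m) ^ 2 ^ k = 1 := by
    refine ⟨orderOf x0 / 2 ^ (orderOf x0).factorization 2, ?_, (orderOf x0).factorization 2, ?_⟩
    · exact Nat.odd_iff.mpr (Nat.two_dvd_ne_zero.mp (Nat.not_dvd_ordCompl Nat.prime_two (orderOf_pos x0).ne'))
    · rw [← pow_mul, mul_comm, Nat.ordProj_mul_ordCompl_eq_self, pow_orderOf_eq_one]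
  set x := x0 ^ m with hx
  have hxK : x ∈ K := pow_mem hx0 m
  have hxw : x ∈ Cz w := H.hK.le hxK
  have hxz : x * z * x⁻¹ = z * w := by
    rw [hx, conj_pow_shift hx0z (mem_Cz.mp (H.hK.le hx0)) m, pow_sq_one (sq_of_orderOf H.hK.ord) hm]
  have hy := H.hK.q_mem H.mem
  have hxb := H.hK.q_mem hxK
  have hzb2 : q w z * q w z = 1 := by rw [← q_mul H.hzw' H.hzw', sq_of_orderOf H.hJ.ord, q_one]
  have himg : q w z * q w x * q w z = q w x * q w w := by
    have h : q w x * q w z = q w z * q w w * q w x := by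
      rw [← q_mul hxw H.hzw', ← q_mul H.hzw' (self_mem_Cz w),
        ← q_mul (mul_mem H.hzw' (self_mem_Cz w)) hxw, ← hxz]
      congr 1
      group
    rw [mul_assoc, h, ← mul_assoc, ← mul_assoc, hzb2, one_mul, hKc.cent (q w x)]
  have hydx : ∀ b ∈ bar w K, Commute (q w d * q w y * (q w d)⁻¹) b := fun b hb =>
    (hKc.conj _).commute hKc hne (mem_cs hy) hb
  have hinv : (q w y)⁻¹ * q w x * q w y = q w x * q w w := by
    have h := himg
    have hzi : q w z = (q w z)⁻¹ := (inv_eq_of_mul_eq_one_right hzb2).symm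
    conv_lhs at h => arg 2; rw [hzi]
    rw [hform] at h
    rw [← h]
    have hc := hydx _ (mul_mem (mul_mem (inv_mem hy) hxb) hy)
    calc (q w y)⁻¹ * q w x * q w y
        = (q w y)⁻¹ * q w x * q w y * (q w d * q w y * (q w d)⁻¹) * (q w d * q w y * (q w d)⁻¹)⁻¹ := by group
      _ = q w d * q w y * (q w d)⁻¹ * ((q w y)⁻¹ * q w x * q w y) * (q w d * q w y * (q w d)⁻¹)⁻¹ := by rw [hc.eq]
      _ = _ := by group
  have hxy : q w y * q w x * (q w y)⁻¹ = q w x * q w w := by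
    calc q w y * q w x * (q w y)⁻¹
        = q w y * (q w x * q w w * q w w) * (q w y)⁻¹ := by rw [mul_assoc (q w x), hKc.csq, mul_one]
      _ = q w y * ((q w y)⁻¹ * q w x * q w y * q w w) * (q w y)⁻¹ := by rw [hinv]
      _ = q w x * (q w y * q w w * (q w y)⁻¹) := by group
      _ = q w x * q w w := by rw [hKc.cent (q w y), mul_inv_cancel_right]
  have hyb2 : q w y * q w y = q w w := by rw [← q_mul H.hyw H.hyw, hyy]
  have hx2 : q w x * q w x = q w w :=
    hKc.order_four (p := q w x) (q := q w y) hxb hy hyb2 (k := k) (by rw [← q_pow hxw, hk, q_one]) hxy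
  -- the involution over `x x'`
  set x' := q w d * q w x * (q w d)⁻¹ with hx'
  have hxx : Commute x' (q w x) := (hKc.conj _).commute hKc hne (mem_cs hxb) hxb
  have hdb2 : q w d * q w d = 1 := by rw [← q_mul hdw hdw, hd2, q_one]
  obtain ⟨g, hg, hgq⟩ := q_surj (q w x * x')
  have hgd : q w g * q w d = q w d * q w g := by
    have hdi : (q w d)⁻¹ = q w d := inv_eq_of_mul_eq_one_right hdb2
    rw [hgq]
    calc q w x * x' * q w d = q w x * q w d * q w x := by rw [hx']; group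
      _ = (q w d * q w d) * q w x * q w d * q w x := by rw [hdb2, one_mul]
      _ = q w d * (q w d * q w x * (q w d)⁻¹ * q w x) := by rw [hdi]; group
      _ = q w d * (x' * q w x) := by rw [hx']
      _ = q w d * (q w x * x') := by rw [hxx.eq]
  obtain ⟨o1, -, h1w, h1d, h1q⟩ := lift_comm hd2 hdw hg hgd
  have hzd : Commute z d := (mem_Cz.mp hdz).symm
  have hfz : Commute (q w (o1 * g)) (q w z) := by
    rw [h1q, hgq]
    have hzi : (q w z)⁻¹ = q w z := inv_eq_of_mul_eq_one_right hzb2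
    have e1 : q w z * q w x * (q w z)⁻¹ = q w x * q w w := by rw [hzi, himg]
    have hzdb : Commute (q w z) (q w d) := q_commute H.hzw' hdw hzd.eq
    have e2 : q w z * x' * (q w z)⁻¹ = x' * q w w := by
      calc q w z * x' * (q w z)⁻¹ = (q w z * q w d) * q w x * (q w z * q w d)⁻¹ := by rw [hx']; group
        _ = q w d * (q w z * q w x * (q w z)⁻¹) * (q w d)⁻¹ := by rw [hzdb.eq]; group
        _ = q w d * (q w x * q w w) * (q w d)⁻¹ := by rw [e1]
        _ = x' * (q w d * q w w * (q w d)⁻¹) := by rw [hx']; group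
        _ = x' * q w w := by rw [hKc.cent (q w d), mul_inv_cancel_right]
    refine (mul_inv_eq_iff_eq_mul.mp ?_ : q w z * (q w x * x') = q w x * x' * q w z).symm
    calc q w z * (q w x * x') * (q w z)⁻¹ = (q w z * q w x * (q w z)⁻¹) * (q w z * x' * (q w z)⁻¹) := by group
      _ = q w x * q w w * (x' * q w w) := by rw [e1, e2]
      _ = q w x * x' := by
        rw [mul_assoc (q w x), ← mul_assoc (q w w), ← hKc.cent x', mul_assoc x', hKc.csq, mul_one]
  obtain ⟨o2, ho2, h2w, h2z, h2q⟩ := lift_comm (sq_of_orderOf H.hJ.ord) H.hzw' h1w hfz.eq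
  have h2d : o2 ∈ Cz d := mem_zpowers_le (mul_mem (mem_Cz.mpr hzd.eq)
    (mul_mem (mul_mem h1d (mem_Cz.mpr hzd.eq)) (inv_mem h1d))) ho2
  have hq2 : q w (o2 * (o1 * g)) = q w x * x' := by rw [h2q, h1q, hgq]
  have hsq : q w (o2 * (o1 * g)) * q w (o2 * (o1 * g)) = 1 := by
    rw [hq2, hxx.mul_mul_mul_comm, hx2, hx', show q w d * q w x * (q w d)⁻¹ * (q w d * q w x * (q w d)⁻¹) =
      q w d * (q w x * q w x) * (q w d)⁻¹ by group, hx2, hKc.cent, mul_inv_cancel_right, hKc.csq]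
  obtain ⟨mf, -, hf2, hfq0⟩ := exists_invol_pow h2w hsq
  set f := (o2 * (o1 * g)) ^ mf with hf'
  have hf : f ∈ Cz z ⊓ Cz w := Subgroup.mem_inf.mpr ⟨pow_mem h2z mf, pow_mem h2w mf⟩
  have hfd : f * d = d * f := mem_Cz.mp (pow_mem (mul_mem h2d h1d) mf)
  have hfq := hfq0.trans hq2
  obtain ⟨hfz', hfw⟩ := Subgroup.mem_inf.mp hf
  have hfab : Commute (q z f) (q z a * (q z y * q z a * (q z y)⁻¹)) := by
    rw [← hdq]; exact q_commute hfz' hdz hfd
  have hnfix : cs (q z f) (bar z J) ≠ bar z J := by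
    refine H.not_fix haJ ha2 hwa hf hf2 hxK hxy (fun b hb => ?_) hfab
    rw [hfq, mul_inv_rev, show q w x * x' * b * (x'⁻¹ * (q w x)⁻¹) = q w x * (x' * b * x'⁻¹) * (q w x)⁻¹ by group,
      ((hKc.conj _).commute hKc hne (mem_cs hxb) hb : x' * b = b * x'), mul_inv_cancel_right]
  have hswap : cs (q z f) (bar z J) = cs (q z y) (bar z J) :=
    (hA.support hB H.ne.symm haA (mem_cs haA) (hA.out2_of_sq ha2) hfab.eq).resolve_left hnfix
  set fb := q z f with hfb
  set a' := q z y * q z a * (q z y)⁻¹ with ha'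
  have ha1 : fb * q z a * fb⁻¹ ∈ cs (q z y) (bar z J) := hswap ▸ mem_cs haA
  have ha'2 : a' * a' = q z z := by
    rw [ha', show q z y * q z a * (q z y)⁻¹ * (q z y * q z a * (q z y)⁻¹) =
      q z y * (q z a * q z a) * (q z y)⁻¹ by group, ha2, hA.cent, mul_inv_cancel_right]
  have hne3 : cs fb (cs (q z y) (bar z J)) ≠ cs (q z y) (bar z J) := fun e =>
    H.ne (cs_inj (e.trans hswap.symm))
  have hcase : fb * q z a * fb⁻¹ = a' ∨ fb * q z a * fb⁻¹ = a' * q z z := by
    have hc : ∀ b ∈ cs (q z y) (bar z J), (a'⁻¹ * (fb * q z a * fb⁻¹)) * b = b * (a'⁻¹ * (fb * q z a * fb⁻¹)) := by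
      intro b hb
      have e : a'⁻¹ * (fb * q z a * fb⁻¹) = q z a * (fb * a' * fb⁻¹)⁻¹ := by
        rw [inv_mul_eq_iff_eq_mul, ← mul_assoc, ← hab.eq, eq_mul_inv_iff_mul_eq,
          show fb * q z a * fb⁻¹ * (fb * a' * fb⁻¹) = fb * (q z a * a') * fb⁻¹ by group, hfab.eq,
          mul_inv_cancel_right]
      rw [e]
      exact (Commute.mul_left (hA.commute hB H.ne.symm haA hb)
        (Commute.inv_left ((hB.conj fb).commute hB hne3 (mem_cs (mem_cs haA)) hb))).eq
    rcases hB.eq_of_central (mul_mem (inv_mem (mem_cs haA)) ha1) hc with e | e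
    · exact Or.inl (inv_mul_eq_one.mp e).symm
    · exact Or.inr (inv_mul_eq_iff_eq_mul.mp e)
  rcases hcase with e | e
  · -- replace `x` by `x y`
    have hv2 : z * w * (z * w) = 1 := by
      rw [(show Commute z w from mem_Cz.mp H.hzw').symm.mul_mul_mul_comm, sq_of_orderOf H.hJ.ord,
        sq_of_orderOf H.hK.ord, one_mul]
    have hfv : Commute f (z * w) :=
      (show Commute f z from mem_Cz.mp hfz').mul_right (show Commute f w from mem_Cz.mp hfw)
    have hzw0 : z * w ∈ Cz z ⊓ Cz w :=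
      mul_mem ⟨self_mem_Cz z, H.hzw'⟩ ⟨H.hwz, self_mem_Cz w⟩
    have hdv : Commute d (z * w) :=
      (show Commute d z from mem_Cz.mp hdz).mul_right (show Commute d w from mem_Cz.mp hdw)
    have hzw1 : q w (z * w) = q w d * q w y * (q w d)⁻¹ * q w y := by
      have hybi : (q w y)⁻¹ = q w y * q w w :=
        inv_eq_of_mul_eq_one_right (by rw [← mul_assoc, hyb2, hKc.csq])
      rw [q_mul H.hzw' (self_mem_Cz w), hform, hybi, mul_assoc (q w d * q w y * (q w d)⁻¹),
        mul_assoc (q w y), hKc.csq, mul_one]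
    have hmul : q w (x * y) = q w x * q w y := q_mul hxw H.hyw
    refine H.core (a := a) (d := d) (x := x * y) (f := f * (z * w)) haJ haw ha2 hd hd2 hdq hyy hne hform
      (K.mul_mem hxK H.mem) ?_ ?_ ?_ (mul_mem hf hzw0) ?_ ?_ ?_ ?_
    · rw [show x * y * z * (x * y)⁻¹ = x * (y * z) * y⁻¹ * x⁻¹ by group, H.comm,
        show x * (z * y) * y⁻¹ * x⁻¹ = x * z * x⁻¹ by group, hxz]
    · have h1 : q w y * q w x = q w x * q w w * q w y := by rw [← hxy]; group
      rw [hmul, show q w x * q w y * (q w x * q w y) = q w x * (q w y * q w x) * q w y by group, h1,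
        show q w x * (q w x * q w w * q w y) * q w y = q w x * q w x * q w w * (q w y * q w y) by group,
        hx2, hKc.csq, one_mul, hyb2]
    · rw [hmul, show q w y * (q w x * q w y) * (q w y)⁻¹ = q w y * q w x * (q w y)⁻¹ * q w y by group, hxy,
        mul_assoc, ← hKc.cent (q w y), ← mul_assoc]
    · rw [hfv.symm.mul_mul_mul_comm, hf2, hv2, one_mul]
    · exact ((show Commute f d from hfd).mul_left hdv.symm).eq
    · rw [q_mul hfw (Subgroup.mem_inf.mp hzw0).2, hfq, hzw1, hmul]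
      have h1 : Commute (q w x) (q w d * q w y * (q w d)⁻¹) := (hydx _ hxb).symm
      have h2 : Commute x' (q w x * q w y) :=
        (hKc.conj _).commute hKc hne (mem_cs hxb) (mul_mem hxb hy)
      calc q w x * x' * (q w d * q w y * (q w d)⁻¹ * q w y)
          = q w x * (q w d * (q w x * q w y) * (q w d)⁻¹) * q w y := by rw [hx']; group
        _ = q w d * (q w x * q w y) * (q w d)⁻¹ * q w x * q w y := by
          rw [show q w x * (q w d * (q w x * q w y) * (q w d)⁻¹) = q w d * (q w x * q w y) * (q w d)⁻¹ * q w x from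
            (hKc.commute (hKc.conj _) hne.symm hxb (mem_cs (mul_mem hxb hy)))]
        _ = _ := by
          have h3 := (hKc.conj (q w d)).commute hKc hne (mem_cs (mul_mem hxb hy)) (mul_mem hxb hy)
          rw [← h3]; group
    · rw [q_mul hfz' (Subgroup.mem_inf.mp hzw0).1, q_mul (self_mem_Cz z) H.hwz, ← hfb]
      have hs : q z w * q z w = 1 := by rw [← q_mul H.hwz H.hwz, sq_of_orderOf H.hK.ord, q_one]
      have hwi : (q z w)⁻¹ = q z w := inv_eq_of_mul_eq_one_right hs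
      calc fb * (q z z * q z w) * q z a * (fb * (q z z * q z w))⁻¹
          = fb * q z z * (q z w * q z a * (q z w)⁻¹) * (q z z)⁻¹ * fb⁻¹ := by group
        _ = fb * (q z z * (q z a * q z z)) * (q z z)⁻¹ * fb⁻¹ := by rw [hwi, hwa]; group
        _ = fb * q z a * (q z z * fb⁻¹) := by rw [← hA.cent (q z a * q z z)]; group
        _ = fb * q z a * fb⁻¹ * q z z := by rw [← hA.cent fb⁻¹]; group
        _ = a' * q z z := by rw [e]
  · exact H.core haJ haw ha2 hd hd2 hdq hyy hne hform hxK hxz hx2 hxy hf hf2 hfd hfq e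

/-- **Part (i).** -/
theorem normalizes_of_power (hJ : Classical n z J) (hK : Classical n w K) (hne : J ≠ K) (hy : y ∈ K)
    (h2 : ∃ k : ℕ, y ^ 2 ^ k = 1) (h4 : 4 ≤ orderOf y) (hyz : y * z = z * y) :
    y ∈ Subgroup.normalizer (J : Set G) := by
  rcases eq_or_ne z w with rfl | hzw
  · haveI : Fact (Nat.Prime 2) := ⟨Nat.prime_two⟩
    have hne' : K.subgroupOf (Cz z) ≠ J.subgroupOf (Cz z) := fun e => hne (by
      have := congrArg (Subgroup.map (Cz z).subtype) e
      rw [Subgroup.subgroupOf_map_subtype, Subgroup.subgroupOf_map_subtype, inf_of_le_left hJ.le,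
        inf_of_le_left hK.le] at this
      exact this.symm)
    have h := pComponent_le_normalizer hK.comp hJ.comp (show (⟨y, hK.le hy⟩ : ↥(Cz z)) ∈ _ from hy)
    refine Subgroup.mem_normalizer_iff.mpr fun g => ?_
    constructor
    · exact fun hg => (Subgroup.mem_normalizer_iff.mp h ⟨g, hJ.le hg⟩).mp hg
    · intro hg
      have hgC : g ∈ Cz z := by
        have h1 := mul_mem (mul_mem (inv_mem (hK.le hy)) (hJ.le hg)) (hK.le hy)
        rwa [show y⁻¹ * (y * g * y⁻¹) * y = g by group] at h1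
      exact (Subgroup.mem_normalizer_iff.mp h ⟨g, hgC⟩).mpr hg
  obtain ⟨k, hk⟩ := h2
  obtain ⟨j, -, hjo⟩ := (Nat.dvd_prime_pow Nat.prime_two).mp (orderOf_dvd_of_pow_eq_one hk)
  obtain ⟨i, rfl⟩ : ∃ i, j = i + 1 := by
    refine ⟨j - 1, ?_⟩
    rcases Nat.eq_zero_or_pos j with rfl | h0
    · rw [hjo] at h4; norm_num at h4
    · omega
  have hwy : y ^ 2 ^ i = w := by
    refine hK.uniq _ (pow_mem hy _) (orderOf_eq_prime ?_ (pow_ne_one_of_lt_orderOf (by positivity) ?_))
    · rw [← pow_mul, ← pow_succ, ← hjo, pow_orderOf_eq_one]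
    · rw [hjo, pow_succ]; have : 0 < 2 ^ i := by positivity
      omega
  have hzw' : z * w = w * z := by rw [← hwy]; exact ((show Commute y z from hyz).pow_left _).symm.eq
  have hwN : w ∈ Subgroup.normalizer (J : Set G) :=
    rel hJ hK (hK.normalizes_of_fixed hy hk h4 hzw' hyz)
  by_contra hmove
  classical
  have hex : ∃ m, y ^ 2 ^ m ∈ Subgroup.normalizer (J : Set G) := ⟨k, hk ▸ one_mem _⟩
  set m := Nat.find hex
  have hm : y ^ 2 ^ m ∈ Subgroup.normalizer (J : Set G) := Nat.find_spec hex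
  rcases Nat.eq_zero_or_pos m with h0 | h0
  · rw [h0, pow_zero, pow_one] at hm
    exact hmove hm
  obtain ⟨l, hl⟩ : ∃ l, m = l + 1 := ⟨m - 1, by omega⟩
  have hmin : y ^ 2 ^ l ∉ Subgroup.normalizer (J : Set G) := Nat.find_min hex (show l < m by omega)
  have hil : l < i := by
    by_contra! hle
    obtain ⟨e, rfl⟩ : ∃ e, l = i + e := ⟨l - i, by omega⟩
    rw [pow_add, pow_mul, hwy] at hmin
    exact hmin (pow_mem hwN _)
  exact Moves.false (n := n) (z := z) (J := J) (w := w) (K := K) (y := y ^ 2 ^ l)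
    { hJ := hJ
      hK := hK
      hzw := hzw
      mem := pow_mem hy _
      two := ⟨k, by rw [← pow_mul, mul_comm, pow_mul, hk, one_pow]⟩
      four := by
        rw [orderOf_pow' y (by positivity : 2 ^ l ≠ 0), hjo, Nat.gcd_eq_right (pow_dvd_pow 2 (by omega)),
          Nat.pow_div (by omega) (by norm_num)]
        calc 4 = 2 ^ 2 := by norm_num
          _ ≤ _ := Nat.pow_le_pow_right (by norm_num) (by omega)
      comm := ((show Commute y z from hyz).pow_left _).eq
      move := hmin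
      sqFix := by rw [← pow_add, ← two_mul, ← pow_succ', ← hl]; exact hm }

end CfsgLib.SLTwoPair
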