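import Cfsg.Agent.SLTwoPair6.Frame
import Cfsg.Agent.LBalance.Main
import Cfsg.Agent.PSL2Two.Concrete
import Cfsg.Agent.Chars.Apps.Burnside
import Cfsg.Agent.Eq.Def_SporadicB
import Cfsg.Agent.S2602
import Cfsg.Agent.S2119

/-!
`SL(2, q)` for odd `q ≥ 5` and the double cover of `A₇` have the properties used in the argument.
-/

set_option autoImplicit false

namespace CfsgLib.SLTwoPair

open Cfsg CfsgLib.Cores

universe u

/-- An automorphism trivial modulo the centre of a perfect group is trivial. -/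
theorem aut_eq_one {Q : Type u} [Group Q] [Group.IsPerfect Q] (φ : MulAut Q)
    (h : ∀ x, φ x * x⁻¹ ∈ Subgroup.center Q) : φ = 1 := by
  let χ : Q →* ↥(Subgroup.center Q) :=
    { toFun := fun k => ⟨φ k * k⁻¹, h k⟩
      map_one' := by ext; simp
      map_mul' := fun a b => by
        refine Subtype.ext ?_
        show φ (a * b) * (a * b)⁻¹ = φ a * a⁻¹ * (φ b * b⁻¹)
        rw [map_mul, mul_inv_rev]
        have hb := Subgroup.mem_center_iff.mp (h b) a⁻¹
        calc φ a * φ b * (b⁻¹ * a⁻¹) = φ a * ((φ b * b⁻¹) * a⁻¹) := by group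
          _ = φ a * (a⁻¹ * (φ b * b⁻¹)) := by rw [hb]
          _ = _ := by group }
  have hle : commutator Q ≤ χ.ker := by
    rw [commutator_def, Subgroup.commutator_le]
    intro a _ b _
    rw [MonoidHom.mem_ker, map_commutatorElement, commutatorElement_eq_one_iff_mul_comm]
    exact Subtype.ext (Subgroup.mem_center_iff.mp (χ b).2 _)
  rw [Group.IsPerfect.commutator_eq_top] at hle
  ext k
  have h1 : φ k * k⁻¹ = 1 := congrArg Subtype.val (hle (Subgroup.mem_top k) : χ k = 1)
  exact mul_inv_eq_one.mp h1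

/-- A quasisimple group with one involution and a good quotient is good. -/
theorem good_of_quotient {Q : Type u} [Group Q] [Finite Q] (hq : IsQuasisimple Q)
    (hc : Nat.card ↥(Subgroup.center Q) = 2)
    (huniq : ∀ a b : Q, orderOf a = 2 → orderOf b = 2 → a = b)
    (hS : Group.IsSolvable (Out (Q ⧸ Subgroup.center Q)))
    (hcls : ∀ u v : Q ⧸ Subgroup.center Q, orderOf u = 2 → orderOf v = 2 → ∃ g, g * u * g⁻¹ = v)
    (hex : ∃ v : Q ⧸ Subgroup.center Q, orderOf v = 2) : Good Q := by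
  haveI := hq.1
  haveI := hS
  haveI : Fact (Nat.Prime 2) := ⟨Nat.prime_two⟩
  obtain ⟨c, hcZ, hco⟩ : ∃ c ∈ Subgroup.center Q, orderOf c = 2 := by
    obtain ⟨x, hx⟩ := exists_prime_orderOf_dvd_card' (G := ↥(Subgroup.center Q)) 2 (by rw [hc])
    exact ⟨x, x.2, by rw [Subgroup.orderOf_coe, hx]⟩
  have hsq : ∀ x ∈ Subgroup.center Q, x * x = 1 := fun x hx => by
    have h : (⟨x, hx⟩ : ↥(Subgroup.center Q)) ^ Nat.card ↥(Subgroup.center Q) = 1 := pow_card_eq_one'
    rw [hc, sq] at h
    exact congrArg Subtype.val h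
  have hmk : ∀ x : Q, (QuotientGroup.mk x : Q ⧸ Subgroup.center Q) = 1 ↔ x ∈ Subgroup.center Q :=
    QuotientGroup.eq_one_iff
  have hord : ∀ a : Q, orderOf a = 4 → a * a = c ∧
      orderOf (QuotientGroup.mk a : Q ⧸ Subgroup.center Q) = 2 := by
    intro a ha
    have h2 : orderOf (a * a) = 2 := by
      rw [← sq, orderOf_pow' a two_ne_zero, ha]
      rfl
    have hac := huniq _ _ h2 hco
    refine ⟨hac, orderOf_eq_prime ?_ fun e => ?_⟩
    · rw [sq, ← QuotientGroup.mk_mul, hmk, hac]; exact hcZ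
    · rw [hsq a ((hmk a).mp e), orderOf_one] at h2
      omega
  refine ⟨hq, hc, huniq, fun H hH => ?_, fun a b ha hb => ?_, ?_⟩
  · let χ : ↥H →* Out (Q ⧸ Subgroup.center Q) :=
      (QuotientGroup.mk' (Inn (Q ⧸ Subgroup.center Q))).comp ((LBalance.autModCenter Q).comp H.subtype)
    have hrange : χ.range = ⊥ := by
      by_contra hne
      haveI : Nontrivial ↥χ.range := (Subgroup.nontrivial_iff_ne_bot _).mpr hne
      haveI : Group.IsPerfect ↥H := Subgroup.isPerfect_iff.mpr hH
      haveI : Group.IsPerfect ↥χ.range := Group.IsPerfect.ofSurjective χ.rangeRestrict_surjective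
      exact Group.IsPerfect.not_isSolvable ↥χ.range inferInstance
    intro φ hφ
    have h1 : χ ⟨φ, hφ⟩ = 1 := by
      have h : χ ⟨φ, hφ⟩ ∈ χ.range := ⟨_, rfl⟩
      rwa [hrange, Subgroup.mem_bot] at h
    obtain ⟨jb, hj⟩ := (QuotientGroup.eq_one_iff _).mp h1
    obtain ⟨j, rfl⟩ := QuotientGroup.mk_surjective jb
    refine ⟨j, ?_⟩
    have h2 : (MulAut.conj j)⁻¹ * φ = 1 := by
      refine aut_eq_one _ fun x => (hmk _).mp ?_
      rw [QuotientGroup.mk_mul, QuotientGroup.mk_inv, mul_inv_eq_one]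
      have e := congrArg (fun f : MulAut (Q ⧸ Subgroup.center Q) => f (QuotientGroup.mk x)) hj
      have e1 : (QuotientGroup.mk j * QuotientGroup.mk x * (QuotientGroup.mk j)⁻¹ :
          Q ⧸ Subgroup.center Q) = QuotientGroup.mk (φ x) := e
      show (QuotientGroup.mk (j⁻¹ * φ x * j) : Q ⧸ Subgroup.center Q) = QuotientGroup.mk x
      rw [QuotientGroup.mk_mul, QuotientGroup.mk_mul, ← e1, QuotientGroup.mk_inv]
      group
    exact inv_mul_eq_one.mp h2
  · obtain ⟨hac, ha'⟩ := hord a ha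
    obtain ⟨hbc, hb'⟩ := hord b hb
    obtain ⟨g, hg⟩ := hcls _ _ ha' hb'
    obtain ⟨g, rfl⟩ := QuotientGroup.mk_surjective g
    refine ⟨g, ?_⟩
    have hm : (g * a * g⁻¹)⁻¹ * b ∈ Subgroup.center Q := QuotientGroup.eq.mp hg
    by_cases h1 : (g * a * g⁻¹)⁻¹ * b = 1
    · exact Or.inl (inv_mul_eq_one.mp h1)
    · right
      have h2 : (g * a * g⁻¹)⁻¹ * b = b * b := by
        rw [hbc]
        exact huniq _ _ (orderOf_eq_prime (by rw [sq, hsq _ hm]) h1) hco
      have h3 : (g * a * g⁻¹)⁻¹ = b := mul_right_cancel h2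
      rw [← h3, inv_inv]
  · obtain ⟨v, hv⟩ := hex
    obtain ⟨a, rfl⟩ := QuotientGroup.mk_surjective v
    have hm : a * a ∈ Subgroup.center Q := by
      rw [← hmk, QuotientGroup.mk_mul, ← sq, ← hv, pow_orderOf_eq_one]
    have hna : a ∉ Subgroup.center Q := fun e => by
      rw [(hmk a).mpr e, orderOf_one] at hv
      omega
    have hne : a * a ≠ 1 := fun e => hna (by
      have h1 : a ≠ 1 := fun h => hna (h ▸ one_mem _)
      rw [huniq a c (orderOf_eq_prime (by rw [sq, e]) h1) hco]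
      exact hcZ)
    refine ⟨a, orderOf_eq_prime_pow (p := 2) (n := 1) (by rwa [pow_one, sq]) ?_⟩
    rw [show 2 ^ (1 + 1) = 2 * 2 from rfl, pow_mul, sq, sq, hsq _ hm]

/-- The outer automorphisms of `PSL₂` form a solvable group. -/
theorem isSolvable_out_psl {F : Type} [Field F] [Fintype F] (h4 : 4 ≤ Fintype.card F) :
    Group.IsSolvable (Out (Matrix.SpecialLinearGroup (Fin 2) F ⧸
      Subgroup.center (Matrix.SpecialLinearGroup (Fin 2) F))) := by
  obtain ⟨f, hp, hf⟩ := FiniteField.card F (ringChar F)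
  haveI := Fact.mk hp
  obtain ⟨φ, -, hcyc, -⟩ := Cfsg.Agent.S2602.result (F := F) (p := ringChar F) (f := (f : ℕ))
    f.pos hf (hf ▸ h4)
  haveI := hcyc
  haveI : Group.IsSolvable ↥φ.ker := Group.isSolvable_of_comm fun a b => by
    obtain ⟨g, hg⟩ := IsCyclic.exists_generator (α := ↥φ.ker)
    obtain ⟨i, rfl⟩ := Subgroup.mem_zpowers_iff.mp (hg a)
    obtain ⟨j, rfl⟩ := Subgroup.mem_zpowers_iff.mp (hg b)
    rw [← zpow_add, ← zpow_add, add_comm]
  haveI : Group.IsSolvable (Multiplicative (ZMod (f : ℕ))) :=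
    Group.isSolvable_of_comm fun a b => mul_comm a b
  exact Group.isSolvable_of_ker_le_range φ.ker.subtype φ (by rw [Subgroup.range_subtype])

/-- The centre of `SL₂` in odd characteristic. -/
theorem card_center_sl {F : Type} [Field F] [Fintype F] (hodd : Fintype.card F % 2 = 1) :
    Nat.card ↥(Subgroup.center (Matrix.SpecialLinearGroup (Fin 2) F)) = 2 := by
  have h2 := PSL2Two.two_ne_zero_of_odd hodd
  let m : Matrix.SpecialLinearGroup (Fin 2) F := ⟨!![-1, 0; 0, -1], by simp [Matrix.det_fin_two]⟩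
  have hm : m ∈ Subgroup.center (Matrix.SpecialLinearGroup (Fin 2) F) := by
    rw [PSL2Two.mem_center_sl2]
    simp [m]
  refine Nat.card_eq_two_iff.mpr ⟨1, ⟨m, hm⟩, ?_, ?_⟩
  · intro e
    have h : (1 : F) = -1 := congrArg (fun g : ↥(Subgroup.center (Matrix.SpecialLinearGroup (Fin 2) F)) =>
      ((g : Matrix.SpecialLinearGroup (Fin 2) F) : Matrix (Fin 2) (Fin 2) F) 0 0) e
    exact h2 (by linear_combination h)
  · refine Set.eq_univ_of_forall fun g => ?_
    obtain ⟨h01, h10, h00, h1⟩ := (PSL2Two.mem_center_sl2 _).mp g.2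
    rcases mul_self_eq_one_iff.mp h1 with e | e
    · exact Or.inl (Subtype.ext (PSL2Two.sl2_ext (by simp [e]) (by simp [h01]) (by simp [h10])
        (by simp [← h00, e])))
    · exact Or.inr (Set.mem_singleton_iff.mpr (Subtype.ext (PSL2Two.sl2_ext (by simp [m, e]) (by simp [m, h01])
        (by simp [m, h10]) (by simp [m, ← h00, e]))))

/-- A group of the shape `SL(2, q)`, `q` odd. -/
theorem good_sl {Q : Type u} [Group Q] [Finite Q] (hq : IsQuasisimple Q)
    (huniq : ∀ a b : Q, orderOf a = 2 → orderOf b = 2 → a = b)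
    {F : Type} [Field F] [Fintype F] (hodd : Odd (Fintype.card F))
    (e : Q ≃* Matrix.SpecialLinearGroup (Fin 2) F) : Good Q := by
  have hodd' : Fintype.card F % 2 = 1 := Nat.odd_iff.mp hodd
  have hqS := isQuasisimple_congr e hq
  haveI := hqS.1
  have h4 : 4 ≤ Fintype.card F := by
    by_contra! hlt
    have h3 : Fintype.card F = 3 := by
      have := Fintype.one_lt_card (α := F)
      obtain ⟨k, hk⟩ := hodd
      omega
    have h24 : Nat.card (Matrix.SpecialLinearGroup (Fin 2) F) = 24 := by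
      rw [Psl2Unipotent.card_sl2, h3]
      norm_num
    haveI : Nontrivial (Matrix.SpecialLinearGroup (Fin 2) F) := by
      rw [← Finite.one_lt_card_iff_nontrivial, h24]
      norm_num
    exact Group.IsPerfect.not_isSolvable (Matrix.SpecialLinearGroup (Fin 2) F)
      (Chars.Apps.isSolvable_of_card_eq_pow_mul_pow _ Nat.prime_two Nat.prime_three (a := 3) (b := 1)
        (by rw [h24]; norm_num))
  refine (good_of_quotient hqS (card_center_sl hodd') (fun a b ha hb => e.symm.injective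
    (huniq _ _ (by rwa [MulEquiv.orderOf_eq]) (by rwa [MulEquiv.orderOf_eq])))
    (isSolvable_out_psl h4) (fun a b ha hb => ?_) ?_).congr e.symm
  · obtain ⟨g, rfl⟩ := PSL2Two.one_class hodd' a ha
    obtain ⟨h, rfl⟩ := PSL2Two.one_class hodd' b hb
    exact ⟨h * g⁻¹, by group⟩
  · refine ⟨QuotientGroup.mk (PSL2Two.Jel F), orderOf_eq_prime ?_ ?_⟩
    · rw [sq, ← QuotientGroup.mk_mul, PSL2Two.mk_eq_one_iff, PSL2Two.mem_center_sl2]
      simp [PSL2Two.mul_entry, PSL2Two.J_entries]
    · rw [Ne, PSL2Two.mk_eq_one_iff, PSL2Two.mem_center_sl2]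
      simp [PSL2Two.J_entries]

open Equiv in
/-- The outer automorphisms of `A₇` form a solvable group. -/
theorem isSolvable_out_alt : Group.IsSolvable (Out ↥(alternatingGroup (Fin 7))) := by
  have hs := (Cfsg.Agent.S2119.result 7 (by norm_num) (by norm_num)).2
  let f : Perm (Fin 7) →* Out ↥(alternatingGroup (Fin 7)) :=
    (QuotientGroup.mk' (Inn ↥(alternatingGroup (Fin 7)))).comp MulAut.conjNormal
  have hle : alternatingGroup (Fin 7) ≤ f.ker := by
    intro σ hσ
    refine (QuotientGroup.eq_one_iff _).mpr ⟨⟨σ, hσ⟩, ?_⟩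
    ext x
    rfl
  haveI : Group.IsSolvable ℤˣ := Group.isSolvable_of_comm fun a b => mul_comm a b
  have hsgn : Function.Surjective (Perm.sign : Perm (Fin 7) →* ℤˣ) := Perm.sign_surjective (Fin 7)
  haveI : Group.IsSolvable (Perm (Fin 7) ⧸ alternatingGroup (Fin 7)) := Group.isSolvable_of_surjective
    (f := (QuotientGroup.quotientKerEquivOfSurjective (Perm.sign : Perm (Fin 7) →* ℤˣ) hsgn).symm.toMonoidHom)
    (MulEquiv.surjective _)
  exact Group.isSolvable_of_surjective (f := QuotientGroup.lift _ f hle) (by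
    intro x
    obtain ⟨ψ, rfl⟩ := QuotientGroup.mk'_surjective _ x
    obtain ⟨σ, rfl⟩ := hs ψ
    exact ⟨QuotientGroup.mk σ, rfl⟩)

open Equiv in
/-- The involutions of `A₇` form one class. -/
theorem alt_one_class (a b : ↥(alternatingGroup (Fin 7))) (ha : orderOf a = 2) (hb : orderOf b = 2) :
    ∃ g, g * a * g⁻¹ = b := by
  have key : ∀ x : ↥(alternatingGroup (Fin 7)), orderOf x = 2 →
      (x : Perm (Fin 7)).cycleType = Multiset.replicate 2 2 := by
    intro x hx
    have ho : orderOf (x : Perm (Fin 7)) = 2 := by rw [Subgroup.orderOf_coe, hx]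
    obtain ⟨k, hk⟩ := Perm.cycleType_prime_order (σ := (x : Perm (Fin 7))) (by rw [ho]; exact Nat.prime_two)
    rw [ho] at hk
    have h1 : Perm.sign (x : Perm (Fin 7)) = 1 := Perm.mem_alternatingGroup.mp x.2
    have h2 := (x : Perm (Fin 7)).sum_cycleType
    rw [Perm.sign_of_cycleType, hk] at h1
    rw [hk, Multiset.sum_replicate, smul_eq_mul] at h2
    have h3 : (x : Perm (Fin 7)).support.card ≤ 7 :=
      (Finset.card_le_univ _).trans (Fintype.card_fin 7).le
    rw [Multiset.sum_replicate, Multiset.card_replicate, smul_eq_mul] at h1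
    have hk3 : k ≤ 2 := by omega
    interval_cases k
    · exact absurd h1 (by decide)
    · exact hk
    · exact absurd h1 (by decide)
  have h : IsConj a b := by
    refine alternatingGroup.isConj_of (Perm.isConj_of_cycleType_eq ((key a ha).trans (key b hb).symm)) ?_
    rw [← Perm.sum_cycleType, key a ha]
    simp
  exact isConj_iff.mp h

/-- A non-split double cover of `A₇` with one involution. -/
theorem good_alt {Q : Type u} [Group Q] [Finite Q] (hq : IsQuasisimple Q)
    (huniq : ∀ a b : Q, orderOf a = 2 → orderOf b = 2 → a = b)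
    (h : IsNonsplitDoubleCover Q ↥(alternatingGroup (Fin 7))) : Good Q := by
  obtain ⟨hc, ⟨e⟩, -⟩ := h
  refine good_of_quotient hq hc huniq ?_ (fun a b ha hb => ?_) ?_
  · have hs := isSolvable_out_alt
    haveI := hs
    let f : Out ↥(alternatingGroup (Fin 7)) ≃* Out (Q ⧸ Subgroup.center Q) :=
      QuotientGroup.congr _ _ (MulAut.congr e.symm) (by
        ext φ
        constructor
        · rintro ⟨_, ⟨a, rfl⟩, rfl⟩
          exact ⟨e.symm a, by ext x; simp [MulAut.congr]⟩
        · rintro ⟨b, rfl⟩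
          exact ⟨MulAut.conj (e b), ⟨_, rfl⟩, by ext x; simp [MulAut.congr]⟩)
    exact Group.isSolvable_of_surjective (f := f.toMonoidHom) f.surjective
  · obtain ⟨g, hg⟩ := alt_one_class (e a) (e b) (by rwa [MulEquiv.orderOf_eq]) (by rwa [MulEquiv.orderOf_eq])
    exact ⟨e.symm g, e.injective (by simpa using hg)⟩
  · refine ⟨e.symm ⟨Equiv.swap 0 1 * Equiv.swap 2 3, Equiv.Perm.mem_alternatingGroup.mpr (by decide)⟩, ?_⟩
    rw [MulEquiv.orderOf_eq]
    exact orderOf_eq_prime (by decide) (by decide)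

variable {G : Type*} [Group G] [Finite G]

/-- The image of a 2-component in the quotient by its odd core is quasisimple. -/
theorem quasisimple_quotient {z : G} {J : Subgroup G} (hle : J ≤ Cz z)
    (hcomp : IsPComponent 2 (J.subgroupOf (Cz z))) : IsQuasisimple (↥J ⧸ oddCore ↥J) := by
  haveI : Fact (Nat.Prime 2) := ⟨Nat.prime_two⟩
  let e := (Subgroup.subgroupOfEquivOfLe hle).symm
  let e1 : ↥J ⧸ oddCore ↥J ≃* ↥(J.subgroupOf (Cz z)) ⧸ oddCore ↥(J.subgroupOf (Cz z)) :=
    QuotientGroup.congr _ _ e (Constrained.pPrimeCore_map e 2)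
  let e2 := e1.trans ((QuotientGroup.quotientMulEquivOfEq
    (LBalance.pPrimeCore_eq_ker (p := 2) hcomp.1)).trans
    (QuotientGroup.quotientKerEquivOfSurjective _
      (MonoidHom.subgroupMap_surjective (QuotientGroup.mk' (oddCore ↥(Cz z))) _)))
  exact isQuasisimple_congr e2.symm hcomp.2.1.2

/-- One involution upstairs gives one involution modulo the odd core. -/
theorem uniq_quotient {z : G} {J : Subgroup G}
    (huniq : ∀ t ∈ J, orderOf t = 2 → t = z) (a b : ↥J ⧸ oddCore ↥J) (ha : orderOf a = 2)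
    (hb : orderOf b = 2) : a = b := by
  haveI : Fact (Nat.Prime 2) := ⟨Nat.prime_two⟩
  have hker : Odd (Nat.card ↥(QuotientGroup.mk' (oddCore ↥J)).ker) := by
    rw [QuotientGroup.ker_mk']
    exact Nat.odd_iff.2 (Nat.two_dvd_ne_zero.1 (Constrained.pPrimeCore_not_dvd (p := 2)))
  have key : ∀ a : ↥J ⧸ oddCore ↥J, orderOf a = 2 →
      ∃ g : ↥J, (g : G) = z ∧ QuotientGroup.mk' (oddCore ↥J) g = a := by
    intro a ha
    obtain ⟨g, rfl⟩ := QuotientGroup.mk'_surjective _ a
    obtain ⟨m, -, h2, h3⟩ := exists_invol_lift (g := g) hker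
      (by have h := pow_orderOf_eq_one ((QuotientGroup.mk' (oddCore ↥J)) g); rw [ha, sq] at h; exact h)
    refine ⟨g ^ m, huniq _ (g ^ m).2 ?_, h3⟩
    rw [Subgroup.orderOf_coe]
    refine orderOf_eq_prime (by rw [sq, h2]) fun e => ?_
    rw [e, map_one] at h3
    rw [← h3, orderOf_one] at ha
    omega
  obtain ⟨g, hg, rfl⟩ := key a ha
  obtain ⟨g', hg', rfl⟩ := key b hb
  rw [show g = g' from Subtype.ext (hg.trans hg'.symm)]

end CfsgLib.SLTwoPair
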