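import Cfsg.Agent.LBalance.Block
import Cfsg.Agent.Cores.Quasisimple
import Cfsg.Agent.Signalizer.LocalBalance
import Cfsg.Agent.LBalance.Sections

/-!
Elementary tools for components with a unique involution: lifting against involutions,
coordinates in commuting pairs of components, minimal covers.
-/

set_option autoImplicit false

namespace CfsgLib.SLTwoPair

open Cfsg CfsgLib.Cores
open scoped commutatorElement

variable {G : Type*} [Group G]

/-- Conjugation of a subgroup. -/
def cs (g : G) (A : Subgroup G) : Subgroup G := A.map (MulAut.conj g).toMonoidHom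

theorem mem_cs {g : G} {A : Subgroup G} {a : G} (ha : a ∈ A) : g * a * g⁻¹ ∈ cs g A := ⟨a, ha, rfl⟩

theorem mem_cs_iff {g x : G} {A : Subgroup G} : x ∈ cs g A ↔ g⁻¹ * x * g ∈ A := by
  constructor
  · rintro ⟨a, ha, rfl⟩
    show g⁻¹ * (g * a * g⁻¹) * g ∈ A
    rwa [show g⁻¹ * (g * a * g⁻¹) * g = a by group]
  · intro h
    refine ⟨_, h, ?_⟩
    show g * (g⁻¹ * x * g) * g⁻¹ = x
    group

theorem cs_cs (g h : G) (A : Subgroup G) : cs g (cs h A) = cs (g * h) A := by
  ext x
  rw [mem_cs_iff, mem_cs_iff, mem_cs_iff]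
  rw [show h⁻¹ * (g⁻¹ * x * g) * h = (g * h)⁻¹ * x * (g * h) by group]

theorem cs_one (A : Subgroup G) : cs (1 : G) A = A := by
  ext x; rw [mem_cs_iff]; simp

theorem cs_eq_iff (g : G) (A : Subgroup G) :
    cs g A = A ↔ g ∈ Subgroup.normalizer (A : Set G) :=
  (Subgroup.mem_normalizer_iff_map_conj_eq).symm

theorem cs_inj {g : G} {A B : Subgroup G} (h : cs g A = cs g B) : A = B :=
  Subgroup.map_injective (MulAut.conj g).injective h

/-- Against an involution `x`: if `x (h x h⁻¹)` has odd order, some power `o` of it corrects `h`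
to an element commuting with `x`. -/
theorem exists_correct {x h : G} (hx : x * x = 1) (hodd : Odd (orderOf (x * (h * x * h⁻¹)))) :
    ∃ o ∈ Subgroup.zpowers (x * (h * x * h⁻¹)), (o * h) * x = x * (o * h) := by
  set x' := h * x * h⁻¹ with hx'
  have hx'2 : x' * x' = 1 := by
    rw [hx', show h * x * h⁻¹ * (h * x * h⁻¹) = h * (x * x) * h⁻¹ by group, hx]; group
  set s := x * x' with hs
  obtain ⟨n, hn⟩ := hodd
  have hpow : s ^ (2 * n + 1) = 1 := by rw [← hn, pow_orderOf_eq_one]
  set o := s ^ (n + 1) with ho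
  have hoo : o * o = s := by
    rw [ho, ← pow_add, show n + 1 + (n + 1) = (2 * n + 1) + 1 by ring, pow_succ, hpow, one_mul]
  have hxinv : x⁻¹ = x := inv_eq_of_mul_eq_one_right hx
  have hx'inv : x'⁻¹ = x' := inv_eq_of_mul_eq_one_right hx'2
  have hxs : x * s * x⁻¹ = s⁻¹ := by
    rw [hs, mul_inv_rev, hxinv, hx'inv, ← mul_assoc x x x', hx, one_mul]
  have hxo : x * o * x⁻¹ = o⁻¹ := by
    rw [ho, ← conj_pow, hxs, inv_pow]
  have hconj : o⁻¹ * x * o = x' := by
    have h1 : o⁻¹ * x = x * o := by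
      rw [← hxo]; group
    rw [h1, mul_assoc, hoo, hs, ← mul_assoc, hx, one_mul]
  refine ⟨o, Subgroup.npow_mem_zpowers s (n + 1), ?_⟩
  calc o * h * x = o * x' * h := by rw [hx']; group
    _ = o * (o⁻¹ * x * o) * h := by rw [hconj]
    _ = x * (o * h) := by group

/-- Involutions with product of odd order are conjugate by a power of the product. -/
theorem exists_conj_of_odd {x y : G} (hx : x * x = 1) (hy : y * y = 1)
    (hodd : Odd (orderOf (x * y))) : ∃ o ∈ Subgroup.zpowers (x * y), o * y * o⁻¹ = x := by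
  obtain ⟨n, hn⟩ := hodd
  set s := x * y with hs
  have hpow : s ^ (2 * n + 1) = 1 := by rw [← hn, pow_orderOf_eq_one]
  set o := s ^ (n + 1) with ho
  have hyinv : y⁻¹ = y := inv_eq_of_mul_eq_one_right hy
  have hxinv : x⁻¹ = x := inv_eq_of_mul_eq_one_right hx
  have hys : y * s * y⁻¹ = s⁻¹ := by
    rw [hs, mul_inv_rev, hyinv, hxinv]
    rw [mul_assoc, mul_assoc, hy, mul_one]
  have hyo : y * o * y⁻¹ = o⁻¹ := by rw [ho, ← conj_pow, hys, inv_pow]
  have hoo : o * o = s := by
    rw [ho, ← pow_add, show n + 1 + (n + 1) = (2 * n + 1) + 1 by ring, pow_succ, hpow, one_mul]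
  refine ⟨o, Subgroup.npow_mem_zpowers s (n + 1), ?_⟩
  calc o * y * o⁻¹ = o * (y * o⁻¹ * y⁻¹) * y := by group
    _ = o * o * y := by
      rw [show y * o⁻¹ * y⁻¹ = (y * o * y⁻¹)⁻¹ by group, hyo, inv_inv]
    _ = x := by rw [hoo, hs, mul_assoc, hy, mul_one]

theorem odd_orderOf_of_mem [Finite G] {O : Subgroup G} (hO : Odd (Nat.card ↥O)) {s : G}
    (hs : s ∈ O) : Odd (orderOf s) :=
  hO.of_dvd_nat (O.orderOf_dvd_natCard hs)

theorem eq_one_of_sq_of_odd {u : G} (h2 : u * u = 1) (hodd : Odd (orderOf u)) : u = 1 := by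
  obtain ⟨k, hk⟩ := hodd
  have h := pow_orderOf_eq_one u
  rw [hk, pow_succ, pow_mul, sq, h2, one_pow, one_mul] at h
  exact h

theorem eq_one_of_sq_of_mem [Finite G] {O : Subgroup G} (hO : Odd (Nat.card ↥O)) {u : G}
    (h2 : u * u = 1) (hu : u ∈ O) : u = 1 :=
  eq_one_of_sq_of_odd h2 (odd_orderOf_of_mem hO hu)

/-- Commuting involutions congruent modulo an odd subgroup are equal. -/
theorem eq_of_commute_congr [Finite G] {O : Subgroup G} (hO : Odd (Nat.card ↥O)) {u v : G}
    (hu : u * u = 1) (hv : v * v = 1) (hc : u * v = v * u) (h : u * v⁻¹ ∈ O) : u = v := by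
  rw [← mul_inv_eq_one]
  refine eq_one_of_sq_of_mem hO ?_ h
  have hvi : v⁻¹ = v := inv_eq_of_mul_eq_one_right hv
  rw [hvi, show u * v * (u * v) = u * (v * u) * v by group, ← hc,
    show u * (u * v) * v = (u * u) * (v * v) by group, hu, hv, one_mul]

/-- An involution with image `φ g` when `φ g` squares to one and the kernel is odd. -/
theorem exists_invol_lift [Finite G] {H : Type*} [Group H] {φ : G →* H}
    (hker : Odd (Nat.card ↥φ.ker)) {g : G} (hg : φ g * φ g = 1) :
    ∃ m : ℕ, Odd m ∧ g ^ m * g ^ m = 1 ∧ φ (g ^ m) = φ g := by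
  refine ⟨Nat.card ↥φ.ker, hker, ?_, ?_⟩
  · have hmem : g * g ∈ φ.ker := by rw [MonoidHom.mem_ker, map_mul, hg]
    have h : (⟨g * g, hmem⟩ : ↥φ.ker) ^ Nat.card ↥φ.ker = 1 := pow_card_eq_one'
    have h' := congrArg Subtype.val h
    rw [SubgroupClass.coe_pow, OneMemClass.coe_one] at h'
    rw [← (Commute.refl g).mul_pow]
    exact h'
  · obtain ⟨k, hk⟩ := hker
    rw [map_pow, hk, pow_succ, pow_mul, sq, hg, one_pow, one_mul]

/-! ### Good quasisimple groups -/

/-- What is used of `SL₂(q)` and of the double cover of `A₇`. -/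
structure Good (Q : Type*) [Group Q] : Prop where
  quasi : IsQuasisimple Q
  center_card : Nat.card ↥(Subgroup.center Q) = 2
  uniq : ∀ a b : Q, orderOf a = 2 → orderOf b = 2 → a = b
  inner : ∀ H : Subgroup (MulAut Q), ⁅H, H⁆ = H → H ≤ Inn Q
  conj : ∀ a b : Q, orderOf a = 4 → orderOf b = 4 →
    ∃ g, g * a * g⁻¹ = b ∨ g * a * g⁻¹ = b⁻¹
  exists_four : ∃ a : Q, orderOf a = 4

theorem Good.congr {Q R : Type*} [Group Q] [Group R] (h : Good Q) (e : Q ≃* R) : Good R where
  quasi := isQuasisimple_congr e h.quasi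
  center_card := by
    rw [← h.center_card, ← LBalance.center_map_eq e,
      Subgroup.card_map_of_injective (f := e.toMonoidHom) e.injective]
  uniq a b ha hb := e.symm.injective (h.uniq _ _ (by rwa [MulEquiv.orderOf_eq]) (by rwa [MulEquiv.orderOf_eq]))
  inner H hH := by
    intro φ hφ
    let f : MulAut Q ≃* MulAut R := MulAut.congr e
    have h' : H.map f.symm.toMonoidHom ≤ Inn Q :=
      h.inner _ (by rw [← Subgroup.map_commutator, hH])
    obtain ⟨q, hq⟩ := h' ⟨φ, hφ, rfl⟩
    refine ⟨e q, ?_⟩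
    have : f (MulAut.conj q) = φ := by rw [hq]; exact f.apply_symm_apply φ
    rw [← this]
    ext r
    simp [f, MulAut.congr]
  conj a b ha hb := by
    obtain ⟨g, hg | hg⟩ := h.conj (e.symm a) (e.symm b) (by rwa [MulEquiv.orderOf_eq]) (by rwa [MulEquiv.orderOf_eq])
    · exact ⟨e g, Or.inl (by simpa using congrArg e hg)⟩
    · exact ⟨e g, Or.inr (by simpa using congrArg e hg)⟩
  exists_four := by
    obtain ⟨a, ha⟩ := h.exists_four
    exact ⟨e a, by rwa [MulEquiv.orderOf_eq]⟩

/-! ### Components with a central involution -/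

variable [Finite G]

/-- A component `A` with its central involution `c`. -/
structure Comp (c : G) (A : Subgroup G) : Prop where
  comp : IsComponent A
  good : Good ↥A
  mem : c ∈ A
  ord : orderOf c = 2
  cent : ∀ g : G, g * c = c * g

variable {c : G} {A B : Subgroup G}

theorem Comp.conj (h : Comp c A) (g : G) : Comp c (cs g A) where
  comp := isComponent_conj h.comp g
  good := h.good.congr (A.equivMapOfInjective _ (MulAut.conj g).injective)
  mem := by
    have : g * c * g⁻¹ = c := by rw [h.cent g, mul_inv_cancel_right]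
    exact this ▸ mem_cs h.mem
  ord := h.ord
  cent := h.cent

theorem Comp.csq (h : Comp c A) : c * c = 1 := by
  rw [← sq, ← h.ord]; exact pow_orderOf_eq_one c

theorem Comp.ne_one (h : Comp c A) : c ≠ 1 := fun e => by
  have := h.ord; rw [e, orderOf_one] at this; omega

/-- Central elements of the component. -/
theorem Comp.eq_of_central (h : Comp c A) {t : G} (ht : t ∈ A) (hc : ∀ a ∈ A, t * a = a * t) :
    t = 1 ∨ t = c := by
  have hcz : (⟨c, h.mem⟩ : ↥A) ∈ Subgroup.center ↥A :=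
    Subgroup.mem_center_iff.mpr fun g => Subtype.ext (h.cent g)
  have htz : (⟨t, ht⟩ : ↥A) ∈ Subgroup.center ↥A :=
    Subgroup.mem_center_iff.mpr fun g => Subtype.ext (hc g g.2).symm
  obtain ⟨a, b, hab, heq⟩ := Nat.card_eq_two_iff.mp h.good.center_card
  have key : ∀ u : ↥(Subgroup.center ↥A), u = a ∨ u = b := fun u => by
    have := (heq ▸ Set.mem_univ u : u ∈ ({a, b} : Set _))
    simpa using this
  have hne : (⟨⟨c, h.mem⟩, hcz⟩ : ↥(Subgroup.center ↥A)) ≠ 1 := fun e =>
    h.ne_one (congrArg (fun u : ↥(Subgroup.center ↥A) => ((u : ↥A) : G)) e)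
  by_cases h1 : (⟨⟨t, ht⟩, htz⟩ : ↥(Subgroup.center ↥A)) = 1
  · exact Or.inl (congrArg (fun u : ↥(Subgroup.center ↥A) => ((u : ↥A) : G)) h1)
  · right
    have : (⟨⟨t, ht⟩, htz⟩ : ↥(Subgroup.center ↥A)) = ⟨⟨c, h.mem⟩, hcz⟩ := by
      rcases key 1 with e | e <;> rcases key ⟨⟨t, ht⟩, htz⟩ with e1 | e1 <;>
        rcases key ⟨⟨c, h.mem⟩, hcz⟩ with e2 | e2 <;>
        first
          | exact e1.trans e2.symm
          | exact absurd (e1.trans e.symm) h1
          | exact absurd (e2.trans e.symm) hne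
    exact congrArg (fun u : ↥(Subgroup.center ↥A) => ((u : ↥A) : G)) this

theorem Comp.sqCases (h : Comp c A) {t : G} (ht : t ∈ A) (h2 : t * t = 1) : t = 1 ∨ t = c := by
  by_cases h1 : t = 1
  · exact Or.inl h1
  · refine Or.inr (congrArg Subtype.val (h.good.uniq ⟨t, ht⟩ ⟨c, h.mem⟩ ?_ ?_))
    · rw [Subgroup.orderOf_mk]; exact orderOf_eq_prime (by rw [sq, h2]) h1
    · rw [Subgroup.orderOf_mk]; exact h.ord

theorem orderOf_four_of_sq {t : G} (h : Comp c A) (ht : t * t = c) : orderOf t = 4 := by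
  have h4 : t ^ 4 = 1 := by
    rw [show (4 : ℕ) = 2 * 2 from rfl, pow_mul, sq, sq, ht, h.csq]
  have h2 : ¬ t ^ 2 = 1 := by rw [sq, ht]; exact h.ne_one
  have := orderOf_eq_prime_pow (p := 2) (n := 1) (x := t) (by simpa using h2) (by simpa using h4)
  simpa using this

theorem Comp.sq_of_four (h : Comp c A) {t : G} (ht : t ∈ A) (h4 : orderOf t = 4) : t * t = c := by
  have hp : t ^ 4 = 1 := h4 ▸ pow_orderOf_eq_one t
  refine (h.sqCases (mul_mem ht ht) ?_).resolve_left fun e => ?_
  · rw [← hp]; simp [pow_succ, mul_assoc]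
  · have : orderOf t ∣ 2 := orderOf_dvd_of_pow_eq_one (by rw [sq, e])
    rw [h4] at this
    omega

theorem Comp.exists_four (h : Comp c A) : ∃ t ∈ A, t * t = c := by
  obtain ⟨a, ha⟩ := h.good.exists_four
  exact ⟨a, a.2, h.sq_of_four a.2 (by rwa [Subgroup.orderOf_coe])⟩

/-- Noncentral: neither `1` nor `c`. -/
def Out2 (c t : G) : Prop := t ≠ 1 ∧ t ≠ c

theorem Comp.out2_of_sq (h : Comp c A) {t : G} (ht : t * t = c) : Out2 c t :=
  ⟨fun e => h.ne_one (by rw [← ht, e, one_mul]), fun e => h.ne_one (by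
    rw [← ht, e, h.csq])⟩

theorem Comp.not_central (h : Comp c A) {t : G} (ht : t ∈ A) (ho : Out2 c t) :
    ∃ a ∈ A, t * a ≠ a * t := by
  by_contra! hall
  rcases h.eq_of_central ht hall with e | e
  · exact ho.1 e
  · exact ho.2 e

theorem Comp.commute (hA : Comp c A) (hB : Comp c B) (hne : A ≠ B) {a b : G} (ha : a ∈ A)
    (hb : b ∈ B) : a * b = b * a :=
  commute_of_commutator_eq_bot (commutator_eq_bot_of_ne hA.comp hB.comp hne) ha hb

theorem Comp.meet (hA : Comp c A) (hB : Comp c B) (hne : A ≠ B) {t : G} (ha : t ∈ A) (hb : t ∈ B) :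
    t = 1 ∨ t = c :=
  hA.eq_of_central ha fun _ hx => (hA.commute hB hne hx hb).symm

/-- An element of odd order cannot act on a component as a noncentral element of square `1` or `c`. -/
theorem Comp.coord (hA : Comp c A) {p q : G} (hp : p ∈ A) (hq : ∀ a ∈ A, q * a = a * q)
    (hodd : Odd (orderOf (p * q))) (hp2 : p * p = c) : False := by
  obtain ⟨k, hk⟩ := hodd
  have hpq : Commute p q := (hq p hp).symm
  have h1 : p ^ (2 * k + 1) * q ^ (2 * k + 1) = 1 := by
    rw [← hpq.mul_pow, ← hk, pow_orderOf_eq_one]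
  have hcen : ∀ a ∈ A, p ^ (2 * k + 1) * a = a * p ^ (2 * k + 1) := by
    intro a ha
    have h2 : Commute (q ^ (2 * k + 1)) a := Commute.pow_left (hq a ha) _
    rw [eq_inv_of_mul_eq_one_left h1]
    exact h2.inv_left
  have hout := hA.out2_of_sq hp2
  obtain ⟨a, ha, hna⟩ := hA.not_central hp hout
  have h3 := hcen a ha
  rw [pow_succ, pow_mul, sq, hp2] at h3
  have hck : ∀ x, c ^ k * x = x * c ^ k := fun x => Commute.pow_left (hA.cent x).symm k
  refine hna ?_
  have h4 : c ^ k * (p * a) = c ^ k * (a * p) := by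
    rw [← mul_assoc, h3, ← mul_assoc, ← mul_assoc, hck a]
  exact mul_left_cancel h4

/-- The two supporting components of `p * q`. -/
theorem Comp.support (hA : Comp c A) (hB : Comp c B) (hne : A ≠ B) {p q g : G} (hp : p ∈ A)
    (hq : q ∈ B) (hpo : Out2 c p) (hg : g * (p * q) = (p * q) * g) :
    cs g A = A ∨ cs g A = B := by
  by_contra! hno
  obtain ⟨h1, h2⟩ := hno
  have hne' : cs g A ≠ cs g B := fun e => hne (cs_inj e)
  set p' := g * p * g⁻¹ with hp'
  set q' := g * q * g⁻¹ with hq'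
  have he : p' * q' = p * q := by
    rw [hp', hq', show g * p * g⁻¹ * (g * q * g⁻¹) = g * (p * q) * g⁻¹ by group, hg]; group
  have hcent : ∀ x ∈ cs g A, p' * x = x * p' := by
    intro x hx
    have e1 : Commute (p * q) x :=
      Commute.mul_left ((hA.conj g).commute hA h1 hx hp).symm
        ((hA.conj g).commute hB h2 hx hq).symm
    have e2 : Commute q' x := ((hA.conj g).commute (hB.conj g) hne' hx (mem_cs hq)).symm
    rw [← he] at e1
    have e3 : Commute (p' * q' * q'⁻¹) x := Commute.mul_left e1 e2.inv_left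
    rwa [mul_inv_cancel_right] at e3
  rcases (hA.conj g).eq_of_central (mem_cs hp) hcent with e | e
  · exact hpo.1 (by rwa [conj_eq_one_iff] at e)
  · refine hpo.2 ?_
    calc p = g⁻¹ * (g * p * g⁻¹) * g := by group
      _ = g⁻¹ * c * g := by rw [e]
      _ = c := by rw [mul_assoc, ← hA.cent g, inv_mul_cancel_left]

omit [Finite G] in
/-- A perfect group preserving an unordered pair of subgroups fixes each. -/
theorem fix_of_pair {L : Subgroup G} (hL : ⁅L, L⁆ = L) (A B : Subgroup G)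
    (h : ∀ l ∈ L, cs l A = A ∧ cs l B = B ∨ cs l A = B ∧ cs l B = A) {l : G} (hl : l ∈ L) :
    cs l A = A := by
  have hinv : ∀ l ∈ L, ∀ X Y : Subgroup G, cs l X = Y → cs l⁻¹ Y = X := by
    intro l _ X Y e; rw [← e, cs_cs, inv_mul_cancel, cs_one]
  suffices hle : ⁅L, L⁆ ≤ Subgroup.normalizer (A : Set G) from
    (cs_eq_iff _ _).mpr (hle (hL.symm ▸ hl))
  rw [Subgroup.commutator_le]
  intro a ha b hb
  rw [← cs_eq_iff, commutatorElement_def, ← cs_cs, ← cs_cs, ← cs_cs]
  rcases h a ha with ⟨a1, a2⟩ | ⟨a1, a2⟩ <;> rcases h b hb with ⟨b1, b2⟩ | ⟨b1, b2⟩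
  · rw [hinv b hb A A b1, hinv a ha A A a1, b1, a1]
  · rw [hinv b hb B A b2, hinv a ha B B a2, b2, a1]
  · rw [hinv b hb A A b1, hinv a ha B A a2, b2, a2]
  · rw [hinv b hb B A b2, hinv a ha A B a1, b1, a2]

/-! ### Tight groups and covers -/

/-- Perfect, with every proper normal subgroup of index at least `n`. -/
structure Tight (n : ℕ) (L : Subgroup G) : Prop where
  perf : ⁅L, L⁆ = L
  big : ∀ M : Subgroup ↥L, M.Normal → M = ⊤ ∨ n ≤ M.index

/-- A minimal subgroup covering a quasisimple quotient of `M` is tight. -/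
theorem exists_cover {H : Subgroup G} {Q : Type*} [Group Q] [Finite Q] (hQ : IsQuasisimple Q)
    (f : ↥H →* Q) {M : Subgroup G} (hMH : M ≤ H)
    (hM : (M.subgroupOf H).map f = ⊤) :
    ∃ L, L ≤ M ∧ (L.subgroupOf H).map f = ⊤ ∧ Tight (Subgroup.center Q).index L ∧
      ∀ L', L' ≤ L → (L'.subgroupOf H).map f = ⊤ → L' = L := by
  classical
  have hfin : Set.Finite {L : Subgroup G | L ≤ M ∧ (L.subgroupOf H).map f = ⊤} := Set.toFinite _
  obtain ⟨L, ⟨hLM, hLf⟩, hmin⟩ := hfin.exists_minimal ⟨M, le_rfl, hM⟩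
  have hmin' : ∀ L', L' ≤ L → (L'.subgroupOf H).map f = ⊤ → L' = L := fun L' hle he =>
    le_antisymm hle (hmin ⟨hle.trans hLM, he⟩ hle)
  have hLH : L ≤ H := hLM.trans hMH
  haveI := hQ.1
  refine ⟨L, hLM, hLf, ⟨?_, ?_⟩, hmin'⟩
  · refine hmin' _ (Subgroup.commutator_le_self L) ?_
    have e : ⁅L, L⁆.subgroupOf H = ⁅L.subgroupOf H, L.subgroupOf H⁆ := by
      apply Subgroup.map_injective H.subtype_injective
      rw [Subgroup.map_commutator, Subgroup.subgroupOf_map_subtype, Subgroup.subgroupOf_map_subtype,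
        inf_of_le_left hLH, inf_of_le_left ((Subgroup.commutator_le_self L).trans hLH)]
    rw [e, Subgroup.map_commutator, hLf, ← commutator_def, Group.IsPerfect.commutator_eq_top]
  · intro N hN
    let g : ↥L →* Q := f.comp (Subgroup.inclusion hLH)
    have hg : Function.Surjective g := by
      intro x
      obtain ⟨h, hh, hx⟩ := (hLf.symm ▸ Subgroup.mem_top x : x ∈ (L.subgroupOf H).map f)
      exact ⟨⟨h, hh⟩, hx⟩
    rcases normal_eq_top_or_le_center hQ (N.map g) (hN.map g hg) with e | e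
    · left
      have h1 : (N.map L.subtype) = L := by
        refine hmin' _ (Subgroup.map_subtype_le _) (top_le_iff.mp (e ▸ ?_))
        rintro _ ⟨x, hx, rfl⟩
        exact ⟨⟨x, hLH x.2⟩, ⟨x, hx, rfl⟩, rfl⟩
      apply Subgroup.map_injective L.subtype_injective
      rw [h1, map_subtype_top]
    · right
      refine Nat.le_of_dvd (Nat.pos_of_ne_zero Subgroup.index_ne_zero_of_finite) ?_
      rw [← (Subgroup.center Q).index_comap_of_surjective hg]
      exact Subgroup.index_dvd_of_le (Subgroup.map_le_iff_le_comap.mp e)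

/-- A tight group of automorphisms of a component covers all inner automorphisms unless trivial. -/
theorem Comp.full (hA : Comp c A) {n : ℕ} (hn : (Subgroup.center ↥A).index ≤ n) {L : Subgroup G}
    (hL : Tight n L) (hLN : L ≤ Subgroup.normalizer (A : Set G)) {s : G}
    (hsN : s ∈ Subgroup.normalizer (A : Set G)) (hs : ∀ l ∈ L, s * l = l * s) :
    (∀ l ∈ L, ∀ a ∈ A, l * a = a * l) ∨ ∀ a ∈ A, s * a = a * s := by
  let θ : ↥L →* MulAut ↥A := (LocalBalance.act A).comp (Subgroup.inclusion hLN)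
  by_cases htriv : θ = 1
  · exact Or.inl fun l hl a ha =>
      (LocalBalance.act_eq_one_iff A ⟨l, hLN hl⟩).mp (DFunLike.congr_fun htriv ⟨l, hl⟩) a ha
  right
  haveI := hA.good.quasi.1
  have hperf : ⁅θ.range, θ.range⁆ = θ.range := by
    rw [MonoidHom.range_eq_map, ← Subgroup.map_commutator, ← commutator_def]
    haveI : Group.IsPerfect ↥L := Subgroup.isPerfect_iff.mpr hL.perf
    rw [Group.IsPerfect.commutator_eq_top]
  have hle : θ.range ≤ Inn ↥A := hA.good.inner _ hperf
  have hker : (MulAut.conj : ↥A →* MulAut ↥A).ker = Subgroup.center ↥A := by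
    ext g
    rw [MonoidHom.mem_ker, Subgroup.mem_center_iff]
    constructor
    · intro hg h'
      have h1 : g * h' * g⁻¹ = h' := congrArg (fun f : MulAut ↥A => f h') hg
      conv_lhs => rw [← h1]
      group
    · intro hg
      ext h'
      show ((g * h' * g⁻¹ : ↥A) : G) = h'
      rw [← hg h', mul_inv_cancel_right]
  have hne : θ.ker ≠ ⊤ := fun e => htriv (MonoidHom.ext fun x => e.ge (Subgroup.mem_top x))
  have hbig := (hL.big θ.ker inferInstance).resolve_left hne
  rw [Subgroup.index_ker] at hbig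
  have hInn : Nat.card ↥(Inn ↥A) = (Subgroup.center ↥A).index := by
    rw [← hker, Subgroup.index_ker]
  have heq : θ.range = Inn ↥A :=
    Subgroup.eq_of_le_of_card_ge hle (by rw [hInn]; exact hn.trans hbig)
  have hact : LocalBalance.act A ⟨s, hsN⟩ = 1 := by
    refine LocalBalance.commute_of_commute_mod_center _ fun k => ?_
    obtain ⟨l, hl⟩ : MulAut.conj k ∈ θ.range := heq ▸ ⟨k, rfl⟩
    have hcomm : LocalBalance.act A ⟨s, hsN⟩ * MulAut.conj k =
        MulAut.conj k * LocalBalance.act A ⟨s, hsN⟩ := by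
      rw [← hl, MonoidHom.comp_apply, ← map_mul, ← map_mul]
      exact congrArg _ (Subtype.ext (hs l l.2))
    set σ := LocalBalance.act A ⟨s, hsN⟩
    rw [← hker, MonoidHom.mem_ker, map_mul, map_inv, mul_inv_eq_one]
    ext x
    have h1 := DFunLike.congr_fun hcomm (σ.symm x)
    simp only [MulAut.mul_apply, MulAut.conj_apply, map_mul, map_inv, MulEquiv.apply_symm_apply] at h1
    rw [MulAut.conj_apply, MulAut.conj_apply, h1]
  exact (LocalBalance.act_eq_one_iff A ⟨s, hsN⟩).mp hact

end CfsgLib.SLTwoPair
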