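import Cfsg.Agent.SLTwoPair6.Basic

/-!
Involutions `z` with a 2-component of `C(z)` of type `SL₂` (or `2A₇`) containing `z`:
passage between `G` and `C(z) / O(C(z))`.
-/

set_option autoImplicit false

namespace CfsgLib.SLTwoPair

open Cfsg CfsgLib.Cores

variable {G : Type*} [Group G]

/-- The centralizer of an element. -/
abbrev Cz (z : G) : Subgroup G := Subgroup.centralizer ({z} : Set G)

theorem mem_Cz {z g : G} : g ∈ Cz z ↔ g * z = z * g := Subgroup.mem_centralizer_singleton_iff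

theorem self_mem_Cz (z : G) : z ∈ Cz z := mem_Cz.mpr rfl

/-- The odd core of the centralizer, in `G`. -/
def Oz (z : G) : Subgroup G := (oddCore ↥(Cz z)).map (Cz z).subtype

/-- The centralizer modulo its odd core. -/
abbrev Y (z : G) : Type _ := ↥(Cz z) ⧸ oddCore ↥(Cz z)

open scoped Classical in
/-- The image of an element of `C(z)` in `C(z) / O(C(z))`. -/
noncomputable def q (z g : G) : Y z :=
  if h : g ∈ Cz z then QuotientGroup.mk' (oddCore ↥(Cz z)) ⟨g, h⟩ else 1

theorem q_of_mem {z g : G} (h : g ∈ Cz z) : q z g = QuotientGroup.mk' (oddCore ↥(Cz z)) ⟨g, h⟩ :=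
  dif_pos h

theorem q_one (z : G) : q z (1 : G) = 1 := by
  rw [q_of_mem (one_mem _)]
  exact map_one (QuotientGroup.mk' (oddCore ↥(Cz z)))

theorem q_mul {z g h : G} (hg : g ∈ Cz z) (hh : h ∈ Cz z) : q z (g * h) = q z g * q z h := by
  rw [q_of_mem hg, q_of_mem hh, q_of_mem (mul_mem hg hh), ← map_mul]
  rfl

theorem q_inv {z g : G} (hg : g ∈ Cz z) : q z g⁻¹ = (q z g)⁻¹ := by
  rw [q_of_mem hg, q_of_mem (inv_mem hg), ← map_inv]
  rfl

theorem q_conj {z g h : G} (hg : g ∈ Cz z) (hh : h ∈ Cz z) :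
    q z (g * h * g⁻¹) = q z g * q z h * (q z g)⁻¹ := by
  rw [q_mul (mul_mem hg hh) (inv_mem hg), q_mul hg hh, q_inv hg]

theorem q_pow {z g : G} (hg : g ∈ Cz z) (n : ℕ) : q z (g ^ n) = q z g ^ n := by
  induction n with
  | zero => rw [pow_zero, pow_zero, q_one]
  | succ n ih => rw [pow_succ, q_mul (pow_mem hg n) hg, ih, pow_succ]

theorem q_commute {z g h : G} (hg : g ∈ Cz z) (hh : h ∈ Cz z) (hc : g * h = h * g) :
    q z g * q z h = q z h * q z g := by
  rw [← q_mul hg hh, hc, q_mul hh hg]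

theorem q_surj {z : G} (y : Y z) : ∃ g ∈ Cz z, q z g = y := by
  obtain ⟨⟨g, hg⟩, rfl⟩ := QuotientGroup.mk'_surjective _ y
  exact ⟨g, hg, q_of_mem hg⟩

theorem q_eq_one {z g : G} (hg : g ∈ Cz z) : q z g = 1 ↔ g ∈ Oz z := by
  rw [q_of_mem hg, QuotientGroup.mk'_apply, QuotientGroup.eq_one_iff]
  constructor
  · exact fun h => ⟨_, h, rfl⟩
  · rintro ⟨x, hx, hxg⟩
    rwa [show x = ⟨g, hg⟩ from Subtype.ext hxg] at hx

theorem q_eq_iff {z g h : G} (hg : g ∈ Cz z) (hh : h ∈ Cz z) :
    q z g = q z h ↔ g * h⁻¹ ∈ Oz z := by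
  rw [← q_eq_one (mul_mem hg (inv_mem hh)), q_mul hg (inv_mem hh), q_inv hh, mul_inv_eq_one]

theorem Oz_le (z : G) : Oz z ≤ Cz z := Subgroup.map_subtype_le _

theorem Oz_conj {z g o : G} (hg : g ∈ Cz z) (ho : o ∈ Oz z) : g * o * g⁻¹ ∈ Oz z := by
  have ho' := Oz_le z ho
  rw [← q_eq_one (mul_mem (mul_mem hg ho') (inv_mem hg)), q_conj hg ho', (q_eq_one ho').mpr ho]
  group

theorem q_self_cent (z : G) (y : Y z) : y * q z z = q z z * y := by
  obtain ⟨g, hg, rfl⟩ := q_surj y
  exact q_commute hg (self_mem_Cz z) (mem_Cz.mp hg)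

variable [Finite G]

theorem odd_Oz (z : G) : Odd (Nat.card ↥(Oz z)) := by
  rw [Oz, Subgroup.card_map_of_injective (Cz z).subtype_injective]
  haveI : Fact (Nat.Prime 2) := ⟨Nat.prime_two⟩
  exact Nat.odd_iff.2 (Nat.two_dvd_ne_zero.1 (Constrained.pPrimeCore_not_dvd (p := 2)))

theorem q_ne_one {z x : G} (hxC : x ∈ Cz z) (hx : orderOf x = 2) : q z x ≠ 1 := fun e => by
  have h1 := eq_one_of_sq_of_mem (odd_Oz z) (by rw [← sq, ← hx]; exact pow_orderOf_eq_one x)
    ((q_eq_one hxC).mp e)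
  rw [h1, orderOf_one] at hx
  omega

theorem sq_of_orderOf {z : G} (hz : orderOf z = 2) : z * z = 1 := by
  rw [← sq, ← hz]; exact pow_orderOf_eq_one z

/-- An element of square one in `C(z)/O` lifts to a power of square one. -/
theorem exists_invol_pow {z g : G} (hg : g ∈ Cz z) (h : q z g * q z g = 1) :
    ∃ m : ℕ, Odd m ∧ g ^ m * g ^ m = 1 ∧ q z (g ^ m) = q z g := by
  have hker : Odd (Nat.card ↥(QuotientGroup.mk' (oddCore ↥(Cz z))).ker) := by
    rw [QuotientGroup.ker_mk', ← Subgroup.card_map_of_injective (Cz z).subtype_injective]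
    exact odd_Oz z
  obtain ⟨m, hm, h2, h3⟩ := exists_invol_lift (g := (⟨g, hg⟩ : ↥(Cz z))) hker
    (by rw [← q_of_mem hg]; exact h)
  exact ⟨m, hm, congrArg Subtype.val h2, by rw [q_of_mem (pow_mem hg m), q_of_mem hg]; exact h3⟩

/-! ### Classical pairs -/

/-- `J` is a 2-component of `C(z)` of good type with `z` as its only involution. -/
structure Classical (n : ℕ) (z : G) (J : Subgroup G) : Prop where
  ord : orderOf z = 2
  mem : z ∈ J
  uniq : ∀ t ∈ J, orderOf t = 2 → t = z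
  le : J ≤ Cz z
  comp : IsPComponent 2 (J.subgroupOf (Cz z))
  good : Good (↥J ⧸ oddCore ↥J)
  idx : (Subgroup.center (↥J ⧸ oddCore ↥J)).index = n

variable {n : ℕ} {z w : G} {J K : Subgroup G}

/-- The image of `J` in `C(z) / O`. -/
def bar (z : G) (J : Subgroup G) : Subgroup (Y z) :=
  (J.subgroupOf (Cz z)).map (QuotientGroup.mk' (oddCore ↥(Cz z)))

omit [Finite G] in
theorem Classical.q_mem (h : Classical n z J) {g : G} (hg : g ∈ J) : q z g ∈ bar z J := by
  rw [q_of_mem (h.le hg)]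
  exact ⟨⟨g, h.le hg⟩, hg, rfl⟩

omit [Finite G] in
theorem bar_lift {y : Y z} (hy : y ∈ bar z J) : ∃ g ∈ J, g ∈ Cz z ∧ q z g = y := by
  obtain ⟨⟨g, hg⟩, hgJ, rfl⟩ := hy
  exact ⟨g, hgJ, hg, q_of_mem hg⟩

theorem Classical.exists_equiv (h : Classical n z J) :
    Nonempty (↥J ⧸ oddCore ↥J ≃* ↥(bar z J)) := by
  haveI : Fact (Nat.Prime 2) := ⟨Nat.prime_two⟩
  let e := (Subgroup.subgroupOfEquivOfLe h.le).symm
  let e1 : ↥J ⧸ oddCore ↥J ≃* ↥(J.subgroupOf (Cz z)) ⧸ oddCore ↥(J.subgroupOf (Cz z)) :=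
    QuotientGroup.congr _ _ e (Constrained.pPrimeCore_map e 2)
  exact ⟨e1.trans ((QuotientGroup.quotientMulEquivOfEq
    (LBalance.pPrimeCore_eq_ker (p := 2) h.comp.1)).trans
    (QuotientGroup.quotientKerEquivOfSurjective _
      (MonoidHom.subgroupMap_surjective (QuotientGroup.mk' (oddCore ↥(Cz z))) _)))⟩

theorem Classical.good_bar (h : Classical n z J) : Good ↥(bar z J) :=
  h.exists_equiv.elim fun e => h.good.congr e

theorem Classical.idx_bar (h : Classical n z J) : (Subgroup.center ↥(bar z J)).index = n := by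
  obtain ⟨e⟩ := h.exists_equiv
  rw [← LBalance.center_map_eq e]
  exact (Subgroup.index_map_equiv _ e).trans h.idx

theorem Classical.isComp (h : Classical n z J) : Comp (q z z) (bar z J) where
  comp := h.comp.2.1
  good := h.good_bar
  mem := h.q_mem h.mem
  ord := orderOf_eq_prime
    (by rw [← q_pow (self_mem_Cz z), sq, sq_of_orderOf h.ord, q_one])
    (q_ne_one (self_mem_Cz z) h.ord)
  cent := q_self_cent z

theorem Classical.cs_q (h : Classical n z J) {g : G} (hg : g ∈ Cz z) :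
    (g ∈ Subgroup.normalizer (J : Set G) ↔ cs (q z g) (bar z J) = bar z J) := by
  haveI : Fact (Nat.Prime 2) := ⟨Nat.prime_two⟩
  set C := Cz z
  set π := QuotientGroup.mk' (oddCore ↥C)
  set K := J.subgroupOf C with hK
  set gC : ↥C := ⟨g, hg⟩
  have hmap : cs (q z g) (bar z J) = (cs gC K).map π := by
    rw [q_of_mem hg]
    show ((K.map π).map (MulAut.conj (π gC)).toMonoidHom) = (K.map (MulAut.conj gC).toMonoidHom).map π
    rw [Subgroup.map_map, Subgroup.map_map]
    congr 1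
  have hcomp : IsPComponent 2 (cs gC K) :=
    LBalance.isPComponent_of_isBlock (h.comp.1.map (MulEquiv.surjective _))
      ((LBalance.isBlock_of_isPComponent h.comp).of_surjective
        (K.equivMapOfInjective _ (MulAut.conj gC).injective).toMonoidHom (MulEquiv.surjective _) (by
          rw [(MonoidHom.ker_eq_bot_iff _).mpr (MulEquiv.injective _), Subgroup.card_bot]
          exact Nat.prime_two.not_dvd_one))
  rw [hmap]
  constructor
  · intro hn
    refine congrArg (Subgroup.map π) ((cs_eq_iff gC K).mpr ?_)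
    rw [Subgroup.mem_normalizer_iff]
    intro x
    exact Subgroup.mem_normalizer_iff.mp hn (x : G)
  · intro he
    have h1 : cs gC K = K := pComponent_ext hcomp h.comp he
    have h2 := Subgroup.mem_normalizer_iff.mp ((cs_eq_iff gC K).mp h1)
    refine Subgroup.mem_normalizer_iff.mpr fun x => ?_
    constructor
    · exact fun hx => (h2 ⟨x, h.le hx⟩).mp hx
    · intro hx
      have hxC : x ∈ C := by
        have h3 := mul_mem (mul_mem (inv_mem hg) (h.le hx)) hg
        rwa [show g⁻¹ * (g * x * g⁻¹) * g = x by group] at h3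
      exact (h2 ⟨x, hxC⟩).mpr hx

theorem Classical.z_fixed (h : Classical n z J) {g : G} (hg : g ∈ Subgroup.normalizer (J : Set G)) :
    g ∈ Cz z := by
  have h1 := h.uniq (g * z * g⁻¹) ((Subgroup.mem_normalizer_iff.mp hg z).mp h.mem)
    ((MulEquiv.orderOf_eq (MulAut.conj g) z).trans h.ord)
  exact mem_Cz.mpr (by conv_rhs => rw [← h1]
                       group)

theorem Classical.conj (h : Classical n z J) (g : G) : Classical n (g * z * g⁻¹) (cs g J) := by
  haveI : Fact (Nat.Prime 2) := ⟨Nat.prime_two⟩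
  let φ : ↥(Cz z) →* ↥(Cz (g * z * g⁻¹)) :=
    ((MulAut.conj g).toMonoidHom.comp (Cz z).subtype).codRestrict _ fun c => mem_Cz.mpr (by
      show g * c * g⁻¹ * (g * z * g⁻¹) = g * z * g⁻¹ * (g * c * g⁻¹)
      rw [show g * c * g⁻¹ * (g * z * g⁻¹) = g * ((c : G) * z) * g⁻¹ by group, mem_Cz.mp c.2]
      group)
  have hφi : Function.Injective φ := fun a b hab =>
    Subtype.ext ((MulAut.conj g).injective (congrArg Subtype.val hab))
  have hφs : Function.Surjective φ := by
    rintro ⟨y, hy⟩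
    refine ⟨⟨g⁻¹ * y * g, mem_Cz.mpr ?_⟩, Subtype.ext ?_⟩
    · have h1 := mem_Cz.mp hy
      calc g⁻¹ * y * g * z = g⁻¹ * (y * (g * z * g⁻¹)) * g := by group
        _ = g⁻¹ * (g * z * g⁻¹ * y) * g := by rw [h1]
        _ = z * (g⁻¹ * y * g) := by group
    · show g * (g⁻¹ * y * g) * g⁻¹ = y
      group
  have hle : cs g J ≤ Cz (g * z * g⁻¹) := by
    rintro _ ⟨x, hx, rfl⟩
    exact (φ ⟨x, h.le hx⟩).2
  have heq : (cs g J).subgroupOf (Cz (g * z * g⁻¹)) = (J.subgroupOf (Cz z)).map φ := by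
    ext ⟨x, hx⟩
    constructor
    · intro hxJ
      obtain ⟨a, ha, hax⟩ := hxJ
      exact ⟨⟨a, h.le ha⟩, ha, Subtype.ext hax⟩
    · rintro ⟨⟨a, _⟩, haJ, hax⟩
      exact ⟨a, haJ, congrArg Subtype.val hax⟩
  let eJ : ↥J ≃* ↥(cs g J) := J.equivMapOfInjective _ (MulAut.conj g).injective
  let eq' : ↥J ⧸ oddCore ↥J ≃* ↥(cs g J) ⧸ oddCore ↥(cs g J) :=
    QuotientGroup.congr _ _ eJ (Constrained.pPrimeCore_map eJ 2)
  exact
    { ord := (MulEquiv.orderOf_eq (MulAut.conj g) z).trans h.ord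
      mem := mem_cs h.mem
      uniq := by
        rintro _ ⟨x, hx, rfl⟩ ho
        have hx2 : orderOf x = 2 := ((MulEquiv.orderOf_eq (MulAut.conj g) x).symm).trans ho
        rw [h.uniq x hx hx2]
        rfl
      le := hle
      comp := by
        rw [heq]
        exact LBalance.isPComponent_of_isBlock (h.comp.1.map hφs)
          ((LBalance.isBlock_of_isPComponent h.comp).of_surjective
            ((J.subgroupOf (Cz z)).equivMapOfInjective φ hφi).toMonoidHom (MulEquiv.surjective _) (by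
              rw [(MonoidHom.ker_eq_bot_iff _).mpr (MulEquiv.injective _), Subgroup.card_bot]
              exact Nat.prime_two.not_dvd_one))
      good := h.good.congr eq'
      idx := by
        rw [← LBalance.center_map_eq eq']
        exact (Subgroup.index_map_equiv _ eq').trans h.idx }

theorem Classical.conj_of_mem (h : Classical n z J) {g : G} (hg : g ∈ Cz z) :
    Classical n z (cs g J) := by
  have h1 := h.conj g
  rwa [mem_Cz.mp hg, mul_inv_cancel_right] at h1

theorem Classical.bar_cs (h : Classical n z J) {g : G} (hg : g ∈ Cz z) :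
    bar z (cs g J) = cs (q z g) (bar z J) := by
  ext y
  constructor
  · intro hy
    obtain ⟨x, ⟨a, ha, rfl⟩, -, rfl⟩ := bar_lift hy
    show q z (g * a * g⁻¹) ∈ _
    rw [q_conj hg (h.le ha)]
    exact mem_cs (h.q_mem ha)
  · rintro ⟨b, hb, rfl⟩
    obtain ⟨a, ha, haC, rfl⟩ := bar_lift hb
    show q z g * q z a * (q z g)⁻¹ ∈ _
    rw [← q_conj hg haC]
    exact (h.conj_of_mem hg).q_mem (mem_cs ha)

theorem Classical.eq_of_bar (h : Classical n z J) (h' : Classical n z K)
    (e : bar z J = bar z K) : J = K := by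
  haveI : Fact (Nat.Prime 2) := ⟨Nat.prime_two⟩
  have h1 : J.subgroupOf (Cz z) = K.subgroupOf (Cz z) := pComponent_ext h.comp h'.comp e
  have := congrArg (Subgroup.map (Cz z).subtype) h1
  rwa [Subgroup.subgroupOf_map_subtype, Subgroup.subgroupOf_map_subtype, inf_of_le_left h.le,
    inf_of_le_left h'.le] at this

/-- An odd number power of a lift, inside the component. -/
theorem Classical.exists_lift_pow (h : Classical n z J) {g : G} (hg : g ∈ J)
    (h2 : q z g * q z g = q z z) :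
    ∃ t ∈ J, t * t = z ∧ q z t * q z t = q z z ∧ (∀ r : G, g * r = r * g → t * r = r * t) ∧
      ∃ m : ℕ, Odd m ∧ t = g ^ m := by
  have hgC := h.le hg
  have hsq : q z (g * g) * q z (g * g) = 1 := by
    rw [q_mul hgC hgC, h2, ← q_mul (self_mem_Cz z) (self_mem_Cz z), sq_of_orderOf h.ord, q_one]
  obtain ⟨m, hm, h22, h3⟩ := exists_invol_pow (mul_mem hgC hgC) hsq
  have hc : (g * g) ^ m = g ^ m * g ^ m := (Commute.refl g).mul_pow m
  have hne : (g * g) ^ m ≠ 1 := fun e => by
    rw [e, q_one, q_mul hgC hgC, h2] at h3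
    exact q_ne_one (self_mem_Cz z) h.ord h3.symm
  have he : g ^ m * g ^ m = z :=
    h.uniq _ (mul_mem (pow_mem hg m) (pow_mem hg m))
      (hc ▸ orderOf_eq_prime (by rw [sq, h22]) hne)
  refine ⟨g ^ m, pow_mem hg m, he, ?_, fun r hr => Commute.pow_left hr m, m, hm, rfl⟩
  rw [← q_mul (pow_mem hgC m) (pow_mem hgC m), he]

end CfsgLib.SLTwoPair
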