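import Cfsg.Agent.SLTwoPair6.Swap

/-!
The swapping element has order four and the other involution induces its inner automorphism.
-/

set_option autoImplicit false
set_option maxHeartbeats 1600000

namespace CfsgLib.SLTwoPair

open Cfsg CfsgLib.Cores
open scoped commutatorElement

variable {G : Type*} [Group G] [Finite G] {n : ℕ} {z w y : G} {J K : Subgroup G}

omit [Finite G] in
theorem pow_congr {C O : Subgroup G} (hO : ∀ a ∈ C, ∀ o ∈ O, a * o * a⁻¹ ∈ O) {a b : G}
    (ha : a ∈ C) (h : a * b⁻¹ ∈ O) : ∀ j : ℕ, a ^ j * (b ^ j)⁻¹ ∈ O := by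
  intro j
  induction j with
  | zero => simp
  | succ j ih =>
    have e : a ^ (j + 1) * (b ^ (j + 1))⁻¹ = (a ^ j * (a * b⁻¹) * (a ^ j)⁻¹) * (a ^ j * (b ^ j)⁻¹) := by
      rw [pow_succ, pow_succ']
      group
    rw [e]
    exact mul_mem (hO _ (pow_mem ha j) _ h) ih

/-- The telescoping product of conjugates by even powers. -/
def tele (y u : G) : ℕ → G
  | 0 => 1
  | m + 1 => tele y u m * (y ^ (2 * m) * u * (y ^ (2 * m))⁻¹)

omit [Finite G] in
theorem tele_mem {H : Subgroup G} {y u : G} (hy : y ∈ Subgroup.normalizer (H : Set G)) (hu : u ∈ H) :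
    ∀ m, tele y u m ∈ H
  | 0 => one_mem _
  | m + 1 => mul_mem (tele_mem hy hu m) ((Subgroup.mem_normalizer_iff.mp (pow_mem hy _) u).mp hu)

/-- An element of `J` inverted by `w` modulo the centre. -/
theorem Moves.exists_inverted (H : Moves n z J w K y) :
    ∃ a ∈ J, a * w * a⁻¹ = w * z ∧ q z a ∈ bar z J ∧ q z w * q z a * q z w = q z a * q z z := by
  obtain ⟨a, ha, hae⟩ := (H.hJ.exists_inverting H.hK.ord H.wN).resolve_right H.tau
  have haz := H.hJ.le ha
  have hs : q z w * q z w = 1 := by rw [← q_mul H.hwz H.hwz, sq_of_orderOf H.hK.ord, q_one]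
  refine ⟨a, ha, hae, H.hJ.q_mem ha, ?_⟩
  have h : q z a * q z w = q z w * q z z * q z a := by
    rw [← q_mul haz H.hwz, ← q_mul H.hwz (self_mem_Cz z), ← q_mul (mul_mem H.hwz (self_mem_Cz z)) haz, ← hae]
    congr 1
    group
  rw [mul_assoc, h, ← mul_assoc, ← mul_assoc, hs, one_mul, q_self_cent z (q z a)]

/-- **Order four and inner action.** -/
theorem Moves.inner (H : Moves n z J w K y) {t : Y z} (ht : t ∈ bar z J)
    (htw : q z w * t * q z w = t * q z z) :
    y * y = w ∧ ∀ d ∈ Cz z ⊓ Cz w, q z d = t * (q z y * t * (q z y)⁻¹) →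
      cs (q w d) (bar w K) ≠ bar w K ∧
      q w z = q w d * q w y * (q w d)⁻¹ * (q w y)⁻¹ := by
  have hA := H.hJ.isComp
  have hB := hA.conj (q z y)
  have hKc := H.hK.isComp
  have hs : q z w * q z w = 1 := by rw [← q_mul H.hwz H.hwz, sq_of_orderOf H.hK.ord, q_one]
  set C := Cz z ⊓ Cz w with hC
  set O := coreIn C with hOdef
  have hOC : ∀ a ∈ C, ∀ o ∈ O, a * o * a⁻¹ ∈ O := fun a ha o ho =>
    coreIn_conj (Subgroup.le_normalizer ha) ho
  have hzC : z ∈ C := Subgroup.mem_inf.mpr ⟨self_mem_Cz z, H.hzw'⟩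
  have hyC : y ∈ C := Subgroup.mem_inf.mpr ⟨H.hyz, H.hyw⟩
  -- the order of `y`
  obtain ⟨k0, hk0⟩ := H.two
  obtain ⟨k, -, hk⟩ := (Nat.dvd_prime_pow Nat.prime_two).mp (orderOf_dvd_of_pow_eq_one hk0)
  obtain ⟨i, rfl⟩ : ∃ i, k = i + 2 := by
    refine ⟨k - 2, ?_⟩
    have h4 := H.four
    rw [hk] at h4
    by_contra hlt
    have : k = 0 ∨ k = 1 := by omega
    rcases this with rfl | rfl <;> norm_num at h4
  set M := 2 ^ i with hM
  have hyM : y ^ (2 * M) = w := by
    refine H.hK.uniq _ (pow_mem H.mem _) (orderOf_eq_prime ?_ (pow_ne_one_of_lt_orderOf (by positivity) ?_))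
    · rw [← pow_mul, show 2 * M * 2 = orderOf y by rw [hk, hM, pow_succ, pow_succ]; ring, pow_orderOf_eq_one]
    · rw [hk, hM, pow_succ, pow_succ]; have : 0 < 2 ^ i := by positivity
      omega
  -- facts for every lift of the diagonal element
  have key : ∀ d ∈ C, q z d = t * (q z y * t * (q z y)⁻¹) →
      cs (q w d) (bar w K) ≠ bar w K ∧ i = 0 ∧ q w z = q w d * q w y * (q w d)⁻¹ * (q w y)⁻¹ := by
    intro d hd hdq
    obtain ⟨hdz, hdw⟩ := Subgroup.mem_inf.mp hd
    set u := d * y * d⁻¹ * y⁻¹ with hu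
    have huC : u ∈ C := mul_mem (mul_mem (mul_mem hd hyC) (inv_mem hd)) (inv_mem hyC)
    set yb := q z y with hyb
    set e1 := t * (yb * (yb * t * yb⁻¹) * yb⁻¹)⁻¹ with he1
    have ht2A : yb * (yb * t * yb⁻¹) * yb⁻¹ ∈ bar z J := by
      have := mem_cs (g := yb) (mem_cs (g := yb) ht)
      rwa [H.swap] at this
    have hqu : q z u = e1 := by
      rw [hu, q_mul (mul_mem (mul_mem hdz H.hyz) (inv_mem hdz)) (inv_mem H.hyz), q_conj hdz H.hyz,
        q_inv H.hyz, hdq, ← hyb, he1]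
      have hc := hA.commute hB H.ne.symm (inv_mem ht2A) (mem_cs ht)
      calc t * (yb * t * yb⁻¹) * yb * (t * (yb * t * yb⁻¹))⁻¹ * yb⁻¹
          = t * ((yb * t * yb⁻¹) * (yb * (yb * t * yb⁻¹) * yb⁻¹)⁻¹) * (yb * t * yb⁻¹)⁻¹ := by group
        _ = t * ((yb * (yb * t * yb⁻¹) * yb⁻¹)⁻¹ * (yb * t * yb⁻¹)) * (yb * t * yb⁻¹)⁻¹ := by rw [← hc]
        _ = _ := by group
    have hy2N : y ∈ Subgroup.normalizer (C : Set G) := Subgroup.le_normalizer hyC
    have hteleC : ∀ m, tele y u m ∈ C := tele_mem hy2N huC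
    have htq : ∀ m, q z (tele y u m) = t * (yb ^ (2 * m) * t * (yb ^ (2 * m))⁻¹)⁻¹ := by
      intro m
      induction m with
      | zero =>
        show q z (1 : G) = _
        rw [q_one]; simp
      | succ m ih =>
        have h1 := (Subgroup.mem_inf.mp (hteleC m)).1
        have h2 := pow_mem H.hyz (2 * m)
        have huz := (Subgroup.mem_inf.mp huC).1
        show q z (tele y u m * (y ^ (2 * m) * u * (y ^ (2 * m))⁻¹)) = _
        rw [q_mul h1 (mul_mem (mul_mem h2 huz) (inv_mem h2)), q_conj h2 huz, ih, q_pow H.hyz, hqu, he1,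
          show 2 * (m + 1) = 2 * m + 2 by ring, pow_add, sq, ← hyb]
        group
    have hPM : q z (tele y u M) = q z z := by
      rw [htq, ← q_pow H.hyz, hyM]
      have hsi : (q z w)⁻¹ = q z w := inv_eq_of_mul_eq_one_right hs
      rw [hsi, htw, mul_inv_rev, inv_eq_of_mul_eq_one_right hA.csq, ← hA.cent t⁻¹, mul_inv_cancel_left]
    have hcong : tele y u M * z⁻¹ ∈ O :=
      Oz_inf_le_coreIn (b := z) inf_le_left (Subgroup.mem_inf.mpr
        ⟨(q_eq_iff (Subgroup.mem_inf.mp (hteleC M)).1 (self_mem_Cz z)).mp hPM,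
          mul_mem (hteleC M) (inv_mem hzC)⟩)
    have hne : cs (q w d) (bar w K) ≠ bar w K := by
      intro hfix
      have hdN := (H.hK.cs_q hdw).mpr hfix
      have huK : u ∈ K :=
        K.mul_mem ((Subgroup.mem_normalizer_iff.mp hdN y).mp H.mem) (K.inv_mem H.mem)
      have hP : tele y u M ∈ K := tele_mem (Subgroup.le_normalizer H.mem) huK M
      have hpc := pow_congr hOC (hteleC M) hcong (Nat.card ↥O)
      obtain ⟨j, hj⟩ := odd_coreIn C
      have hPz : Commute (tele y u M) z := mem_Cz.mp (Subgroup.mem_inf.mp (hteleC M)).1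
      have h1 : (tele y u M * z⁻¹) ^ Nat.card ↥O = 1 := by
        have : (⟨_, hcong⟩ : ↥O) ^ Nat.card ↥O = 1 := pow_card_eq_one'
        simpa only [SubgroupClass.coe_pow, OneMemClass.coe_one] using congrArg Subtype.val this
      rw [(hPz.inv_right).mul_pow, mul_eq_one_iff_eq_inv, inv_pow, inv_inv, hOdef, hj, pow_succ z, pow_mul z,
        sq, sq_of_orderOf H.hJ.ord, one_pow, one_mul] at h1
      exact H.hzw (H.hK.uniq z (h1 ▸ pow_mem hP _) H.hJ.ord)
    have huw : u ∈ Cz w := (Subgroup.mem_inf.mp huC).2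
    set yd := q w d * q w y * (q w d)⁻¹ with hyd
    have hqwu : q w u = yd * (q w y)⁻¹ := by
      rw [hu, q_mul (mul_mem (mul_mem hdw H.hyw) (inv_mem hdw)) (inv_mem H.hyw), q_conj hdw H.hyw, q_inv H.hyw]
    have hyy : yd * q w y = q w y * yd :=
      (hKc.conj (q w d)).commute hKc hne (mem_cs (H.hK.q_mem H.mem)) (H.hK.q_mem H.mem)
    have hi : i = 0 := by
      by_contra hi0
      have hrO : y * u * y⁻¹ * u⁻¹ ∈ O := by
        refine Oz_inf_le_coreIn (b := w) inf_le_right (Subgroup.mem_inf.mpr ⟨?_,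
          mul_mem (mul_mem (mul_mem hyC huC) (inv_mem hyC)) (inv_mem huC)⟩)
        rw [← q_eq_iff (mul_mem (mul_mem H.hyw huw) (inv_mem H.hyw)) huw, q_conj H.hyw huw, hqwu,
          ← mul_assoc (q w y) yd, ← hyy]
        group
      have hconjy : ∀ m, y ^ m * u * (y ^ m)⁻¹ * u⁻¹ ∈ O := by
        intro m
        induction m with
        | zero => simp
        | succ m ih =>
          rw [show y ^ (m + 1) * u * (y ^ (m + 1))⁻¹ * u⁻¹ =
            (y ^ m * (y * u * y⁻¹ * u⁻¹) * (y ^ m)⁻¹) * (y ^ m * u * (y ^ m)⁻¹ * u⁻¹) by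
              rw [pow_succ]; group]
          exact mul_mem (hOC _ (pow_mem hyC m) _ hrO) ih
      have htele : ∀ m, tele y u m * (u ^ m)⁻¹ ∈ O := by
        intro m
        induction m with
        | zero => simp [tele]
        | succ m ih =>
          show tele y u m * (y ^ (2 * m) * u * (y ^ (2 * m))⁻¹) * (u ^ (m + 1))⁻¹ ∈ O
          rw [show tele y u m * (y ^ (2 * m) * u * (y ^ (2 * m))⁻¹) * (u ^ (m + 1))⁻¹ =
            (tele y u m * (y ^ (2 * m) * u * (y ^ (2 * m))⁻¹ * u⁻¹) * (tele y u m)⁻¹) *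
              (tele y u m * (u ^ m)⁻¹) by rw [pow_succ']; group]
          exact mul_mem (hOC _ (hteleC m) _ (hconjy _)) ih
      have hr : q z (y * u * y⁻¹ * u⁻¹) = yb * e1 * yb⁻¹ * e1⁻¹ := by
        have huz := (Subgroup.mem_inf.mp huC).1
        rw [q_mul (mul_mem (mul_mem H.hyz huz) (inv_mem H.hyz)) (inv_mem huz), q_conj H.hyz huz, q_inv huz, hqu,
          ← hyb]
      have hodd : Odd (orderOf (yb * e1 * yb⁻¹ * e1⁻¹)) := by
        rw [← hr]
        refine (odd_orderOf_of_mem (odd_coreIn C) hrO).of_dvd_nat (orderOf_dvd_of_pow_eq_one ?_)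
        rw [← q_pow (Subgroup.mem_inf.mp (coreIn_le C hrO)).1, pow_orderOf_eq_one, q_one]
      obtain ⟨jj, hjj⟩ := hodd
      have he1A : e1 ∈ bar z J := mul_mem ht (inv_mem ht2A)
      have hce : Commute (yb * e1 * yb⁻¹) e1⁻¹ := hB.commute hA H.ne (mem_cs he1A) (inv_mem he1A)
      have hj1 : yb * e1 ^ (2 * jj + 1) * yb⁻¹ = e1 ^ (2 * jj + 1) := by
        have h := pow_orderOf_eq_one (yb * e1 * yb⁻¹ * e1⁻¹)
        rw [hjj, hce.mul_pow, conj_pow, inv_pow, mul_inv_eq_one] at h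
        exact h
      have hmeet := hA.meet hB H.ne.symm (pow_mem he1A _)
        (hj1 ▸ mem_cs (pow_mem he1A (2 * jj + 1)) : e1 ^ (2 * jj + 1) ∈ cs yb (bar z J))
      have heven : Even M := by
        obtain ⟨i', rfl⟩ : ∃ i', i = i' + 1 := ⟨i - 1, by omega⟩
        exact ⟨2 ^ i', by rw [hM, pow_succ]; ring⟩
      obtain ⟨M', hM'⟩ := heven
      have hej : e1 ^ ((2 * jj + 1) * M) = 1 := by
        rw [pow_mul, hM']
        rcases hmeet with e | e <;> rw [e]
        · exact one_pow _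
        · rw [← two_mul, pow_mul, sq, hA.csq, one_pow]
      have hup : u ^ M * z⁻¹ ∈ O := by
        rw [show u ^ M * z⁻¹ = (tele y u M * (u ^ M)⁻¹)⁻¹ * (tele y u M * z⁻¹) by group]
        exact mul_mem (inv_mem (htele M)) hcong
      have hmul := pow_congr hOC (pow_mem huC M) hup (2 * jj + 1)
      have huO : (u ^ M) ^ (2 * jj + 1) ∈ O := by
        have hm := pow_mem (pow_mem huC M) (2 * jj + 1)
        refine Oz_inf_le_coreIn (b := z) inf_le_left (Subgroup.mem_inf.mpr ⟨?_, hm⟩)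
        rw [← q_eq_one (Subgroup.mem_inf.mp hm).1, ← pow_mul, q_pow (Subgroup.mem_inf.mp huC).1, hqu,
          mul_comm M, hej]
      have hzO : z ∈ O := by
        have h2 := mul_mem (inv_mem hmul) huO
        rwa [mul_inv_rev, inv_inv, inv_mul_cancel_right, pow_succ, pow_mul, sq, sq_of_orderOf H.hJ.ord,
          one_pow, one_mul] at h2
      have := eq_one_of_sq_of_mem (odd_coreIn C) (sq_of_orderOf H.hJ.ord) hzO
      have h2 := H.hJ.ord
      rw [this, orderOf_one] at h2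
      omega
    refine ⟨hne, hi, ?_⟩
    have hM1 : M = 1 := by rw [hM, hi, pow_zero]
    have htu : tele y u M = u := by
      rw [hM1]; simp [tele]
    rw [htu] at hcong
    have hyb2 : q w y * q w y = q w w := by
      rw [← q_mul H.hyw H.hyw, ← sq, show 2 = 2 * M by rw [hM1], hyM]
    have hyd2 : yd * yd = q w w := by
      rw [hyd, show q w d * q w y * (q w d)⁻¹ * (q w d * q w y * (q w d)⁻¹) =
        q w d * (q w y * q w y) * (q w d)⁻¹ by group, hyb2, hKc.cent, mul_inv_cancel_right]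
    have hu2 : q w u * q w u = 1 := by
      rw [hqwu, (show Commute yd (q w y) from hyy).inv_right.symm.mul_mul_mul_comm, hyd2, ← mul_inv_rev, hyb2, mul_inv_cancel]
    have hzb : q w z * q w z = 1 := by rw [← q_mul H.hzw' H.hzw', sq_of_orderOf H.hJ.ord, q_one]
    have hc : q w u * q w z = q w z * q w u := q_commute huw H.hzw' (mem_Cz.mp (Subgroup.mem_inf.mp huC).1)
    have hzi : (q w z)⁻¹ = q w z := inv_eq_of_mul_eq_one_right hzb
    rw [← hqwu]
    refine (mul_inv_eq_one.mp (eq_one_of_sq_of_odd (u := q w u * (q w z)⁻¹) ?_ ?_)).symm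
    · rw [hzi, (show Commute (q w u) (q w z) from hc).symm.mul_mul_mul_comm, hu2, hzb, one_mul]
    · rw [← q_inv H.hzw', ← q_mul huw (inv_mem H.hzw')]
      refine (odd_orderOf_of_mem (odd_coreIn C) hcong).of_dvd_nat (orderOf_dvd_of_pow_eq_one ?_)
      rw [← q_pow (mul_mem huw (inv_mem H.hzw')), pow_orderOf_eq_one, q_one]
  obtain ⟨d0, hd0, hd0q, -⟩ := H.lift_diag ht (Or.inr htw)
  obtain ⟨-, hi, -⟩ := key d0 hd0 hd0q
  subst hi
  refine ⟨?_, fun d hd hdq => ⟨(key d hd hdq).1, (key d hd hdq).2.2⟩⟩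
  have h := hyM
  rw [hM, pow_zero, mul_one, sq] at h
  exact h

end CfsgLib.SLTwoPair
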