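import Cfsg.Agent.SLTwoPair6.Tools

/-!
If the involution of one classical pair normalises the component of another, then the involution
of the second normalises the component of the first.
-/

set_option autoImplicit false
set_option maxHeartbeats 1600000

namespace CfsgLib.SLTwoPair

open Cfsg CfsgLib.Cores
open scoped commutatorElement

variable {G : Type*} [Group G] [Finite G] {n : ℕ} {z w : G} {J K : Subgroup G}

/-- The preimage of a diagonal in `C(z) ∩ C(w)`. -/
def pre (z w : G) (D : Subgroup (Y z)) : Subgroup G :=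
  (D.comap (QuotientGroup.mk' (oddCore ↥(Cz z)))).map (Cz z).subtype ⊓ Cz w

omit [Finite G] in
theorem mem_pre {D : Subgroup (Y z)} {g : G} :
    g ∈ pre z w D ↔ g ∈ Cz z ∧ g ∈ Cz w ∧ q z g ∈ D := by
  constructor
  · rintro ⟨⟨⟨x, hx⟩, hxD, rfl⟩, hw⟩
    exact ⟨hx, hw, by rw [Subgroup.coe_subtype, q_of_mem hx]; exact hxD⟩
  · rintro ⟨h1, h2, h3⟩
    refine ⟨⟨⟨g, h1⟩, ?_, rfl⟩, h2⟩
    rw [q_of_mem h1] at h3
    exact h3

theorem covers_pre {D : Subgroup (Y z)} (hz : w ∈ Cz z) (hw2 : w * w = 1)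
    (hD : ∀ y ∈ D, q z w * y = y * q z w) : Covers (q z) (pre z w D) (D : Set (Y z)) := by
  intro y hy
  obtain ⟨g, hg, rfl⟩ := q_surj y
  obtain ⟨o, -, h1, h2, h3⟩ := lift_comm hw2 hz hg (hD _ hy).symm
  exact ⟨o * g, mem_pre.mpr ⟨h1, h2, h3.symm ▸ hy⟩, h3⟩

/-- The image in `C(b)/O` of a tight subgroup of `C(b)`. -/
theorem exists_image {b : G} {m : ℕ} {L : Subgroup G} (hL : Tight m L) (hLb : L ≤ Cz b) :
    ∃ P : Subgroup (Y b), Tight m P ∧ (∀ l ∈ L, q b l ∈ P) ∧ ∀ y ∈ P, ∃ l ∈ L, q b l = y := by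
  let φ : ↥L →* Y b := MonoidHom.mk' (fun l => q b l) (fun a c => q_mul (hLb a.2) (hLb c.2))
  refine ⟨φ.range, hL.map_inner φ, fun l hl => ⟨⟨l, hl⟩, rfl⟩, ?_⟩
  rintro _ ⟨l, rfl⟩
  exact ⟨l, l.2, rfl⟩

/-- Preimages of the involution in a cover of the component. -/
theorem Classical.mem_cover (hK : Classical n w K) {M : Subgroup G} (hMK : M ≤ K)
    (hcov : Covers (q w) M (bar w K : Set (Y w))) : w ∈ M := by
  obtain ⟨g, hg, hge⟩ := hcov _ hK.isComp.mem
  have hgC := hK.le (hMK hg)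
  obtain ⟨m, -, h2, h3⟩ := exists_invol_pow hgC (by rw [hge]; exact hK.isComp.csq)
  have hne : g ^ m ≠ 1 := fun e => hK.isComp.ne_one (by rw [← hge, ← h3, e, q_one])
  rw [← hK.uniq _ (pow_mem (hMK hg) m) (orderOf_eq_prime (by rw [sq, h2]) hne)]
  exact pow_mem hg m

/-- A subgroup covering a diagonal is not inside a group with one involution. -/
theorem not_covers_single (hJ : Classical n z J) {D : Subgroup (Y z)}
    (hDz : Subgroup.center ↥D = ⊥)
    (hDm : ∀ y, y ∈ D ↔ ∃ a ∈ bar z J, y = a * (q z w * a * q z w))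
    (hs : q z w * q z w = 1) (hne : cs (q z w) (bar z J) ≠ bar z J) {M : Subgroup G}
    (hM : M ≤ Cz z) (hcov : Covers (q z) M (D : Set (Y z)))
    (huniq : ∀ t ∈ M, orderOf t = 2 → t = w) : False := by
  have hA := hJ.isComp
  obtain ⟨t, ht, ht2⟩ := hA.exists_four
  have hsi : (q z w)⁻¹ = q z w := inv_eq_of_mul_eq_one_right hs
  have hsA : q z w * t * q z w ∈ cs (q z w) (bar z J) := by
    have h := mem_cs (g := q z w) ht
    rwa [hsi] at h
  set e := t * (q z w * t * q z w) with he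
  have hcm := hA.commute (hA.conj (q z w)) hne.symm ht hsA
  have he2 : e * e = 1 := by
    rw [he, mul_assoc t _ (t * _), ← mul_assoc (q z w * t * q z w) t, ← hcm, mul_assoc t _ (q z w * t * q z w),
      ← mul_assoc t t, ht2, show q z w * t * q z w * (q z w * t * q z w) = q z w * t * (q z w * q z w) * t * q z w by group,
      hs, mul_one, mul_assoc (q z w) t t, ht2, hA.cent (q z w), mul_assoc, hs, mul_one, hA.csq]
  have he1 : e ≠ 1 := fun h => by
    rcases hA.meet (hA.conj (q z w)) hne.symm ht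
      (by rw [eq_inv_of_mul_eq_one_left h]; exact inv_mem hsA) with h' | h'
    · exact (hA.out2_of_sq ht2).1 h'
    · exact (hA.out2_of_sq ht2).2 h'
  have heD : e ∈ D := (hDm e).mpr ⟨t, ht, rfl⟩
  have key : ∀ y ∈ D, y * y = 1 → y ≠ 1 → y = q z w := by
    intro y hy hy2 hy1
    obtain ⟨g, hg, rfl⟩ := hcov y hy
    obtain ⟨m, -, h2, h3⟩ := exists_invol_pow (hM hg) hy2
    have hne1 : g ^ m ≠ 1 := fun h => hy1 (by rw [← h3, h, q_one])
    rw [← h3, huniq _ (pow_mem hg m) (orderOf_eq_prime (by rw [sq, h2]) hne1)]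
  have hcen : (⟨e, heD⟩ : ↥D) ∈ Subgroup.center ↥D := by
    refine Subgroup.mem_center_iff.mpr fun g => Subtype.ext ?_
    have h1 : (g : Y z) * e * (g : Y z)⁻¹ = q z w := key _ (mul_mem (mul_mem g.2 heD) (inv_mem g.2))
      (by rw [show (g : Y z) * e * (g : Y z)⁻¹ * ((g : Y z) * e * (g : Y z)⁻¹) = g * (e * e) * (g : Y z)⁻¹ by group,
        he2, mul_one, mul_inv_cancel])
      (fun h => he1 (conj_eq_one_iff.mp h))
    rw [← key e heD he2 he1] at h1
    exact mul_inv_eq_iff_eq_mul.mp h1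
  rw [hDz, Subgroup.mem_bot] at hcen
  exact he1 (congrArg Subtype.val hcen)

/-- The kernel on all conjugates of `K`. -/
def fixAll (z w : G) (K : Subgroup G) : Subgroup G :=
  (Cz z ⊓ Cz w) ⊓ ⨅ k : ↥(Cz z ⊓ Cz w), Subgroup.normalizer ((cs (k : G) K : Subgroup G) : Set G)

omit [Finite G] in
theorem fixAll_le : fixAll z w K ≤ Cz z ⊓ Cz w := inf_le_left

omit [Finite G] in
theorem fixAll_le_normalizer : fixAll z w K ≤ Subgroup.normalizer (K : Set G) := by
  intro x hx
  have h := (Subgroup.mem_iInf.mp hx.2) 1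
  rwa [OneMemClass.coe_one, cs_one] at h

omit [Finite G] in
theorem fixAll_conj {g x : G} (hg : g ∈ Cz z ⊓ Cz w) (hx : x ∈ fixAll z w K) :
    g * x * g⁻¹ ∈ fixAll z w K := by
  refine ⟨(Cz z ⊓ Cz w).mul_mem ((Cz z ⊓ Cz w).mul_mem hg hx.1) ((Cz z ⊓ Cz w).inv_mem hg), Subgroup.mem_iInf.mpr fun k => ?_⟩
  have h := (Subgroup.mem_iInf.mp hx.2) (⟨g, hg⟩⁻¹ * k)
  rw [mem_normalizer_cs] at h ⊢
  simp only [Subgroup.coe_mul, Subgroup.coe_inv] at h
  rwa [show (k : G)⁻¹ * (g * x * g⁻¹) * k = (g⁻¹ * k)⁻¹ * x * (g⁻¹ * k) by group]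

/-- An element whose image is a product in components fixes all conjugates of the component. -/
theorem Classical.mem_fixAll (hK : Classical n w K) {g : G} (hg : g ∈ Cz z ⊓ Cz w)
    (h : ∀ B : Subgroup (Y w), IsComponent B → q w g ∈ Subgroup.normalizer (B : Set (Y w))) :
    g ∈ fixAll z w K := by
  refine ⟨hg, Subgroup.mem_iInf.mpr fun k => ?_⟩
  rw [mem_normalizer_cs, hK.cs_q (mul_mem (mul_mem (inv_mem k.2.2) hg.2) k.2.2),
    q_mul (mul_mem (inv_mem k.2.2) hg.2) k.2.2, q_mul (inv_mem k.2.2) hg.2, q_inv k.2.2,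
    cs_eq_iff, ← mem_normalizer_cs]
  exact h _ (hK.isComp.conj _).comp

/-- Step one: some cover of the diagonal normalises `K`. -/
theorem covers_normalizer (hJ : Classical n z J) (hK : Classical n w K)
    (hzK : z ∈ Subgroup.normalizer (K : Set G)) {D : Subgroup (Y z)}
    (hDq : IsQuasisimple ↥D) (hDz : Subgroup.center ↥D = ⊥) (hne : cs (q z w) (bar z J) ≠ bar z J)
    (hDm : ∀ y, y ∈ D ↔ ∃ a ∈ bar z J, y = a * (q z w * a * q z w))
    (hDs : ∀ y ∈ D, q z w * y = y * q z w) :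
    Covers (q z) (pre z w D ⊓ Subgroup.normalizer (K : Set G)) (D : Set (Y z)) := by
  by_contra hno
  have hzw : z ∈ Cz w := hK.z_fixed hzK
  have hwz : w ∈ Cz z := mem_Cz.mpr (mem_Cz.mp hzw).symm
  set H := pre z w D with hH
  have hcovH : Covers (q z) H (D : Set (Y z)) := covers_pre hwz (sq_of_orderOf hK.ord) hDs
  have hmulH : ∀ a ∈ H, ∀ b ∈ H, q z (a * b) = q z a * q z b := fun a ha b hb =>
    q_mul (mem_pre.mp ha).1 (mem_pre.mp hb).1
  have hH12 : H ≤ Cz z ⊓ Cz w := fun g hg => ⟨(mem_pre.mp hg).1, (mem_pre.mp hg).2.1⟩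
  have hA := hJ.isComp
  have hB := hA.conj (q z w)
  have hs : q z w * q z w = 1 := by rw [← q_mul hwz hwz, sq_of_orderOf hK.ord, q_one]
  have hsi : (q z w)⁻¹ = q z w := inv_eq_of_mul_eq_one_right hs
  -- the kernel on the conjugates meets the preimage in the core
  have hX : ∀ m ∈ H, m ∈ fixAll z w K → q z m = 1 := by
    rcases covers_or (f := q z) (H := H) (M := H ⊓ fixAll z w K) hDq hmulH
      (fun a ha => (mem_pre.mp ha).2.2) hcovH inf_le_left
      (fun a ha m hm => ⟨H.mul_mem (H.mul_mem ha hm.1) (H.inv_mem ha), fixAll_conj (hH12 ha) hm.2⟩) with h | h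
    · exact absurd (fun y hy => let ⟨g, hg, e⟩ := h y hy; ⟨g, ⟨hg.1, fixAll_le_normalizer hg.2⟩, e⟩) hno
    · intro m hm hmX
      have hc : (⟨q z m, (mem_pre.mp hm).2.2⟩ : ↥D) ∈ Subgroup.center ↥D :=
        Subgroup.mem_center_iff.mpr fun y => Subtype.ext (h m ⟨hm, hmX⟩ y y.2).symm
      rw [hDz, Subgroup.mem_bot] at hc
      exact congrArg Subtype.val hc
  -- an element moving two conjugates
  have hKc := hK.isComp
  have hzb2 : q w z * q w z = 1 := by rw [← q_mul hzw hzw, sq_of_orderOf hJ.ord, q_one]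
  obtain ⟨a, ha, ha2, hae⟩ := hKc.exists_four_stable hzb2 ((hK.cs_q hzw).mp hzK)
  obtain ⟨h1, hh1, hh1K⟩ : ∃ h ∈ H, cs (q w h) (bar w K) ≠ bar w K := by
    by_contra! hall
    exact hno fun y hy => let ⟨g, hg, e⟩ := hcovH y hy
      ⟨g, ⟨hg, (hK.cs_q (hH12 hg).2).mpr (hall g hg)⟩, e⟩
  set K1 := cs (q w h1) (bar w K) with hK1
  set a1 := q w h1 * a * (q w h1)⁻¹ with ha1
  have hK1c := hKc.conj (q w h1)
  have hcomm1 : q w h1 * q w z = q w z * q w h1 :=
    q_commute (hH12 hh1).2 hzw (mem_Cz.mp (hH12 hh1).1)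
  have hzi : (q w z)⁻¹ = q w z := inv_eq_of_mul_eq_one_right hzb2
  obtain ⟨y, hy12, hyq⟩ : ∃ y ∈ Cz z ⊓ Cz w, q w y = a * a1 := by
    obtain ⟨g, hg, hgq⟩ := q_surj (a * a1)
    have hfix : q w g * q w z = q w z * q w g := by
      rw [hgq]
      have e1 : q w z * a1 * q w z = q w h1 * (q w z * a * q w z) * (q w h1)⁻¹ := by
        rw [ha1, ← mul_assoc (q w z), ← mul_assoc (q w z), ← hcomm1]
        have e2 : (q w h1)⁻¹ * q w z = q w z * (q w h1)⁻¹ :=
          (Commute.inv_left (hcomm1 : Commute (q w h1) (q w z))).eq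
        rw [mul_assoc _ (q w h1)⁻¹ (q w z), e2]
        group
      have e3 : q w z * (a * a1) * q w z = a * a1 := by
        rw [show q w z * (a * a1) * q w z = (q w z * a * q w z) * (q w z * a1 * q w z) by
          rw [show q w z * a * q w z * (q w z * a1 * q w z) = q w z * a * (q w z * q w z) * a1 * q w z by group,
            hzb2, mul_one]; group, e1]
        rcases hae with e | e <;> rw [e]
        rw [← mul_assoc (q w h1) a (q w w), mul_assoc (q w h1 * a) (q w w) (q w h1)⁻¹,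
          ← hKc.cent (q w h1)⁻¹, ← mul_assoc (q w h1 * a), ← ha1, mul_assoc a (q w w), ← mul_assoc (q w w) a1,
          ← hKc.cent a1, mul_assoc a1, hKc.csq, mul_one]
      calc a * a1 * q w z = q w z * (a * a1) * q w z * q w z := by rw [e3]
        _ = q w z * (a * a1) := by rw [mul_assoc, hzb2, mul_one]
    obtain ⟨o, -, h1', h2', h3'⟩ := lift_comm (sq_of_orderOf hJ.ord) hzw hg hfix
    exact ⟨o * g, ⟨h2', h1'⟩, h3'.trans hgq⟩
  have hyX : y ∈ fixAll z w K := by
    refine hK.mem_fixAll hy12 fun B hB' => ?_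
    rw [hyq]
    refine mul_mem (component_le_normalizer hKc.comp hB' ha) ?_
    exact component_le_normalizer hK1c.comp hB' (mem_cs ha)
  -- the commutators with `y`
  have hyc : q z y * q z w = q z w * q z y := q_commute hy12.1 hwz (mem_Cz.mp hy12.2)
  have hDy : ∀ b ∈ bar z J, q z y * (b * (q z w * b * q z w)) * (q z y)⁻¹ =
      (q z y * b * (q z y)⁻¹) * (q z w * (q z y * b * (q z y)⁻¹) * q z w) := by
    intro b _
    have e2 : (q z y)⁻¹ * q z w = q z w * (q z y)⁻¹ :=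
      (Commute.inv_left (hyc : Commute (q z y) (q z w))).eq
    calc q z y * (b * (q z w * b * q z w)) * (q z y)⁻¹
        = q z y * b * q z w * b * (q z w * (q z y)⁻¹) := by group
      _ = q z y * b * (q z y)⁻¹ * (q z y * q z w) * b * ((q z y)⁻¹ * q z w) := by rw [e2]; group
      _ = q z y * b * (q z y)⁻¹ * (q z w * q z y) * b * ((q z y)⁻¹ * q z w) := by rw [hyc]
      _ = _ := by group
  have hstab : ∀ h ∈ H, h * y * h⁻¹ * y⁻¹ ∈ Oz z := by
    intro h hh
    have hhC := (mem_pre.mp hh).1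
    have hcX : h * y * h⁻¹ * y⁻¹ ∈ fixAll z w K :=
      mul_mem (fixAll_conj (hH12 hh) hyX) (inv_mem hyX)
    have hcC : h * y * h⁻¹ * y⁻¹ ∈ Cz z := (fixAll_le hcX).1
    have hq : q z (h * y * h⁻¹ * y⁻¹) = q z h * (q z y * (q z h)⁻¹ * (q z y)⁻¹) := by
      rw [q_mul (mul_mem (mul_mem hhC hy12.1) (inv_mem hhC)) (inv_mem hy12.1), q_conj hhC hy12.1,
        q_inv hy12.1]
      group
    obtain ⟨b, hb, hbe⟩ := (hDm _).mp (inv_mem (mem_pre.mp hh).2.2)
    have hconj := hDy b hb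
    rw [← hbe] at hconj
    by_cases hpair : cs (q z y) (bar z J) = bar z J ∨ cs (q z y) (bar z J) = cs (q z w) (bar z J)
    · rw [← q_eq_one hcC]
      refine hX _ (mem_pre.mpr ⟨hcC, (fixAll_le hcX).2, ?_⟩) hcX
      rw [hq, hconj]
      refine mul_mem (mem_pre.mp hh).2.2 ?_
      rcases hpair with e | e
      · exact (hDm _).mpr ⟨_, e ▸ mem_cs hb, rfl⟩
      · have hm : q z w * (q z y * b * (q z y)⁻¹) * q z w ∈ bar z J := by
          have h' := (mem_cs_iff (g := q z w)).mp (e ▸ mem_cs hb :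
            q z y * b * (q z y)⁻¹ ∈ cs (q z w) (bar z J))
          rwa [hsi] at h'
        refine (hDm _).mpr ⟨_, hm, ?_⟩
        have hb' : q z y * b * (q z y)⁻¹ ∈ cs (q z w) (bar z J) := e ▸ mem_cs hb
        rw [show q z w * (q z w * (q z y * b * (q z y)⁻¹) * q z w) * q z w =
          (q z w * q z w) * (q z y * b * (q z y)⁻¹) * (q z w * q z w) by group, hs, one_mul, mul_one]
        exact (hA.commute hB hne.symm hm hb').symm
    · exfalso
      push Not at hpair
      obtain ⟨hp1, hp2⟩ := hpair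
      obtain ⟨d1, hd1, d2, hd2, hnc⟩ := not_central_le hDq
      obtain ⟨g1, hg1, rfl⟩ := hcovH d1 hd1
      obtain ⟨g2, hg2, rfl⟩ := hcovH d2 hd2
      refine hnc ?_
      have hg1C := (mem_pre.mp hg1).1
      have hg2C := (mem_pre.mp hg2).1
      obtain ⟨b1, hb1, hb1e⟩ := (hDm _).mp (inv_mem hd1)
      -- the conjugate diagonal commutes with the diagonal
      set p := q z y * (q z g1)⁻¹ * (q z y)⁻¹ with hp
      have hpc : p * q z g2 = q z g2 * p := by
        obtain ⟨b2, hb2, hb2e⟩ := (hDm _).mp hd2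
        have hcomm := hDy b1 hb1
        rw [← hb1e] at hcomm
        have hbm := mem_cs (g := q z y) hb1
        have hB' := hA.conj (q z y)
        have hBB' := hB'.conj (q z w)
        have hmem2 : q z w * (q z y * b1 * (q z y)⁻¹) * q z w ∈ cs (q z w) (cs (q z y) (bar z J)) := by
          have := mem_cs (g := q z w) hbm; rwa [hsi] at this
        have hn3 : cs (q z w) (cs (q z y) (bar z J)) ≠ bar z J := fun e => hp2 (by
          conv_rhs => rw [← e, cs_cs, hs, cs_one])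
        have hn4 : cs (q z w) (cs (q z y) (bar z J)) ≠ cs (q z w) (bar z J) := fun e => hp1 (cs_inj e)
        have hb2' : q z w * b2 * q z w ∈ cs (q z w) (bar z J) := by
          have := mem_cs (g := q z w) hb2; rwa [hsi] at this
        rw [hp, hcomm, hb2e]
        exact Commute.mul_left (Commute.mul_right (hB'.commute hA hp1 hbm hb2)
            (hB'.commute hB hp2 hbm hb2'))
          (Commute.mul_right (hBB'.commute hA hn3 hmem2 hb2) (hBB'.commute hB hn4 hmem2 hb2'))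
      set m := g1 * y * g1⁻¹ * y⁻¹ with hm
      have hmX : m ∈ fixAll z w K := mul_mem (fixAll_conj (hH12 hg1) hyX) (inv_mem hyX)
      have hm2X : m * g2 * m⁻¹ * g2⁻¹ ∈ fixAll z w K := by
        rw [show m * g2 * m⁻¹ * g2⁻¹ = m * (g2 * m⁻¹ * g2⁻¹) by group]
        exact mul_mem hmX (fixAll_conj (hH12 hg2) (inv_mem hmX))
      have hmC := (fixAll_le hmX).1
      have hqm : q z m = q z g1 * p := by
        rw [hm, q_mul (mul_mem (mul_mem hg1C hy12.1) (inv_mem hg1C)) (inv_mem hy12.1), q_conj hg1C hy12.1,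
          q_inv hy12.1, hp]
        group
      have hq2 : q z (m * g2 * m⁻¹ * g2⁻¹) = q z g1 * q z g2 * (q z g1)⁻¹ * (q z g2)⁻¹ := by
        rw [q_mul (mul_mem (mul_mem hmC hg2C) (inv_mem hmC)) (inv_mem hg2C), q_conj hmC hg2C, q_inv hg2C,
          hqm, mul_inv_rev, mul_assoc (q z g1) p (q z g2), hpc]
        group
      have h1' := hX _ (mem_pre.mpr ⟨(fixAll_le hm2X).1, (fixAll_le hm2X).2, by
        rw [hq2]; exact mul_mem (mul_mem (mul_mem hd1 hd2) (inv_mem hd1)) (inv_mem hd2)⟩) hm2X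
      rw [hq2, mul_inv_eq_one, mul_inv_eq_iff_eq_mul] at h1'
      exact h1'
  -- all of the preimage preserves the pair
  have hpairK : ∀ h ∈ H, cs (q w h) (bar w K) = bar w K ∨ cs (q w h) (bar w K) = K1 := by
    intro h hh
    by_contra! hout
    have hhw := (hH12 hh).2
    have hodd : Odd (orderOf (q w (h * y * h⁻¹ * y⁻¹))) := by
      have hmem : h * y * h⁻¹ * y⁻¹ ∈ Cz w :=
        mul_mem (mul_mem (mul_mem hhw hy12.2) (inv_mem hhw)) (inv_mem hy12.2)
      refine (odd_orderOf_of_mem (odd_Oz z) (hstab h hh)).of_dvd_nat ?_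
      exact orderOf_dvd_of_pow_eq_one (by rw [← q_pow hmem, pow_orderOf_eq_one, q_one])
    rw [q_mul (mul_mem (mul_mem hhw hy12.2) (inv_mem hhw)) (inv_mem hy12.2), q_conj hhw hy12.2,
      q_inv hy12.2, hyq] at hodd
    have hp : q w h * a * (q w h)⁻¹ ∈ cs (q w h) (bar w K) := mem_cs ha
    have hq' : ∀ x ∈ cs (q w h) (bar w K),
        (q w h * a1 * (q w h)⁻¹ * (a * a1)⁻¹) * x = x * (q w h * a1 * (q w h)⁻¹ * (a * a1)⁻¹) := by
      intro x hx
      have hc := hKc.conj (q w h)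
      exact (Commute.mul_left (hc.commute (hK1c.conj _) (fun e => hh1K (cs_inj e).symm) hx
          (mem_cs (mem_cs ha))).symm
        (Commute.inv_left (Commute.mul_left (hc.commute hKc hout.1 hx ha).symm
          (hc.commute hK1c hout.2 hx (mem_cs ha)).symm))).eq
    refine (hKc.conj (q w h)).coord hp hq' ?_ ?_
    · convert hodd using 2; group
    · rw [show q w h * a * (q w h)⁻¹ * (q w h * a * (q w h)⁻¹) = q w h * (a * a) * (q w h)⁻¹ by group,
        ha2, hKc.cent, mul_inv_cancel_right]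
  have hboth : ∀ h ∈ H, cs (q w h) (bar w K) = bar w K ∧ cs (q w h) K1 = K1 ∨
      cs (q w h) (bar w K) = K1 ∧ cs (q w h) K1 = bar w K := by
    intro h hh
    have e1 : cs (q w h) K1 = cs (q w (h * h1)) (bar w K) := by
      rw [hK1, cs_cs, q_mul (hH12 hh).2 (hH12 hh1).2]
    have hd : cs (q w h) (bar w K) ≠ cs (q w h) K1 := fun e => hh1K (cs_inj e).symm
    rcases hpairK h hh with e | e <;> rcases hpairK _ (mul_mem hh hh1) with e' | e' <;>
      rw [← e1] at e'
    · exact absurd (e.trans e'.symm) hd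
    · exact Or.inl ⟨e, e'⟩
    · exact Or.inr ⟨e, e'⟩
    · exact absurd (e.trans e'.symm) hd
  refine hno fun y' hy' => ?_
  haveI := hDq.1
  have hle : ⁅H, H⁆ ≤ Subgroup.normalizer (K : Set G) := by
    rw [Subgroup.commutator_le]
    intro g1 hg1 g2 hg2
    have h1w := (hH12 hg1).2
    have h2w := (hH12 hg2).2
    have hw : ⁅g1, g2⁆ ∈ Cz w := mul_mem (mul_mem (mul_mem h1w h2w) (inv_mem h1w)) (inv_mem h2w)
    rw [hK.cs_q hw, commutatorElement_def, q_mul (mul_mem (mul_mem h1w h2w) (inv_mem h1w)) (inv_mem h2w),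
      q_conj h1w h2w, q_inv h2w, ← cs_cs, ← cs_cs, ← cs_cs]
    have hinv : ∀ (g : Y w) (U V : Subgroup (Y w)), cs g U = V → cs g⁻¹ V = U := fun g U V e => by
      rw [← e, cs_cs, inv_mul_cancel, cs_one]
    rcases hboth g1 hg1 with ⟨a1', a2'⟩ | ⟨a1', a2'⟩ <;> rcases hboth g2 hg2 with ⟨b1, b2⟩ | ⟨b1, b2⟩
    · rw [hinv _ _ _ b1, hinv _ _ _ a1', b1, a1']
    · rw [hinv _ _ _ b2, hinv _ _ _ a2', b2, a1']
    · rw [hinv _ _ _ b1, hinv _ _ _ a2', b2, a2']
    · rw [hinv _ _ _ b2, hinv _ _ _ a1', b1, a2']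
  let φ : ↥H →* ↥D := MonoidHom.mk' (fun g => ⟨q z g, (mem_pre.mp g.2).2.2⟩)
    (fun g g' => Subtype.ext (hmulH g g.2 g' g'.2))
  have hφ : Function.Surjective φ := by
    rintro ⟨u, hu⟩
    obtain ⟨g, hg, rfl⟩ := hcovH u hu
    exact ⟨⟨g, hg⟩, rfl⟩
  have htop : (commutator ↥H).map φ = ⊤ := by
    rw [commutator_def, Subgroup.map_commutator, Subgroup.map_top_of_surjective φ hφ, ← commutator_def,
      Group.IsPerfect.commutator_eq_top]
  obtain ⟨g, hg, hge⟩ := (htop.symm ▸ Subgroup.mem_top _ : (⟨y', hy'⟩ : ↥D) ∈ (commutator ↥H).map φ)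
  have hgH : (g : G) ∈ ⁅H, H⁆ := by
    rw [← Subgroup.map_subtype_commutator]
    exact ⟨g, hg, rfl⟩
  exact ⟨g, ⟨g.2, hle hgH⟩, congrArg Subtype.val hge⟩

end CfsgLib.SLTwoPair
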