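import Cfsg.Agent.SLTwoPair6.Lambda

/-!
The normalising relation between classical pairs is symmetric.
-/

set_option autoImplicit false
set_option maxHeartbeats 1600000

namespace CfsgLib.SLTwoPair

open Cfsg CfsgLib.Cores
open scoped commutatorElement

variable {G : Type*} [Group G] [Finite G] {n : ℕ} {z w : G} {J K : Subgroup G}

/-- A tight cover of the component of `w` inside the centralizer of an involution acting trivially. -/
theorem Classical.exists_cover_cent (hK : Classical n w K) {u : G} (hu2 : u * u = 1) (hu : u ∈ Cz w)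
    (huK : u ∈ Subgroup.normalizer (K : Set G))
    (hcent : ∀ b ∈ bar w K, q w u * b = b * q w u) :
    ∃ L, L ≤ K ∧ L ≤ Cz u ∧ w ∈ L ∧ Covers (q w) L (bar w K : Set (Y w)) ∧ Tight n L := by
  have hcov : Covers (q w) (K ⊓ Cz u) (bar w K : Set (Y w)) := by
    intro b hb
    obtain ⟨g, hg, hgC, rfl⟩ := bar_lift hb
    obtain ⟨o, ho, -, h2, h3⟩ := lift_comm hu2 hu hgC (hcent _ hb).symm
    have hmem : u * (g * u * g⁻¹) ∈ K := by
      have h1 := (Subgroup.mem_normalizer_iff.mp huK g).mp hg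
      rw [inv_eq_of_mul_eq_one_right hu2] at h1
      rw [show u * (g * u * g⁻¹) = u * g * u * g⁻¹ by group]
      exact mul_mem h1 (inv_mem hg)
    exact ⟨o * g, ⟨mul_mem (mem_zpowers_le hmem ho) hg, h2⟩, h3⟩
  obtain ⟨L, hL, hLcov, hT⟩ := exists_tight_cover (f := q w) (M := K ⊓ Cz u) hK.good_bar.quasi
    (fun a ha b hb => q_mul (hK.le ha.1) (hK.le hb.1)) (fun a ha => hK.q_mem ha.1) hcov
  rw [hK.idx_bar] at hT
  exact ⟨L, hL.trans inf_le_left, hL.trans inf_le_right,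
    hK.mem_cover (hL.trans inf_le_left) hLcov, hLcov, hT⟩

omit [Finite G] in
/-- An element fixing `w` and moving `z` to `z w` normalises `C(z) ∩ C(w)`. -/
theorem normalizes_inf {x : G} (hw2 : w * w = 1) (hx : x * z * x⁻¹ = z * w) (hxw : x * w = w * x) :
    x ∈ Subgroup.normalizer ((Cz z ⊓ Cz w : Subgroup G) : Set G) := by
  have h1 : ∀ g : G, g ∈ Cz z ⊓ Cz w ↔ Commute g (z * w) ∧ Commute g w := by
    intro g
    constructor
    · rintro ⟨a, b⟩
      exact ⟨Commute.mul_right (mem_Cz.mp a) (mem_Cz.mp b), mem_Cz.mp b⟩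
    · rintro ⟨a, b⟩
      refine ⟨mem_Cz.mpr ?_, mem_Cz.mpr b⟩
      have h := Commute.mul_right a b
      rwa [mul_assoc, hw2, mul_one] at h
  refine Subgroup.mem_normalizer_iff.mpr fun g => ?_
  have hxw' : x * w * x⁻¹ = w := by rw [hxw, mul_inv_cancel_right]
  rw [h1 (x * g * x⁻¹)]
  constructor
  · rintro ⟨a, b⟩
    refine ⟨?_, ?_⟩
    · rw [← hx]; exact (show Commute g z from mem_Cz.mp a).conj x
    · rw [← hxw']; exact (show Commute g w from mem_Cz.mp b).conj x
  · rintro ⟨a, b⟩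
    rw [← hx] at a
    rw [← hxw'] at b
    exact ⟨mem_Cz.mpr ((Commute.conj_iff x).mp a).eq, mem_Cz.mpr ((Commute.conj_iff x).mp b).eq⟩

/-- **The normalising relation is symmetric.** -/
theorem rel (hJ : Classical n z J) (hK : Classical n w K)
    (hzK : z ∈ Subgroup.normalizer (K : Set G)) : w ∈ Subgroup.normalizer (J : Set G) := by
  have hzw : z ∈ Cz w := hK.z_fixed hzK
  have hwz : w ∈ Cz z := mem_Cz.mpr (mem_Cz.mp hzw).symm
  by_contra hwJ
  have hw2 := sq_of_orderOf hK.ord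
  have hz2 := sq_of_orderOf hJ.ord
  have hA := hJ.isComp
  have hKc := hK.isComp
  have hs : q z w * q z w = 1 := by rw [← q_mul hwz hwz, hw2, q_one]
  have hsi : (q z w)⁻¹ = q z w := inv_eq_of_mul_eq_one_right hs
  have hne : cs (q z w) (bar z J) ≠ bar z J := fun e => hwJ ((hJ.cs_q hwz).mpr e)
  obtain ⟨D, hDq, hDz, hDi, hDm, hDcomm, hDs⟩ := exists_diag hA hs hne
  have hidx : (Subgroup.center ↥D).index = n := hDi.trans hJ.idx_bar
  have hcov := covers_normalizer hJ hK hzK hDq hDz hne hDm hDs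
  obtain ⟨L, hLle, hLcov, hLT⟩ := exists_tight_cover (f := q z) (M := pre z w D ⊓ Subgroup.normalizer (K : Set G)) hDq
    (fun a ha b hb => q_mul (mem_pre.mp ha.1).1 (mem_pre.mp hb.1).1)
    (fun a ha => (mem_pre.mp ha.1).2.2) hcov
  rw [hidx] at hLT
  have hLz : ∀ l ∈ L, l ∈ Cz z := fun l hl => (mem_pre.mp (hLle hl).1).1
  have hLw : ∀ l ∈ L, l ∈ Cz w := fun l hl => (mem_pre.mp (hLle hl).1).2.1
  have hLN : ∀ l ∈ L, l ∈ Subgroup.normalizer (K : Set G) := fun l hl => (hLle hl).2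
  have hsK := (hK.cs_q hzw).mp hzK
  -- `z` is nontrivial on `K`
  have hsig : ¬ ∀ b ∈ bar w K, q w z * b = b * q w z := by
    intro hall
    obtain ⟨L2, hL2K, hL2z, hwL2, hL2cov, hL2T⟩ := hK.exists_cover_cent hz2 hzw hzK hall
    obtain ⟨P, hPT, hPmem, hPlift⟩ := exists_image hL2T hL2z
    have hpair : ∀ y ∈ P, cs y (bar z J) = bar z J ∧ cs y (cs (q z w) (bar z J)) = cs (q z w) (bar z J) ∨
        cs y (bar z J) = cs (q z w) (bar z J) ∧ cs y (cs (q z w) (bar z J)) = bar z J := by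
      intro y hy
      obtain ⟨l, hl, rfl⟩ := hPlift y hy
      have hlz := hL2z hl
      have hlw := hK.le (hL2K hl)
      have hlc : q z l * q z w = q z w * q z l := q_commute hlz hwz (mem_Cz.mp hlw)
      have hA' := hA.conj (q z l)
      have hswap : cs (q z l) (cs (q z w) (bar z J)) = cs (q z w) (cs (q z l) (bar z J)) := by
        rw [cs_cs, cs_cs, hlc]
      by_cases h1 : cs (q z l) (bar z J) = bar z J
      · exact Or.inl ⟨h1, by rw [hswap, h1]⟩
      by_cases h2 : cs (q z l) (bar z J) = cs (q z w) (bar z J)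
      · exact Or.inr ⟨h2, by rw [hswap, h2, cs_cs, hs, cs_one]⟩
      exfalso
      -- commutators cover the diagonal inside `K`
      set H' := pre z w D ⊓ Subgroup.normalizer (K : Set G) with hH'
      have hH'C : ∀ g ∈ H', g ∈ Cz z ∧ g ∈ Cz w := fun g (hg : g ∈ H') => ⟨(mem_pre.mp hg.1).1, (mem_pre.mp hg.1).2.1⟩
      rcases covers_or (f := q z) (H := H') (M := pre z w D ⊓ K) hDq
        (fun a ha b hb => q_mul (hH'C a ha).1 (hH'C b hb).1) (fun a ha => (mem_pre.mp ha.1).2.2) hcov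
        (fun m hm => ⟨hm.1, Subgroup.le_normalizer hm.2⟩)
        (fun a ha m hm => ⟨(pre z w D).mul_mem ((pre z w D).mul_mem ha.1 hm.1) ((pre z w D).inv_mem ha.1),
          (Subgroup.mem_normalizer_iff.mp ha.2 m).mp hm.2⟩) with h | h
      · exact not_covers_single (M := pre z w D ⊓ K) hJ hDz hDm hs hne (fun g hg => (mem_pre.mp hg.1).1) h
          (fun t ht => hK.uniq t ht.2)
      · obtain ⟨d1, hd1, d2, hd2, hnc⟩ := not_central_le hDq
        obtain ⟨g1, hg1, rfl⟩ := hcov d1 hd1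
        obtain ⟨g2, hg2, rfl⟩ := hcov d2 hd2
        refine hnc ?_
        have hg1z := (hH'C g1 hg1).1
        have hg2z := (hH'C g2 hg2).1
        obtain ⟨b1, hb1, hb1e⟩ := (hDm _).mp (inv_mem hd1)
        obtain ⟨b2, hb2, hb2e⟩ := (hDm _).mp hd2
        set p := q z l * (q z g1)⁻¹ * (q z l)⁻¹ with hp
        have hpc : p * q z g2 = q z g2 * p := by
          have hbm := mem_cs (g := q z l) hb1
          have e2 : (q z l)⁻¹ * q z w = q z w * (q z l)⁻¹ :=
            (Commute.inv_left (hlc : Commute (q z l) (q z w))).eq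
          have hconj : p = (q z l * b1 * (q z l)⁻¹) * (q z w * (q z l * b1 * (q z l)⁻¹) * q z w) := by
            rw [hp, hb1e]
            calc q z l * (b1 * (q z w * b1 * q z w)) * (q z l)⁻¹
                = q z l * b1 * q z w * b1 * (q z w * (q z l)⁻¹) := by group
              _ = q z l * b1 * (q z l)⁻¹ * (q z l * q z w) * b1 * ((q z l)⁻¹ * q z w) := by rw [e2]; group
              _ = q z l * b1 * (q z l)⁻¹ * (q z w * q z l) * b1 * ((q z l)⁻¹ * q z w) := by rw [hlc]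
              _ = _ := by group
          have hBB' := hA'.conj (q z w)
          have hmem2 : q z w * (q z l * b1 * (q z l)⁻¹) * q z w ∈ cs (q z w) (cs (q z l) (bar z J)) := by
            have := mem_cs (g := q z w) hbm; rwa [hsi] at this
          have hn3 : cs (q z w) (cs (q z l) (bar z J)) ≠ bar z J := fun e => h2 (by
            conv_rhs => rw [← e, cs_cs, hs, cs_one])
          have hn4 : cs (q z w) (cs (q z l) (bar z J)) ≠ cs (q z w) (bar z J) := fun e => h1 (cs_inj e)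
          have hb2' : q z w * b2 * q z w ∈ cs (q z w) (bar z J) := by
            have := mem_cs (g := q z w) hb2; rwa [hsi] at this
          rw [hconj, hb2e]
          exact Commute.mul_left (Commute.mul_right (hA'.commute hA h1 hbm hb2)
              (hA'.commute (hA.conj (q z w)) h2 hbm hb2'))
            (Commute.mul_right (hBB'.commute hA hn3 hmem2 hb2)
              (hBB'.commute (hA.conj (q z w)) hn4 hmem2 hb2'))
        set m := g1 * l * g1⁻¹ * l⁻¹ with hm
        have hmK : m ∈ K := K.mul_mem ((Subgroup.mem_normalizer_iff.mp hg1.2 l).mp (hL2K hl)) (K.inv_mem (hL2K hl))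
        have hmz : m ∈ Cz z := mul_mem (mul_mem (mul_mem hg1z hlz) (inv_mem hg1z)) (inv_mem hlz)
        have hm2K : m * g2 * m⁻¹ * g2⁻¹ ∈ K := by
          rw [show m * g2 * m⁻¹ * g2⁻¹ = m * (g2 * m⁻¹ * g2⁻¹) by group]
          exact K.mul_mem hmK ((Subgroup.mem_normalizer_iff.mp hg2.2 _).mp (K.inv_mem hmK))
        have hqm : q z m = q z g1 * p := by
          rw [hm, q_mul (mul_mem (mul_mem hg1z hlz) (inv_mem hg1z)) (inv_mem hlz), q_conj hg1z hlz,
            q_inv hlz, hp]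
          group
        have hq2 : q z (m * g2 * m⁻¹ * g2⁻¹) = q z g1 * q z g2 * (q z g1)⁻¹ * (q z g2)⁻¹ := by
          rw [q_mul (mul_mem (mul_mem hmz hg2z) (inv_mem hmz)) (inv_mem hg2z), q_conj hmz hg2z, q_inv hg2z,
            hqm, mul_inv_rev, mul_assoc (q z g1) p (q z g2), hpc]
          group
        have hmem : m * g2 * m⁻¹ * g2⁻¹ ∈ pre z w D ⊓ K :=
          ⟨mem_pre.mpr ⟨mul_mem (mul_mem (mul_mem hmz hg2z) (inv_mem hmz)) (inv_mem hg2z), hK.le hm2K, by
            rw [hq2]; exact mul_mem (mul_mem (mul_mem hd1 hd2) (inv_mem hd1)) (inv_mem hd2)⟩, hm2K⟩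
        have hc : (⟨_, (mem_pre.mp hmem.1).2.2⟩ : ↥D) ∈ Subgroup.center ↥D :=
          Subgroup.mem_center_iff.mpr fun v => Subtype.ext (h _ hmem v v.2).symm
        rw [hDz, Subgroup.mem_bot] at hc
        have h1' := congrArg Subtype.val hc
        simp only [OneMemClass.coe_one] at h1'
        rw [hq2, mul_inv_eq_one, mul_inv_eq_iff_eq_mul] at h1'
        exact h1'
    exact hne (fix_of_pair hPT.perf _ _ hpair (hPmem w hwL2))
  -- the cover centralises `K`
  have hDK : ∀ l ∈ L, ∀ b ∈ bar w K, q w l * b = b * q w l := by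
    obtain ⟨P, hPT, hPmem, hPlift⟩ := exists_image hLT hLw
    have hPN : P ≤ Subgroup.normalizer (bar w K : Set (Y w)) := by
      intro y hy
      obtain ⟨l, hl, rfl⟩ := hPlift y hy
      exact (cs_eq_iff _ _).mp ((hK.cs_q (hLw l hl)).mp (hLN l hl))
    rcases hKc.full hK.idx_bar.le hPT hPN ((cs_eq_iff _ _).mp hsK) (fun y hy => by
      obtain ⟨l, hl, rfl⟩ := hPlift y hy
      exact q_commute hzw (hLw l hl) (mem_Cz.mp (hLz l hl)).symm) with h | h
    · exact fun l hl => h _ (hPmem l hl)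
    · exact absurd h hsig
  obtain ⟨x, hxK, hx⟩ := (hK.exists_inverting hJ.ord hzK).resolve_right hsig
  have hxw : x * w = w * x := mem_Cz.mp (hK.le hxK)
  have hxN := normalizes_inf hw2 hx hxw
  -- an involution of the cover over a chosen point
  obtain ⟨t, ht, ht2⟩ := hA.exists_four
  set t' := q z w * t * q z w with ht'
  have ht'B : t' ∈ cs (q z w) (bar z J) := by
    have := mem_cs (g := q z w) ht; rwa [hsi] at this
  have htt : t * t' = t' * t := hDcomm t ht t ht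
  have ht'2 : t' * t' = q z z := by
    rw [ht', show q z w * t * q z w * (q z w * t * q z w) = q z w * t * (q z w * q z w) * t * q z w by group,
      hs, mul_one, mul_assoc (q z w) t t, ht2, hA.cent (q z w), mul_assoc, hs, mul_one]
  obtain ⟨d0, hd0, hd0q⟩ := hLcov (t * t') ((hDm _).mpr ⟨t, ht, rfl⟩)
  obtain ⟨m, -, hd2', hdq'⟩ := exists_invol_pow (hLz d0 hd0) (by
    rw [hd0q, mul_assoc t t' _, ← mul_assoc t' t t', ← htt, mul_assoc t t' t', ← mul_assoc t t, ht2, ht'2,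
      hA.csq])
  set d := d0 ^ m with hd
  have hdL : d ∈ L := pow_mem hd0 m
  have hd2 : d * d = 1 := hd2'
  have hdq : q z d = t * t' := hdq'.trans hd0q
  have hdz := hLz d hdL
  have hdw := hLw d hdL
  set u := w * d with hu
  have hu2 : u * u = 1 := by
    rw [hu, mul_assoc w d _, ← mul_assoc d w d, mem_Cz.mp hdw, mul_assoc w d d, hd2, mul_one, hw2]
  have huw : u ∈ Cz w := mul_mem (self_mem_Cz w) hdw
  have huz : u ∈ Cz z := mul_mem hwz hdz
  have huK : u ∈ Subgroup.normalizer (K : Set G) :=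
    mul_mem (Subgroup.le_normalizer hK.mem) (hLN d hdL)
  obtain ⟨L2, hL2K, hL2u, hwL2, -, hL2T⟩ := hK.exists_cover_cent hu2 huw huK (fun b hb => by
    rw [q_mul (self_mem_Cz w) hdw, mul_assoc, hDK d hdL b hb, ← mul_assoc, ← q_self_cent w b, mul_assoc])
  -- conjugate `u` to `z w`
  obtain ⟨g0, hg0, hg0z, hg0q⟩ := bar_lift (inv_mem ht : t⁻¹ ∈ bar z J)
  have hqu : q z (g0 * u * g0⁻¹) = q z (z * w) := by
    rw [q_conj hg0z huz, q_mul hwz hdz, q_mul (self_mem_Cz z) hwz, hg0q, hdq, inv_inv, ht']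
    rw [show t⁻¹ * (q z w * (t * (q z w * t * q z w))) * t =
      t⁻¹ * q z w * (t * (q z w * t * q z w) * t) by group]
    rw [← ht', htt, mul_assoc t' t t, ht2, ht', show t⁻¹ * q z w * (q z w * t * q z w * q z z) =
      t⁻¹ * (q z w * q z w) * t * q z w * q z z by group, hs, mul_one, inv_mul_cancel, one_mul, hA.cent]
  set v := z * w with hv
  have hv2 : v * v = 1 := by
    rw [hv, mul_assoc z w _, ← mul_assoc w z w, mem_Cz.mp hwz, mul_assoc z w w, hw2, mul_one, hz2]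
  have hvz : v ∈ Cz z := mul_mem (self_mem_Cz z) hwz
  have hy2 : g0 * u * g0⁻¹ * (g0 * u * g0⁻¹) = 1 := by
    rw [show g0 * u * g0⁻¹ * (g0 * u * g0⁻¹) = g0 * (u * u) * g0⁻¹ by group, hu2]; group
  have hy : g0 * u * g0⁻¹ ∈ Cz z := mul_mem (mul_mem hg0z huz) (inv_mem hg0z)
  have hprod : v * (g0 * u * g0⁻¹) ∈ Oz z := by
    rw [← q_eq_one (mul_mem hvz hy), q_mul hvz hy, hqu, ← q_mul hvz hvz, hv2, q_one]
  obtain ⟨o, ho, hov⟩ := exists_conj_of_odd hv2 hy2 (odd_orderOf_of_mem (odd_Oz z) hprod)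
  have hoO := mem_zpowers_le hprod ho
  set g := o * g0 with hgdef
  have hgz : g ∈ Cz z := mul_mem (Oz_le z hoO) hg0z
  have hgu : g * u * g⁻¹ = v := by rw [hgdef, ← hov]; group
  have hgq : q z g = t⁻¹ := by
    rw [hgdef, q_mul (Oz_le z hoO) hg0z, (q_eq_one (Oz_le z hoO)).mpr hoO, one_mul, hg0q]
  set w' := g * w * g⁻¹ with hw'
  have hw'z : w' ∈ Cz z := mul_mem (mul_mem hgz hwz) (inv_mem hgz)
  have hw'w : w' ∈ Cz w := by
    have h1 : Commute w' v := by
      rw [← hgu, hw']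
      exact (show Commute w u from (mem_Cz.mp huw).symm).conj g
    have h2 : Commute w' z := mem_Cz.mp hw'z
    have h3 := Commute.mul_right h2 h1
    rw [hv, ← mul_assoc, hz2, one_mul] at h3
    exact mem_Cz.mpr h3
  have hvd : v * d ∈ Cz z ⊓ Cz w := ⟨mul_mem hvz hdz, mul_mem (mul_mem hzw (self_mem_Cz w)) hdw⟩
  have hcong : w' * (v * d)⁻¹ ∈ coreIn (Cz z ⊓ Cz w) := by
    refine Oz_inf_le_coreIn (b := z) inf_le_left (Subgroup.mem_inf.mpr ⟨?_, mul_mem (Subgroup.mem_inf.mpr ⟨hw'z, hw'w⟩) (inv_mem hvd)⟩)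
    rw [← q_eq_iff hw'z hvd.1, hw', q_conj hgz hwz, hgq, inv_inv, q_mul hvz hdz, hdq, hv,
      q_mul (self_mem_Cz z) hwz, ht']
    have hti : t⁻¹ = t * q z z := inv_eq_of_mul_eq_one_right (by rw [← mul_assoc, ht2, hA.csq])
    have hx1 : q z w * (t * (q z w * t * q z w)) = t⁻¹ * q z w * t * q z z := by
      rw [← ht', htt, ht', ← mul_assoc, show q z w * (q z w * t * q z w) = (q z w * q z w) * t * q z w by group,
        hs, one_mul, hti, hA.cent t, mul_assoc (q z z) t (q z w)]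
      rw [show q z z * (t * q z w) * t * q z z = q z z * ((t * q z w * t) * q z z) by group,
        hA.cent (t * q z w * t), ← mul_assoc, hA.csq, one_mul]
    rw [mul_assoc (q z z) (q z w), hx1, ← hA.cent, mul_assoc _ (q z z) (q z z), hA.csq, mul_one]
  -- transport by `x`
  set g2 := x * g with hg2def
  have hxz : x * (z * w) * x⁻¹ = z := by
    rw [show x * (z * w) * x⁻¹ = (x * z * x⁻¹) * (x * w * x⁻¹) by group, hx, hxw, mul_inv_cancel_right,
      mul_assoc, hw2, mul_one]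
  have hxd : x * d * x⁻¹ * d⁻¹ ∈ coreIn (Cz z ⊓ Cz w) := by
    have hxd12 : x * d * x⁻¹ ∈ Cz z ⊓ Cz w :=
      (Subgroup.mem_normalizer_iff.mp hxN d).mp ⟨hdz, hdw⟩
    refine Oz_inf_le_coreIn (b := w) inf_le_right (Subgroup.mem_inf.mpr ⟨?_, mul_mem hxd12 (inv_mem (Subgroup.mem_inf.mpr ⟨hdz, hdw⟩))⟩)
    rw [← q_eq_iff hxd12.2 hdw, q_conj (hK.le hxK) hdw, ← hDK d hdL _ (hK.q_mem hxK),
      mul_inv_cancel_right]
  set w2 := x * w' * x⁻¹ with hw2def
  have hw212 : w2 ∈ Cz z ⊓ Cz w := (Subgroup.mem_normalizer_iff.mp hxN w').mp ⟨hw'z, hw'w⟩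
  have hzd2 : z * d * (z * d) = 1 := by
    rw [mul_assoc z d _, ← mul_assoc d z d, mem_Cz.mp hdz, mul_assoc z d d, hd2, mul_one, hz2]
  have hw22 : w2 * w2 = 1 := by
    rw [hw2def, hw', show x * (g * w * g⁻¹) * x⁻¹ * (x * (g * w * g⁻¹) * x⁻¹) =
      x * g * (w * w) * g⁻¹ * x⁻¹ by group, hw2]
    group
  have hcong2 : w2 * (z * d) ∈ coreIn (Cz z ⊓ Cz w) := by
    have h := coreIn_conj hxN hcong
    have e : x * (w' * (v * d)⁻¹) * x⁻¹ = w2 * ((x * d * x⁻¹)⁻¹ * (x * (z * w) * x⁻¹)⁻¹) := by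
      rw [hw2def, hv]; group
    rw [e, hxz] at h
    have hi : (z * d) = d⁻¹ * z⁻¹ := by rw [← mul_inv_rev, inv_eq_of_mul_eq_one_right hzd2]
    have e2 : w2 * (z * d) =
        (w2 * ((x * d * x⁻¹)⁻¹ * z⁻¹)) * (z * (x * d * x⁻¹ * d⁻¹) * z⁻¹) := by
      rw [hi]; group
    rw [e2]
    exact mul_mem h (coreIn_conj (Subgroup.le_normalizer ⟨self_mem_Cz z, hzw⟩) hxd)
  obtain ⟨r, hr, hrc⟩ := exists_conj_of_odd hw22 hzd2 (odd_orderOf_of_mem (odd_coreIn _) hcong2)
  have hrz : r ∈ Cz z := (coreIn_le _ (mem_zpowers_le hcong2 hr)).1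
  -- the final group
  set L3 := L2.map (MulAut.conj g2).toMonoidHom with hL3
  have hL3z : L3 ≤ Cz z := by
    rintro _ ⟨l, hl, rfl⟩
    show g2 * l * g2⁻¹ ∈ Cz z
    have hg2u : g2 * u * g2⁻¹ = z := by
      rw [hg2def, show x * g * u * (x * g)⁻¹ = x * (g * u * g⁻¹) * x⁻¹ by group, hgu, hv, hxz]
    have hc : Commute (g2 * l * g2⁻¹) (g2 * u * g2⁻¹) :=
      (show Commute l u from mem_Cz.mp (hL2u hl)).conj g2
    rw [hg2u] at hc
    exact mem_Cz.mpr hc
  have hL3T : Tight n L3 := by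
    have h := hL2T.map_inner ((MulAut.conj g2).toMonoidHom.comp L2.subtype)
    rwa [MonoidHom.range_comp, Subgroup.range_subtype] at h
  have hw2L3 : w2 ∈ L3 := ⟨w, hwL2, by
    show g2 * w * g2⁻¹ = w2
    rw [hg2def, hw2def, hw']; group⟩
  obtain ⟨P, hPT, hPmem, hPlift⟩ := exists_image hL3T hL3z
  set rb := q z r with hrb
  set A1 := cs rb (bar z J) with hA1
  set B1 := cs rb (cs (q z w) (bar z J)) with hB1
  have hA1c : Comp (q z z) A1 := hA.conj rb
  have hB1c : Comp (q z z) B1 := (hA.conj (q z w)).conj rb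
  have hne1 : A1 ≠ B1 := fun e => hne (cs_inj e).symm
  set p1 := rb * t * rb⁻¹ with hp1def
  set q1 := rb * t' * rb⁻¹ with hq1def
  have hw2q : q z w2 = q z z * (p1 * q1) := by
    rw [← hrc, q_conj hrz (mul_mem (self_mem_Cz z) hdz), q_mul (self_mem_Cz z) hdz, hdq, hp1def, hq1def,
      ← hrb, ← mul_assoc rb, hA.cent rb]
    group
  have hpo : Out2 (q z z) p1 := hA1c.out2_of_sq (by
    rw [hp1def, show rb * t * rb⁻¹ * (rb * t * rb⁻¹) = rb * (t * t) * rb⁻¹ by group, ht2, hA.cent,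
      mul_inv_cancel_right])
  have hqo : Out2 (q z z) q1 := hB1c.out2_of_sq (by
    rw [hq1def, show rb * t' * rb⁻¹ * (rb * t' * rb⁻¹) = rb * (t' * t') * rb⁻¹ by group, ht'2, hA.cent,
      mul_inv_cancel_right])
  have hPw : ∀ y ∈ P, q z w2 * y = y * q z w2 := by
    intro y hy
    obtain ⟨l, ⟨l0, hl0, rfl⟩, rfl⟩ := hPlift y hy
    refine q_commute hw212.1 (hL3z ⟨l0, hl0, rfl⟩) ?_
    have h : Commute (g2 * w * g2⁻¹) (g2 * l0 * g2⁻¹) :=
      (show Commute w l0 from (mem_Cz.mp (hK.le (hL2K hl0))).symm).conj g2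
    rw [show w2 = g2 * w * g2⁻¹ by rw [hg2def, hw2def, hw']; group]
    exact h
  have hpairP : ∀ y ∈ P, cs y A1 = A1 ∧ cs y B1 = B1 ∨ cs y A1 = B1 ∧ cs y B1 = A1 := by
    intro y hy
    have hc : y * (p1 * q1) = p1 * q1 * y := by
      have h := hPw y hy
      rw [hw2q] at h
      have h2 : q z z * (y * (p1 * q1)) = q z z * (p1 * q1 * y) := by
        rw [← mul_assoc, ← hA.cent y, mul_assoc, ← h, mul_assoc]
      exact mul_left_cancel h2
    have h1 := hA1c.support hB1c hne1 (mem_cs ht) (mem_cs ht'B) hpo hc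
    have hqp : q1 * p1 = p1 * q1 := (hA1c.commute hB1c hne1 (mem_cs ht) (mem_cs ht'B)).symm
    have h2 := hB1c.support hA1c hne1.symm (mem_cs ht'B) (mem_cs ht) hqo (g := y) (by rw [hqp]; exact hc)
    rcases h1 with e1 | e1 <;> rcases h2 with e2 | e2
    · exact Or.inl ⟨e1, e2⟩
    · exact absurd (cs_inj (e1.trans e2.symm)) hne1
    · exact absurd (cs_inj (e1.trans e2.symm)) hne1
    · exact Or.inr ⟨e1, e2⟩
  have hPN : P ≤ Subgroup.normalizer (A1 : Set (Y z)) := fun y hy =>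
    (cs_eq_iff _ _).mp (fix_of_pair hPT.perf _ _ hpairP hy)
  have hall : ∀ a ∈ A1, q z w2 * a = a * q z w2 := by
    rcases hA1c.full (by rw [(hJ.conj_of_mem hrz).idx_bar.symm, hJ.bar_cs hrz]) hPT hPN
      (hPN (hPmem w2 hw2L3)) hPw with h | h
    · exact h _ (hPmem w2 hw2L3)
    · exact h
  obtain ⟨a, ha, hna⟩ := hA1c.not_central (mem_cs ht) hpo
  refine hna ?_
  have h := hall a ha
  rw [hw2q] at h
  have hq1a : q1 * a = a * q1 := (hA1c.commute hB1c hne1 ha (mem_cs ht'B)).symm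
  have h3 : q z z * (p1 * a * q1) = q z z * (a * p1 * q1) := by
    rw [mul_assoc p1 a q1, ← hq1a, ← mul_assoc p1 q1 a, ← mul_assoc, h, ← mul_assoc, hA.cent a]
    group
  exact mul_right_cancel (mul_left_cancel h3)

end CfsgLib.SLTwoPair
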