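import Cfsg.Agent.SLTwoPair6.Rel

/-!
An element of a classical component swapping two classical components of another involution:
both involutions act nontrivially.
-/

set_option autoImplicit false
set_option maxHeartbeats 1600000

namespace CfsgLib.SLTwoPair

open Cfsg CfsgLib.Cores
open scoped commutatorElement

variable {G : Type*} [Group G] [Finite G] {n : ℕ} {z w y : G} {J K : Subgroup G}

theorem Comp.central_of_commutators {H : Type*} [Group H] [Finite H] {c : H} {A : Subgroup H}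
    (hA : Comp c A) {p : H} (hpN : cs p A = A)
    (h : ∀ a ∈ A, ∀ b ∈ A, (p * a * p⁻¹ * a⁻¹) * b = b * (p * a * p⁻¹ * a⁻¹)) :
    ∀ a ∈ A, p * a = a * p := by
  haveI := hA.good.quasi.1
  have hn := (cs_eq_iff _ _).mp hpN
  have h1 := LocalBalance.commute_of_commute_mod_center (K := A) ⟨p, hn⟩ (fun k =>
    Subgroup.mem_center_iff.mpr fun b => Subtype.ext (h k k.2 b b.2).symm)
  exact (LocalBalance.act_eq_one_iff A ⟨p, hn⟩).mp h1

theorem commutators_central_contra {H : Type*} [Group H] {A : Subgroup H} (hA : IsQuasisimple ↥A)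
    (h : ∀ a ∈ A, ∀ b ∈ A, ∀ d ∈ A, a * b * a⁻¹ * b⁻¹ * d = d * (a * b * a⁻¹ * b⁻¹)) : False := by
  haveI := hA.1
  refine center_ne_top_of_isQuasisimple hA (eq_top_iff.mpr ?_)
  rw [← Group.IsPerfect.commutator_eq_top, commutator_def, Subgroup.commutator_le]
  intro a _ b _
  refine Subgroup.mem_center_iff.mpr fun d => Subtype.ext ?_
  rw [commutatorElement_def]
  exact (h a a.2 b b.2 d d.2).symm

/-- A 2-element lies in every normal subgroup covering its image, when the kernel is odd. -/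
theorem mem_of_covers {b : G} {H M : Subgroup G} (hH : H ≤ Cz b) (hMH : M ≤ H)
    (hM : ∀ a ∈ H, ∀ m ∈ M, a * m * a⁻¹ ∈ M) {S : Set (Y b)} (hcov : Covers (q b) M S)
    (hyH : y ∈ H) (hyS : q b y ∈ S) {k : ℕ} (hy : y ^ 2 ^ k = 1) : y ∈ M := by
  obtain ⟨m, hm, hme⟩ := hcov _ hyS
  have hmH := hMH hm
  have hO : y * m⁻¹ ∈ Oz b := (q_eq_iff (hH hyH) (hH hmH)).mp hme.symm
  have hN : (M.subgroupOf H).Normal := ⟨fun g hg a => hM a a.2 g hg⟩
  let π : ↥H →* ↥H ⧸ M.subgroupOf H := QuotientGroup.mk' _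
  set t : ↥H := ⟨y * m⁻¹, mul_mem hyH (inv_mem hmH)⟩ with ht
  have h1 : π ⟨y, hyH⟩ = π t := by
    rw [show t = ⟨y, hyH⟩ * ⟨m, hmH⟩⁻¹ from Subtype.ext rfl, map_mul, map_inv]
    have h0 : π ⟨m, hmH⟩ = 1 := (QuotientGroup.eq_one_iff (⟨m, hmH⟩ : ↥H)).mpr hm
    rw [h0, inv_one, mul_one]
  have h2 : orderOf (π t) ∣ orderOf (y * m⁻¹) := by
    refine (orderOf_map_dvd π t).trans ?_
    rw [ht, Subgroup.orderOf_mk]
  have h3 : orderOf (π t) ∣ 2 ^ k := by
    rw [← h1]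
    exact (orderOf_map_dvd π _).trans (by rw [Subgroup.orderOf_mk]; exact orderOf_dvd_of_pow_eq_one hy)
  have h4 : orderOf (π t) = 1 := by
    refine Nat.eq_one_of_dvd_coprimes ?_ h2 h3
    exact (Nat.coprime_two_right.mpr (odd_orderOf_of_mem (odd_Oz b) hO)).pow_right k
  rw [orderOf_eq_one_iff, ← h1] at h4
  exact (QuotientGroup.eq_one_iff (⟨y, hyH⟩ : ↥H)).mp h4

/-- The hypotheses: `y ∈ K` is a 2-element of order at least four commuting with `z`, swapping
`J` with another component. -/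
structure Moves (n : ℕ) (z : G) (J : Subgroup G) (w : G) (K : Subgroup G) (y : G) : Prop where
  hJ : Classical n z J
  hK : Classical n w K
  hzw : z ≠ w
  mem : y ∈ K
  two : ∃ k : ℕ, y ^ 2 ^ k = 1
  four : 4 ≤ orderOf y
  comm : y * z = z * y
  move : y ∉ Subgroup.normalizer (J : Set G)
  sqFix : y * y ∈ Subgroup.normalizer (J : Set G)

theorem Classical.out2_q (hK : Classical n w K) (hy : y ∈ K) {k : ℕ} (hk : y ^ 2 ^ k = 1)
    (h4 : 4 ≤ orderOf y) : Out2 (q w w) (q w y) := by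
  have hyC := hK.le hy
  have key : ¬ q w y * q w y = 1 := by
    intro e
    rw [← q_mul hyC hyC, q_eq_one (mul_mem hyC hyC)] at e
    obtain ⟨j, hj, hjo⟩ := (Nat.dvd_prime_pow Nat.prime_two).mp (orderOf_dvd_of_pow_eq_one hk)
    have h1 : orderOf (y * y) ∣ 2 ^ k := orderOf_dvd_of_pow_eq_one (by
      rw [(Commute.refl y).mul_pow, hk, one_mul])
    have h2 := Nat.eq_one_of_dvd_coprimes
      ((Nat.coprime_two_right.mpr (odd_orderOf_of_mem (odd_Oz w) e)).pow_right k) dvd_rfl h1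
    rw [orderOf_eq_one_iff] at h2
    have h5 : orderOf y ≤ 2 := Nat.le_of_dvd (by omega) (orderOf_dvd_of_pow_eq_one (by rw [sq, h2]))
    omega
  exact ⟨fun e => key (by rw [e, one_mul]), fun e => key (by rw [e, hK.isComp.csq])⟩

/-- An element of `K` of order at least four fixed by `z` forces `z` to normalise `K`. -/
theorem Classical.normalizes_of_fixed (hK : Classical n w K) (hy : y ∈ K)
    {k : ℕ} (hk : y ^ 2 ^ k = 1) (h4 : 4 ≤ orderOf y) (hzw : z * w = w * z) (hyz : y * z = z * y) :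
    z ∈ Subgroup.normalizer (K : Set G) := by
  have hzC : z ∈ Cz w := mem_Cz.mpr hzw
  rw [hK.cs_q hzC]
  by_contra hne
  have h1 : q w y ∈ cs (q w z) (bar w K) := by
    have h := mem_cs (g := q w z) (hK.q_mem hy)
    rwa [← q_conj hzC (hK.le hy), ← hyz, mul_inv_cancel_right] at h
  have hout := hK.out2_q hy hk h4
  rcases hK.isComp.meet (hK.isComp.conj _) (Ne.symm hne) (hK.q_mem hy) h1 with e | e
  · exact hout.1 e
  · exact hout.2 e

theorem Moves.hyz (H : Moves n z J w K y) : y ∈ Cz z := mem_Cz.mpr H.comm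

theorem Moves.hyw (H : Moves n z J w K y) : y ∈ Cz w := H.hK.le H.mem

theorem Moves.w_eq (H : Moves n z J w K y) : ∃ j, w = y ^ j := by
  obtain ⟨k, hk⟩ := H.two
  obtain ⟨j, -, hjo⟩ := (Nat.dvd_prime_pow Nat.prime_two).mp (orderOf_dvd_of_pow_eq_one hk)
  have h4 := H.four
  rcases Nat.eq_zero_or_pos j with rfl | hj0
  · rw [hjo] at h4; norm_num at h4
  obtain ⟨i, rfl⟩ : ∃ i, j = i + 1 := ⟨j - 1, by omega⟩
  refine ⟨2 ^ i, (H.hK.uniq _ (pow_mem H.mem _) ?_).symm⟩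
  refine orderOf_eq_prime ?_ (pow_ne_one_of_lt_orderOf (by positivity) ?_)
  · rw [← pow_mul, ← pow_succ, ← hjo, pow_orderOf_eq_one]
  · rw [hjo, pow_succ]; have : 0 < 2 ^ i := by positivity
    omega

theorem Moves.hwz (H : Moves n z J w K y) : w ∈ Cz z := by
  obtain ⟨j, hj⟩ := H.w_eq
  rw [hj]; exact pow_mem H.hyz j

theorem Moves.hzw' (H : Moves n z J w K y) : z ∈ Cz w := mem_Cz.mpr (mem_Cz.mp H.hwz).symm

theorem Moves.zN (H : Moves n z J w K y) : z ∈ Subgroup.normalizer (K : Set G) := by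
  obtain ⟨k, hk⟩ := H.two
  exact H.hK.normalizes_of_fixed H.mem hk H.four (mem_Cz.mp H.hzw') H.comm

theorem Moves.wN (H : Moves n z J w K y) : w ∈ Subgroup.normalizer (J : Set G) := rel H.hJ H.hK H.zN

/-- The second component. -/
theorem Moves.ne (H : Moves n z J w K y) : cs (q z y) (bar z J) ≠ bar z J := fun e =>
  H.move ((H.hJ.cs_q H.hyz).mpr e)

theorem Moves.swap (H : Moves n z J w K y) : cs (q z y) (cs (q z y) (bar z J)) = bar z J := by
  rw [cs_cs, ← q_mul H.hyz H.hyz]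
  exact (H.hJ.cs_q (mul_mem H.hyz H.hyz)).mp H.sqFix

theorem Moves.yw (H : Moves n z J w K y) : q z y * q z w = q z w * q z y :=
  q_commute H.hyz H.hwz (mem_Cz.mp H.hyw)

/-- `t · yty⁻¹` for `t` stable up to sign lifts to `C(z) ∩ C(w)` fixing all components of `z`. -/
theorem Moves.lift_diag (H : Moves n z J w K y) {t : Y z} (ht : t ∈ bar z J)
    (htw : q z w * t * q z w = t ∨ q z w * t * q z w = t * q z z) :
    ∃ d ∈ Cz z ⊓ Cz w, q z d = t * (q z y * t * (q z y)⁻¹) ∧ d ∈ fixAll w z J ∧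
      d ∈ Subgroup.normalizer (J : Set G) := by
  have hA := H.hJ.isComp
  have hs : q z w * q z w = 1 := by rw [← q_mul H.hwz H.hwz, sq_of_orderOf H.hK.ord, q_one]
  have hi : q z w * (q z y)⁻¹ = (q z y)⁻¹ * q z w :=
    (Commute.inv_right (show Commute (q z w) (q z y) from H.yw.symm)).eq
  have hfix : q z w * (t * (q z y * t * (q z y)⁻¹)) * q z w = t * (q z y * t * (q z y)⁻¹) := by
    have e1 : q z w * (q z y * t * (q z y)⁻¹) * q z w = q z y * (q z w * t * q z w) * (q z y)⁻¹ := by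
      rw [← mul_assoc, ← mul_assoc, ← H.yw]
      rw [mul_assoc (q z y * q z w * t) (q z y)⁻¹, ← hi]
      group
    rw [show q z w * (t * (q z y * t * (q z y)⁻¹)) * q z w =
      (q z w * t * q z w) * (q z w * (q z y * t * (q z y)⁻¹) * q z w) by
        rw [show q z w * t * q z w * (q z w * (q z y * t * (q z y)⁻¹) * q z w) =
          q z w * t * (q z w * q z w) * (q z y * t * (q z y)⁻¹) * q z w by group, hs, mul_one]
        group, e1]
    rcases htw with e | e <;> rw [e]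
    rw [← mul_assoc (q z y) t (q z z), mul_assoc (q z y * t) (q z z) (q z y)⁻¹, ← hA.cent (q z y)⁻¹,
      ← mul_assoc (q z y * t), mul_assoc t (q z z), ← mul_assoc (q z z) (q z y * t * (q z y)⁻¹),
      ← hA.cent (q z y * t * (q z y)⁻¹), mul_assoc (q z y * t * (q z y)⁻¹), hA.csq, mul_one]
  have hcomm : t * (q z y * t * (q z y)⁻¹) * q z w = q z w * (t * (q z y * t * (q z y)⁻¹)) := by
    conv_lhs => rw [← hfix]
    rw [mul_assoc, hs, mul_one]
  obtain ⟨g, hg, hge⟩ := q_surj (t * (q z y * t * (q z y)⁻¹))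
  obtain ⟨o, -, h1, h2, h3⟩ := lift_comm (sq_of_orderOf H.hK.ord) H.hwz hg (by rw [hge]; exact hcomm)
  have hfixall : ∀ B : Subgroup (Y z), IsComponent B → q z (o * g) ∈ Subgroup.normalizer (B : Set (Y z)) := by
    intro B hB
    rw [h3, hge]
    exact mul_mem (component_le_normalizer hA.comp hB ht)
      (component_le_normalizer (hA.conj (q z y)).comp hB (mem_cs ht))
  have hfA : o * g ∈ fixAll w z J := H.hJ.mem_fixAll (Subgroup.mem_inf.mpr ⟨h2, h1⟩) hfixall
  exact ⟨o * g, Subgroup.mem_inf.mpr ⟨h1, h2⟩, h3.trans hge, hfA, fixAll_le_normalizer hfA⟩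

/-- An element of odd order commutator against a pair forces pair preservation. -/
theorem Moves.pair_of_odd (H : Moves n z J w K y) {t g : Y z} (ht : t ∈ bar z J)
    (ht2 : t * t = q z z)
    (hodd : Odd (orderOf (g * (t * (q z y * t * (q z y)⁻¹)) * g⁻¹ * (t * (q z y * t * (q z y)⁻¹))⁻¹))) :
    cs g (bar z J) = bar z J ∨ cs g (bar z J) = cs (q z y) (bar z J) := by
  by_contra! hout
  have hA := H.hJ.isComp
  have hB := hA.conj (q z y)
  have hc := hA.conj g
  refine hc.coord (p := g * t * g⁻¹)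
    (q := g * (q z y * t * (q z y)⁻¹) * g⁻¹ * (t * (q z y * t * (q z y)⁻¹))⁻¹) (mem_cs ht) ?_ ?_ ?_
  · intro v hv
    exact (Commute.mul_left (hc.commute (hB.conj g) (fun e => H.ne (cs_inj e).symm) hv (mem_cs (mem_cs ht))).symm
      (Commute.inv_left (Commute.mul_left (hc.commute hA hout.1 hv ht).symm
        (hc.commute hB hout.2 hv (mem_cs ht)).symm))).eq
  · convert hodd using 2; group
  · rw [show g * t * g⁻¹ * (g * t * g⁻¹) = g * (t * t) * g⁻¹ by group, ht2, hA.cent,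
      mul_inv_cancel_right]

/-- `z` is nontrivial on `K`. -/
theorem Moves.sigma (H : Moves n z J w K y) : ¬ ∀ b ∈ bar w K, q w z * b = b * q w z := by
  intro hall
  have hKc := H.hK.isComp
  have hA := H.hJ.isComp
  obtain ⟨k, hk⟩ := H.two
  set P := pre w z (bar w K) with hP
  have hcov : Covers (q w) P (bar w K : Set (Y w)) := covers_pre H.hzw' (sq_of_orderOf H.hJ.ord) hall
  have hP12 : ∀ g ∈ P, g ∈ Cz w ⊓ Cz z := fun g hg => Subgroup.mem_inf.mpr ⟨(mem_pre.mp hg).1, (mem_pre.mp hg).2.1⟩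
  have hyP : y ∈ P := mem_pre.mpr ⟨H.hyw, H.hyz, H.hK.q_mem H.mem⟩
  have hmul : ∀ a ∈ P, ∀ b ∈ P, q w (a * b) = q w a * q w b := fun a ha b hb =>
    q_mul (mem_pre.mp ha).1 (mem_pre.mp hb).1
  rcases covers_or (f := q w) (H := P) (M := P ⊓ fixAll w z J) H.hK.good_bar.quasi hmul
    (fun a ha => (mem_pre.mp ha).2.2) hcov inf_le_left
    (fun a ha m hm => Subgroup.mem_inf.mpr ⟨P.mul_mem (P.mul_mem ha (Subgroup.mem_inf.mp hm).1) (P.inv_mem ha),
      fixAll_conj (hP12 a ha) (Subgroup.mem_inf.mp hm).2⟩) with h | h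
  · have := mem_of_covers (H := P) (M := P ⊓ fixAll w z J) (fun g hg => (mem_pre.mp hg).1) inf_le_left
      (fun a ha m hm => Subgroup.mem_inf.mpr ⟨P.mul_mem (P.mul_mem ha (Subgroup.mem_inf.mp hm).1) (P.inv_mem ha),
        fixAll_conj (hP12 a ha) (Subgroup.mem_inf.mp hm).2⟩) h hyP (H.hK.q_mem H.mem) hk
    exact H.move (fixAll_le_normalizer (Subgroup.mem_inf.mp this).2)
  have hs : q z w * q z w = 1 := by rw [← q_mul H.hwz H.hwz, sq_of_orderOf H.hK.ord, q_one]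
  obtain ⟨t, ht, ht2, htw⟩ := hA.exists_four_stable hs ((H.hJ.cs_q H.hwz).mp H.wN)
  obtain ⟨d, hd12, hdq, hdX, -⟩ := H.lift_diag ht htw
  have hdw := (Subgroup.mem_inf.mp hd12).2
  have hdz := (Subgroup.mem_inf.mp hd12).1
  have hd12' : d ∈ Cz w ⊓ Cz z := Subgroup.mem_inf.mpr ⟨hdw, hdz⟩
  by_cases hdK : cs (q w d) (bar w K) = bar w K
  · -- commutators with `d` are central, hence odd
    have hcd : ∀ g ∈ P, q w g * q w d * (q w g)⁻¹ * (q w d)⁻¹ ∈ bar w K ∧
        ∀ b ∈ bar w K, q w g * q w d * (q w g)⁻¹ * (q w d)⁻¹ * b = b * (q w g * q w d * (q w g)⁻¹ * (q w d)⁻¹) := by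
      intro g hg
      have hgw := (mem_pre.mp hg).1
      have hgz := (mem_pre.mp hg).2.1
      have hK' : q w g * q w d * (q w g)⁻¹ * (q w d)⁻¹ ∈ bar w K := by
        have h1 := mem_cs (g := q w d) (inv_mem (mem_pre.mp hg).2.2)
        rw [hdK] at h1
        have := mul_mem (mem_pre.mp hg).2.2 h1
        rwa [show q w g * (q w d * (q w g)⁻¹ * (q w d)⁻¹) = q w g * q w d * (q w g)⁻¹ * (q w d)⁻¹ by group] at this
      have hX : g * d * g⁻¹ * d⁻¹ ∈ fixAll w z J :=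
        Subgroup.mul_mem _ (fixAll_conj (hP12 g hg) hdX) (Subgroup.inv_mem _ hdX)
      have hq : q w (g * d * g⁻¹ * d⁻¹) = q w g * q w d * (q w g)⁻¹ * (q w d)⁻¹ := by
        rw [q_mul (mul_mem (mul_mem hgw hdw) (inv_mem hgw)) (inv_mem hdw), q_conj hgw hdw, q_inv hdw]
      refine ⟨hK', fun b hb => ?_⟩
      rw [← hq]
      refine h _ (Subgroup.mem_inf.mpr ⟨mem_pre.mpr ⟨?_, ?_, hq.symm ▸ hK'⟩, hX⟩) b hb
      · exact mul_mem (mul_mem (mul_mem hgw hdw) (inv_mem hgw)) (inv_mem hdw)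
      · exact mul_mem (mul_mem (mul_mem hgz hdz) (inv_mem hgz)) (inv_mem hdz)
    have hdcent : ∀ b ∈ bar w K, q w d * b = b * q w d := by
      refine hKc.central_of_commutators hdK fun a ha b hb => ?_
      obtain ⟨g, hg, rfl⟩ := hcov a ha
      obtain ⟨h1, h2⟩ := hcd g hg
      have e : q w d * q w g * (q w d)⁻¹ * (q w g)⁻¹ = (q w g * q w d * (q w g)⁻¹ * (q w d)⁻¹)⁻¹ := by group
      rw [e]
      exact (Commute.inv_left (h2 b hb : Commute _ b)).eq
    have hodd : ∀ g ∈ P, cs (q z g) (bar z J) = bar z J ∨ cs (q z g) (bar z J) = cs (q z y) (bar z J) := by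
      intro g hg
      have hgw := (mem_pre.mp hg).1
      have hgz := (mem_pre.mp hg).2.1
      refine H.pair_of_odd ht ht2 ?_
      rw [← hdq, ← q_conj hgz hdz, ← q_inv hdz, ← q_mul (mul_mem (mul_mem hgz hdz) (inv_mem hgz)) (inv_mem hdz)]
      have hmem : g * d * g⁻¹ * d⁻¹ ∈ Oz w := by
        rw [← q_eq_one (mul_mem (mul_mem (mul_mem hgw hdw) (inv_mem hgw)) (inv_mem hdw)),
          q_mul (mul_mem (mul_mem hgw hdw) (inv_mem hgw)) (inv_mem hdw), q_conj hgw hdw, q_inv hdw,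
          ← hdcent _ (mem_pre.mp hg).2.2]
        group
      refine (odd_orderOf_of_mem (odd_Oz w) hmem).of_dvd_nat (orderOf_dvd_of_pow_eq_one ?_)
      rw [← q_pow (mul_mem (mul_mem (mul_mem hgz hdz) (inv_mem hgz)) (inv_mem hdz)), pow_orderOf_eq_one, q_one]
    set A := bar z J
    set B := cs (q z y) A
    have hboth : ∀ g ∈ P, cs (q z g) A = A ∧ cs (q z g) B = B ∨ cs (q z g) A = B ∧ cs (q z g) B = A := by
      intro g hg
      have e1 : cs (q z g) B = cs (q z (g * y)) A := by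
        rw [cs_cs, q_mul (mem_pre.mp hg).2.1 H.hyz]
      have hd' : cs (q z g) A ≠ cs (q z g) B := fun e => H.ne (cs_inj e).symm
      rcases hodd g hg with e | e <;> rcases hodd _ (P.mul_mem hg hyP) with e' | e' <;> rw [← e1] at e'
      · exact absurd (e.trans e'.symm) hd'
      · exact Or.inl ⟨e, e'⟩
      · exact Or.inr ⟨e, e'⟩
      · exact absurd (e.trans e'.symm) hd'
    have hcov' : Covers (q w) ⁅P, P⁆ (bar w K : Set (Y w)) := by
      intro b hb
      haveI := H.hK.good_bar.quasi.1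
      let φ : ↥P →* ↥(bar w K) := MonoidHom.mk' (fun g => ⟨q w g, (mem_pre.mp g.2).2.2⟩)
        (fun g g' => Subtype.ext (hmul g g.2 g' g'.2))
      have hφ : Function.Surjective φ := by
        rintro ⟨u, hu⟩
        obtain ⟨g, hg, rfl⟩ := hcov u hu
        exact ⟨⟨g, hg⟩, rfl⟩
      have htop : (commutator ↥P).map φ = ⊤ := by
        rw [commutator_def, Subgroup.map_commutator, Subgroup.map_top_of_surjective φ hφ, ← commutator_def,
          Group.IsPerfect.commutator_eq_top]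
      obtain ⟨g, hg, hge⟩ := (htop.symm ▸ Subgroup.mem_top _ : (⟨b, hb⟩ : ↥(bar w K)) ∈ (commutator ↥P).map φ)
      refine ⟨g, ?_, congrArg Subtype.val hge⟩
      rw [← Subgroup.map_subtype_commutator]
      exact ⟨g, hg, rfl⟩
    have hyc : y ∈ ⁅P, P⁆ := mem_of_covers (H := P) (fun g hg => (mem_pre.mp hg).1)
      (Subgroup.commutator_le_self P)
      (fun a ha m hm => by
        rw [← Subgroup.map_subtype_commutator] at hm ⊢
        obtain ⟨m', hm', rfl⟩ := hm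
        exact ⟨⟨a, ha⟩ * m' * ⟨a, ha⟩⁻¹, (inferInstance : (commutator ↥P).Normal).conj_mem m' hm' _, rfl⟩)
      hcov' hyP (H.hK.q_mem H.mem) hk
    have hle : ⁅P, P⁆ ≤ Subgroup.normalizer (J : Set G) := by
      rw [Subgroup.commutator_le]
      intro g1 hg1 g2 hg2
      have h1w := (mem_pre.mp hg1).2.1
      have h2w := (mem_pre.mp hg2).2.1
      have hw : ⁅g1, g2⁆ ∈ Cz z := mul_mem (mul_mem (mul_mem h1w h2w) (inv_mem h1w)) (inv_mem h2w)
      rw [H.hJ.cs_q hw, commutatorElement_def, q_mul (mul_mem (mul_mem h1w h2w) (inv_mem h1w)) (inv_mem h2w),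
        q_conj h1w h2w, q_inv h2w, ← cs_cs, ← cs_cs, ← cs_cs]
      have hinv : ∀ (g : Y z) (U V : Subgroup (Y z)), cs g U = V → cs g⁻¹ V = U := fun g U V e => by
        rw [← e, cs_cs, inv_mul_cancel, cs_one]
      rcases hboth g1 hg1 with ⟨a1', a2'⟩ | ⟨a1', a2'⟩ <;> rcases hboth g2 hg2 with ⟨b1, b2⟩ | ⟨b1, b2⟩
      · rw [hinv _ _ _ b1, hinv _ _ _ a1', b1, a1']
      · rw [hinv _ _ _ b2, hinv _ _ _ a2', b2, a1']
      · rw [hinv _ _ _ b1, hinv _ _ _ a2', b2, a2']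
      · rw [hinv _ _ _ b2, hinv _ _ _ a1', b1, a2']
    exact H.move (hle hyc)
  · -- `d` moves `K`
    have hout := H.hK.out2_q H.mem hk H.four
    obtain ⟨b, hb, hnb⟩ := hKc.not_central (H.hK.q_mem H.mem) hout
    refine hnb (hKc.central_of_commutators ?_ (fun a ha b hb => ?_) b hb)
    · exact (cs_eq_iff _ _).mpr (Subgroup.le_normalizer (H.hK.q_mem H.mem))
    obtain ⟨g, hg, rfl⟩ := hcov a ha
    have hgw := (mem_pre.mp hg).1
    have hgz := (mem_pre.mp hg).2.1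
    set u := y * d * y⁻¹ * d⁻¹ with hu
    have huw : u ∈ Cz w := mul_mem (mul_mem (mul_mem H.hyw hdw) (inv_mem H.hyw)) (inv_mem hdw)
    have huz : u ∈ Cz z := mul_mem (mul_mem (mul_mem H.hyz hdz) (inv_mem H.hyz)) (inv_mem hdz)
    have huX : u ∈ fixAll w z J :=
      Subgroup.mul_mem _ (fixAll_conj (Subgroup.mem_inf.mpr ⟨H.hyw, H.hyz⟩) hdX) (Subgroup.inv_mem _ hdX)
    set p := q w d * (q w y)⁻¹ * (q w d)⁻¹ with hp
    have hqu : q w u = q w y * p := by
      rw [hu, q_mul (mul_mem (mul_mem H.hyw hdw) (inv_mem H.hyw)) (inv_mem hdw), q_conj H.hyw hdw, q_inv hdw, hp]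
      group
    have hpc : p * q w g = q w g * p :=
      (hKc.conj (q w d)).commute hKc hdK (mem_cs (inv_mem (H.hK.q_mem H.mem))) (mem_pre.mp hg).2.2
    have hq2 : q w (u * g * u⁻¹ * g⁻¹) = q w y * q w g * (q w y)⁻¹ * (q w g)⁻¹ := by
      rw [q_mul (mul_mem (mul_mem huw hgw) (inv_mem huw)) (inv_mem hgw), q_conj huw hgw, q_inv hgw, hqu,
        mul_inv_rev, mul_assoc (q w y) p, hpc]
      group
    have hX2 : u * g * u⁻¹ * g⁻¹ ∈ fixAll w z J := by
      rw [show u * g * u⁻¹ * g⁻¹ = u * (g * u⁻¹ * g⁻¹) by group]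
      exact Subgroup.mul_mem _ huX (fixAll_conj (hP12 g hg) (Subgroup.inv_mem _ huX))
    rw [← hq2]
    refine h _ (Subgroup.mem_inf.mpr ⟨mem_pre.mpr ⟨?_, ?_, ?_⟩, hX2⟩) b hb
    · exact mul_mem (mul_mem (mul_mem huw hgw) (inv_mem huw)) (inv_mem hgw)
    · exact mul_mem (mul_mem (mul_mem huz hgz) (inv_mem huz)) (inv_mem hgz)
    · rw [hq2]
      exact mul_mem (mul_mem (mul_mem (H.hK.q_mem H.mem) (mem_pre.mp hg).2.2) (inv_mem (H.hK.q_mem H.mem)))
        (inv_mem (mem_pre.mp hg).2.2)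

/-- `w` is nontrivial on `J`. -/
theorem Moves.tau (H : Moves n z J w K y) : ¬ ∀ b ∈ bar z J, q z w * b = b * q z w := by
  intro hall
  have hKc := H.hK.isComp
  have hA := H.hJ.isComp
  have hB := hA.conj (q z y)
  set P := pre z w (bar z J) with hP
  have hcov : Covers (q z) P (bar z J : Set (Y z)) := covers_pre H.hwz (sq_of_orderOf H.hK.ord) hall
  have hP12 : ∀ g ∈ P, g ∈ Cz z ⊓ Cz w := fun g hg => Subgroup.mem_inf.mpr ⟨(mem_pre.mp hg).1, (mem_pre.mp hg).2.1⟩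
  have hyX : y ∈ fixAll z w K := H.hK.mem_fixAll (Subgroup.mem_inf.mpr ⟨H.hyz, H.hyw⟩)
    (fun B hB => component_le_normalizer hKc.comp hB (H.hK.q_mem H.mem))
  have hmul : ∀ a ∈ P, ∀ b ∈ P, q z (a * b) = q z a * q z b := fun a ha b hb =>
    q_mul (mem_pre.mp ha).1 (mem_pre.mp hb).1
  rcases covers_or (f := q z) (H := P) (M := P ⊓ fixAll z w K) H.hJ.good_bar.quasi hmul
    (fun a ha => (mem_pre.mp ha).2.2) hcov inf_le_left
    (fun a ha m hm => Subgroup.mem_inf.mpr ⟨P.mul_mem (P.mul_mem ha (Subgroup.mem_inf.mp hm).1) (P.inv_mem ha),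
      fixAll_conj (hP12 a ha) (Subgroup.mem_inf.mp hm).2⟩) with h | h
  · obtain ⟨L, hL, hLcov, hLT⟩ := exists_tight_cover (f := q z) (M := P ⊓ fixAll z w K) H.hJ.good_bar.quasi
      (fun a ha b hb => hmul a (Subgroup.mem_inf.mp ha).1 b (Subgroup.mem_inf.mp hb).1)
      (fun a ha => (mem_pre.mp (Subgroup.mem_inf.mp ha).1).2.2) h
    rw [H.hJ.idx_bar] at hLT
    have hLw : ∀ l ∈ L, l ∈ Cz w := fun l hl => (mem_pre.mp (Subgroup.mem_inf.mp (hL hl)).1).2.1
    have hLz : ∀ l ∈ L, l ∈ Cz z := fun l hl => (mem_pre.mp (Subgroup.mem_inf.mp (hL hl)).1).1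
    obtain ⟨Q, hQT, hQmem, hQlift⟩ := exists_image hLT hLw
    have hQN : Q ≤ Subgroup.normalizer (bar w K : Set (Y w)) := by
      intro v hv
      obtain ⟨l, hl, rfl⟩ := hQlift v hv
      exact (cs_eq_iff _ _).mp ((H.hK.cs_q (hLw l hl)).mp (fixAll_le_normalizer (Subgroup.mem_inf.mp (hL hl)).2))
    rcases hKc.full H.hK.idx_bar.le hQT hQN ((cs_eq_iff _ _).mp ((H.hK.cs_q H.hzw').mp H.zN))
      (fun v hv => by
        obtain ⟨l, hl, rfl⟩ := hQlift v hv
        exact q_commute H.hzw' (hLw l hl) (mem_Cz.mp (hLz l hl)).symm) with hc | hc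
    · obtain ⟨t, ht, ht2⟩ := hA.exists_four
      obtain ⟨l, hl, rfl⟩ := hLcov t ht
      have hlz := hLz l hl
      have hlw := hLw l hl
      have hmem : l * y * l⁻¹ * y⁻¹ ∈ Oz w := by
        rw [← q_eq_one (mul_mem (mul_mem (mul_mem hlw H.hyw) (inv_mem hlw)) (inv_mem H.hyw)),
          q_mul (mul_mem (mul_mem hlw H.hyw) (inv_mem hlw)) (inv_mem H.hyw), q_conj hlw H.hyw, q_inv H.hyw,
          hc _ (hQmem l hl) _ (H.hK.q_mem H.mem)]
        group
      refine hA.coord (p := q z l) (q := q z y * (q z l)⁻¹ * (q z y)⁻¹) ht ?_ ?_ ht2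
      · intro a ha
        exact (hA.commute hB H.ne.symm ha (mem_cs (inv_mem ht))).symm
      · have hzm : l * y * l⁻¹ * y⁻¹ ∈ Cz z := mul_mem (mul_mem (mul_mem hlz H.hyz) (inv_mem hlz)) (inv_mem H.hyz)
        have e : q z l * (q z y * (q z l)⁻¹ * (q z y)⁻¹) = q z (l * y * l⁻¹ * y⁻¹) := by
          rw [q_mul (mul_mem (mul_mem hlz H.hyz) (inv_mem hlz)) (inv_mem H.hyz), q_conj hlz H.hyz, q_inv H.hyz]
          group
        rw [e]
        refine (odd_orderOf_of_mem (odd_Oz w) hmem).of_dvd_nat (orderOf_dvd_of_pow_eq_one ?_)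
        rw [← q_pow hzm, pow_orderOf_eq_one, q_one]
    · exact H.sigma hc
  · refine commutators_central_contra H.hJ.good_bar.quasi fun a ha b hb d hd => ?_
    obtain ⟨g1, hg1, rfl⟩ := hcov a ha
    obtain ⟨g2, hg2, rfl⟩ := hcov b hb
    have h1z := (mem_pre.mp hg1).1
    have h2z := (mem_pre.mp hg2).1
    set m := g1 * y * g1⁻¹ * y⁻¹ with hm
    have hmX : m ∈ fixAll z w K :=
      Subgroup.mul_mem _ (fixAll_conj (hP12 g1 hg1) hyX) (Subgroup.inv_mem _ hyX)
    have hX2 : m * g2 * m⁻¹ * g2⁻¹ ∈ fixAll z w K := by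
      rw [show m * g2 * m⁻¹ * g2⁻¹ = m * (g2 * m⁻¹ * g2⁻¹) by group]
      exact Subgroup.mul_mem _ hmX (fixAll_conj (hP12 g2 hg2) (Subgroup.inv_mem _ hmX))
    set p := q z y * (q z g1)⁻¹ * (q z y)⁻¹ with hp
    have hmz : m ∈ Cz z := mul_mem (mul_mem (mul_mem h1z H.hyz) (inv_mem h1z)) (inv_mem H.hyz)
    have hqm : q z m = q z g1 * p := by
      rw [hm, q_mul (mul_mem (mul_mem h1z H.hyz) (inv_mem h1z)) (inv_mem H.hyz), q_conj h1z H.hyz, q_inv H.hyz, hp]
      group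
    have hpc : p * q z g2 = q z g2 * p :=
      hB.commute hA H.ne (mem_cs (inv_mem ha)) hb
    have hq2 : q z (m * g2 * m⁻¹ * g2⁻¹) = q z g1 * q z g2 * (q z g1)⁻¹ * (q z g2)⁻¹ := by
      rw [q_mul (mul_mem (mul_mem hmz h2z) (inv_mem hmz)) (inv_mem h2z), q_conj hmz h2z, q_inv h2z, hqm,
        mul_inv_rev, mul_assoc (q z g1) p, hpc]
      group
    rw [← hq2]
    refine h _ (Subgroup.mem_inf.mpr ⟨mem_pre.mpr ⟨(Subgroup.mem_inf.mp (fixAll_le hX2)).1,
      (Subgroup.mem_inf.mp (fixAll_le hX2)).2, ?_⟩, hX2⟩) d hd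
    rw [hq2]
    exact mul_mem (mul_mem (mul_mem ha hb) (inv_mem ha)) (inv_mem hb)

end CfsgLib.SLTwoPair
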