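import Cfsg.Agent.SLTwoPair6.Frame
import Cfsg.Agent.ZStar.Theorem

/-!
The diagonal of a moved component, stable elements of order four, lifts, and the consequence
of the Z*-theorem for an involution normalising a component.
-/

set_option autoImplicit false

namespace CfsgLib.SLTwoPair

open Cfsg CfsgLib.Cores
open scoped commutatorElement

variable {G : Type*} [Group G]

theorem mem_normalizer_cs {g y : G} {A : Subgroup G} :
    y ∈ Subgroup.normalizer ((cs g A : Subgroup G) : Set G) ↔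
      g⁻¹ * y * g ∈ Subgroup.normalizer (A : Set G) := by
  rw [← cs_eq_iff, ← cs_eq_iff]
  constructor
  · intro h
    rw [mul_assoc, ← cs_cs, ← cs_cs, h, cs_cs, inv_mul_cancel, cs_one]
  · intro h
    calc cs y (cs g A) = cs (g * (g⁻¹ * y * g)) A := by
          rw [cs_cs, show g * (g⁻¹ * y * g) = y * g by group]
      _ = cs g A := by rw [← cs_cs, h]

theorem mem_zpowers_le {H : Subgroup G} {s o : G} (hs : s ∈ H) (ho : o ∈ Subgroup.zpowers s) :
    o ∈ H := Subgroup.zpowers_le.mpr hs ho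

theorem not_central_le {A : Subgroup G} (hA : IsQuasisimple ↥A) :
    ∃ a ∈ A, ∃ b ∈ A, a * b ≠ b * a := by
  by_contra! hall
  haveI := hA.1
  refine center_ne_top_of_isQuasisimple hA (eq_top_iff.mpr fun a _ => ?_)
  exact Subgroup.mem_center_iff.mpr fun b => Subtype.ext (hall b b.2 a a.2)

/-- A subgroup covers a subgroup of an image. -/
def Covers {Z : Type*} (f : G → Z) (M : Subgroup G) (D : Set Z) : Prop :=
  ∀ y ∈ D, ∃ g ∈ M, f g = y

variable [Finite G]

/-- A normal subgroup of a group covering a quasisimple group covers it or maps to the centre. -/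
theorem covers_or {Z : Type*} [Group Z] {f : G → Z} {H M : Subgroup G} {D : Subgroup Z}
    (hD : IsQuasisimple ↥D) (hmul : ∀ a ∈ H, ∀ b ∈ H, f (a * b) = f a * f b)
    (hin : ∀ a ∈ H, f a ∈ D) (hcov : Covers f H D) (hMH : M ≤ H)
    (hM : ∀ a ∈ H, ∀ m ∈ M, a * m * a⁻¹ ∈ M) :
    Covers f M D ∨ ∀ m ∈ M, ∀ y ∈ D, f m * y = y * f m := by
  let φ : ↥H →* ↥D := MonoidHom.mk' (fun a => ⟨f a, hin a a.2⟩)
    (fun a b => Subtype.ext (hmul a a.2 b b.2))
  have hφ : Function.Surjective φ := by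
    rintro ⟨y, hy⟩
    obtain ⟨g, hg, rfl⟩ := hcov y hy
    exact ⟨⟨g, hg⟩, rfl⟩
  have hn : (M.subgroupOf H).Normal := ⟨fun m hm a => hM a a.2 m hm⟩
  rcases normal_eq_top_or_le_center hD ((M.subgroupOf H).map φ) (hn.map φ hφ) with e | e
  · left
    intro y hy
    obtain ⟨g, hg, hgy⟩ := (e.symm ▸ Subgroup.mem_top _ : (⟨y, hy⟩ : ↥D) ∈ (M.subgroupOf H).map φ)
    exact ⟨g, hg, congrArg Subtype.val hgy⟩
  · right
    intro m hm y hy
    exact (congrArg Subtype.val (Subgroup.mem_center_iff.mp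
      (e ⟨⟨m, hMH hm⟩, hm, rfl⟩) ⟨y, hy⟩)).symm

/-- A minimal tight cover inside `M`. -/
theorem exists_tight_cover {Z : Type*} [Group Z] [Finite Z] {f : G → Z} {M : Subgroup G}
    {D : Subgroup Z} (hD : IsQuasisimple ↥D)
    (hmul : ∀ a ∈ M, ∀ b ∈ M, f (a * b) = f a * f b) (hin : ∀ a ∈ M, f a ∈ D)
    (hcov : Covers f M D) :
    ∃ L ≤ M, Covers f L D ∧ Tight (Subgroup.center ↥D).index L := by
  let φ : ↥M →* ↥D := MonoidHom.mk' (fun a => ⟨f a, hin a a.2⟩)
    (fun a b => Subtype.ext (hmul a a.2 b b.2))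
  have hM : (M.subgroupOf M).map φ = ⊤ := by
    refine eq_top_iff.mpr ?_
    rintro ⟨y, hy⟩ -
    obtain ⟨g, hg, rfl⟩ := hcov y hy
    exact ⟨⟨g, hg⟩, hg, rfl⟩
  obtain ⟨L, hLM, hLf, hT, -⟩ := exists_cover hD φ le_rfl hM
  refine ⟨L, hLM, fun y hy => ?_, hT⟩
  obtain ⟨g, hg, hgy⟩ := (hLf.symm ▸ Subgroup.mem_top _ : (⟨y, hy⟩ : ↥D) ∈ (L.subgroupOf M).map φ)
  exact ⟨g, hg, congrArg Subtype.val hgy⟩

/-- Image of a tight group. -/
theorem Tight.map_inner {Z : Type*} [Group Z] [Finite Z] {n : ℕ} {L : Subgroup G} (hL : Tight n L)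
    (f : ↥L →* Z) : Tight n f.range := by
  constructor
  · rw [MonoidHom.range_eq_map, ← Subgroup.map_commutator, ← commutator_def]
    haveI : Group.IsPerfect ↥L := Subgroup.isPerfect_iff.mpr hL.perf
    rw [Group.IsPerfect.commutator_eq_top]
  · intro M hM
    have hs : Function.Surjective f.rangeRestrict := f.rangeRestrict_surjective
    rcases hL.big (M.comap f.rangeRestrict) (hM.comap _) with e | e
    · left
      rw [← Subgroup.map_comap_eq_self_of_surjective hs M, e, Subgroup.map_top_of_surjective _ hs]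
    · right
      rwa [Subgroup.index_comap_of_surjective _ hs] at e

/-- The diagonal of a component moved by an involution. -/
theorem exists_diag {Z : Type*} [Group Z] [Finite Z] {c s : Z} {A : Subgroup Z} (hA : Comp c A)
    (hs : s * s = 1) (hne : cs s A ≠ A) :
    ∃ D : Subgroup Z, IsQuasisimple ↥D ∧ Subgroup.center ↥D = ⊥ ∧
      (Subgroup.center ↥D).index = (Subgroup.center ↥A).index ∧
      (∀ y, y ∈ D ↔ ∃ a ∈ A, y = a * (s * a * s)) ∧
      (∀ a ∈ A, ∀ b ∈ A, a * (s * b * s) = (s * b * s) * a) ∧ (∀ y ∈ D, s * y = y * s) := by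
  have hsi : s⁻¹ = s := inv_eq_of_mul_eq_one_right hs
  have hB : Comp c (cs s A) := hA.conj s
  have hmem : ∀ a ∈ A, s * a * s ∈ cs s A := fun a ha => by
    have h := mem_cs (g := s) ha
    rwa [hsi] at h
  have hcomm : ∀ a ∈ A, ∀ b ∈ A, a * (s * b * s) = (s * b * s) * a := fun a ha b hb =>
    hA.commute hB hne.symm ha (hmem b hb)
  let δ : ↥A →* Z := MonoidHom.mk' (fun a => (a : Z) * (s * a * s)) (fun a b => by
    show ((a : Z) * b) * (s * ((a : Z) * b) * s) = (a : Z) * (s * a * s) * ((b : Z) * (s * b * s))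
    calc ((a : Z) * b) * (s * ((a : Z) * b) * s)
        = (a : Z) * ((b : Z) * (s * a * s)) * (s * b * s) := by
          conv_lhs => rw [show s * ((a : Z) * b) * s = (s * a * s) * (s * b * s) by
            rw [show s * (a : Z) * s * (s * b * s) = s * a * (s * s) * b * s by group, hs, mul_one]
            group]
          group
      _ = (a : Z) * ((s * a * s) * b) * (s * b * s) := by rw [hcomm b b.2 a a.2]
      _ = _ := by group)
  have hker : δ.ker = Subgroup.center ↥A := by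
    ext a
    rw [MonoidHom.mem_ker]
    show (a : Z) * (s * a * s) = 1 ↔ _
    constructor
    · intro h1
      have hi : (a : Z) ∈ cs s A := by
        rw [eq_inv_of_mul_eq_one_left h1]; exact inv_mem (hmem a a.2)
      rcases hA.meet hB hne.symm a.2 hi with e | e <;>
        refine Subgroup.mem_center_iff.mpr fun b => Subtype.ext ?_ <;>
        simp only [Subgroup.coe_mul, e]
      · rw [mul_one, one_mul]
      · exact hA.cent b
    · intro hc
      rcases hA.eq_of_central a.2 (fun b hb =>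
        (congrArg Subtype.val (Subgroup.mem_center_iff.mp hc ⟨b, hb⟩)).symm) with e | e <;> rw [e]
      · rw [one_mul, mul_one, hs]
      · rw [hA.cent s, mul_assoc, hs, mul_one, hA.csq]
  haveI := hA.good.quasi.1
  have hss : Function.Surjective δ.rangeRestrict := δ.rangeRestrict_surjective
  have hker' : δ.rangeRestrict.ker = Subgroup.center ↥A := by rw [MonoidHom.ker_rangeRestrict, hker]
  haveI hperf : Group.IsPerfect ↥δ.range := Group.IsPerfect.ofSurjective hss
  have hcomap := center_eq_comap_of_central_ker δ.rangeRestrict hss hker'.le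
  have hcen : Subgroup.center ↥δ.range = ⊥ := by
    rw [← Subgroup.map_comap_eq_self_of_surjective hss (Subgroup.center ↥δ.range), ← hcomap, ← hker',
      Subgroup.map_eq_bot_iff]
  refine ⟨δ.range, ⟨hperf, ?_⟩, hcen, ?_, ?_, hcomm, ?_⟩
  · haveI := hA.good.quasi.2
    exact (((QuotientGroup.quotientMulEquivOfEq hker.symm).trans
      (QuotientGroup.quotientKerEquivRange δ)).trans
      ((QuotientGroup.quotientMulEquivOfEq hcen).trans QuotientGroup.quotientBot).symm).symm.isSimpleGroup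
  · conv_rhs => rw [hcomap]
    exact (Subgroup.index_comap_of_surjective _ hss).symm
  · intro y
    constructor
    · rintro ⟨a, rfl⟩; exact ⟨a, a.2, rfl⟩
    · rintro ⟨a, ha, rfl⟩; exact ⟨⟨a, ha⟩, rfl⟩
  · rintro _ ⟨a, rfl⟩
    show s * ((a : Z) * (s * a * s)) = (a : Z) * (s * a * s) * s
    rw [mul_assoc (a : Z) (s * a * s) s, mul_assoc (s * (a : Z)) s s, hs, mul_one,
      hcomm a a.2 a a.2, show s * (s * (a : Z) * s * a) = (s * s) * a * s * a by group, hs, one_mul]
    rw [mul_assoc]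

/-- An element of square `c` stable up to sign under an involution. -/
theorem Comp.exists_four_stable {c : G} {A : Subgroup G} (hA : Comp c A) {s : G} (hs : s * s = 1)
    (hsN : cs s A = A) : ∃ t ∈ A, t * t = c ∧ (s * t * s = t ∨ s * t * s = t * c) := by
  classical
  have hsi : s⁻¹ = s := inv_eq_of_mul_eq_one_right hs
  obtain ⟨t, ht, ht2⟩ := hA.exists_four
  have hmem : ∀ a ∈ A, s * a * s ∈ A := fun a ha => by
    have h := mem_cs (g := s) ha
    rwa [hsi, hsN] at h
  set u := s * t * s with hu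
  have huA : u ∈ A := hmem t ht
  have hu2 : u * u = c := by
    rw [hu, show s * t * s * (s * t * s) = s * t * (s * s) * t * s by group, hs, mul_one,
      mul_assoc s t t, ht2, hA.cent s, mul_assoc, hs, mul_one]
  set p := t * u with hp
  have hpA : p ∈ A := mul_mem ht huA
  have hsts : ∀ a b : G, s * (a * b) * s = (s * a * s) * (s * b * s) := fun a b => by
    rw [show s * a * s * (s * b * s) = s * a * (s * s) * b * s by group, hs, mul_one]; group
  have hsus : s * u * s = t := by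
    rw [hu, show s * (s * t * s) * s = (s * s) * t * (s * s) by group, hs, one_mul, mul_one]
  have hsp : s * p * s = u * t := by rw [hp, hsts, hsus, ← hu]
  have hti : t⁻¹ = t * c := by
    refine inv_eq_of_mul_eq_one_right ?_
    rw [← mul_assoc, ht2, hA.csq]
  have hui : u⁻¹ = u * c := by
    refine inv_eq_of_mul_eq_one_right ?_
    rw [← mul_assoc, hu2, hA.csq]
  have hpi : p⁻¹ = u * t := by
    refine inv_eq_of_mul_eq_one_right ?_
    rw [hp, mul_assoc t u (u * t), ← mul_assoc u u t, hu2, ← hA.cent t, ← mul_assoc, ht2, hA.csq]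
  have hsp' : ∀ k : ℕ, s * p ^ k * s = (p ^ k)⁻¹ := fun k => by
    have h : (s * p * s⁻¹) ^ k = s * p ^ k * s⁻¹ := conj_pow
    rw [hsi, hsp, ← hpi, inv_pow] at h
    exact h.symm
  have hex : ∃ l, 0 < l ∧ (p ^ l = 1 ∨ p ^ l = c) := ⟨orderOf p, orderOf_pos p, Or.inl (pow_orderOf_eq_one p)⟩
  obtain ⟨hl0, hl⟩ := Nat.find_spec hex
  rcases Nat.even_or_odd (Nat.find hex) with ⟨r, hr⟩ | ⟨r, hr⟩
  · have hr0 : 0 < r := by omega
    have hnot : ¬(p ^ r = 1 ∨ p ^ r = c) := fun h => Nat.find_min hex (by omega : r < Nat.find hex) ⟨hr0, h⟩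
    rw [hr, pow_add] at hl
    have hsq : p ^ r * p ^ r = c :=
      hl.resolve_left fun e => hnot (hA.sqCases (pow_mem hpA r) e)
    refine ⟨p ^ r, pow_mem hpA r, hsq, Or.inr ?_⟩
    rw [hsp']
    refine inv_eq_of_mul_eq_one_right ?_
    rw [← mul_assoc, hsq, hA.csq]
  · have h1 : SemiconjBy t p p⁻¹ := by
      show t * p = p⁻¹ * t
      rw [hpi, hp, ← mul_assoc, ht2, mul_assoc u t t, ht2, hA.cent u]
    have htp : ∀ i : ℕ, t * p ^ i = (p ^ i)⁻¹ * t := fun i => by
      have h := (h1.pow_right i).eq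
      rwa [inv_pow] at h
    refine ⟨p ^ r * t, mul_mem (pow_mem hpA r) ht, ?_, ?_⟩
    · rw [mul_assoc, ← mul_assoc t (p ^ r) t, htp, ← mul_assoc, ← mul_assoc, mul_inv_cancel, one_mul, ht2]
    · have hu' : u = c * (p⁻¹ * t) := by
        have h2 : u = t⁻¹ * p := by rw [hp, inv_mul_cancel_left]
        have h3 := h1.eq
        rw [← h3, h2, hti, hA.cent t, mul_assoc]
      have hkey : s * (p ^ r * t) * s = c * ((p ^ (r + 1 + r))⁻¹ * (p ^ r * t)) := by
        rw [hsts, hsp', ← hu, hu', ← mul_assoc ((p ^ r)⁻¹) c, hA.cent, mul_assoc]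
        congr 1
        rw [pow_add, pow_add, pow_one]
        simp only [mul_inv_rev, mul_assoc, inv_mul_cancel_left]
      rw [show r + 1 + r = Nat.find hex by omega] at hkey
      rcases hl with e | e <;> rw [hkey, e]
      · right
        rw [inv_one, one_mul, hA.cent]
      · left
        rw [inv_eq_of_mul_eq_one_right hA.csq, ← mul_assoc, hA.csq, one_mul]

/-! ### Lifts -/

/-- An element of `C(b) / O` commuting with the image of an involution lifts to an element
commuting with it, differing by a power of the commutator. -/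
theorem lift_comm {b x g : G} (hx : x * x = 1) (hxb : x ∈ Cz b) (hg : g ∈ Cz b)
    (hc : q b g * q b x = q b x * q b g) :
    ∃ o ∈ Subgroup.zpowers (x * (g * x * g⁻¹)), o * g ∈ Cz b ∧ o * g ∈ Cz x ∧
      q b (o * g) = q b g := by
  have hs : x * (g * x * g⁻¹) ∈ Oz b := by
    rw [← q_eq_one (mul_mem hxb (mul_mem (mul_mem hg hxb) (inv_mem hg))),
      q_mul hxb (mul_mem (mul_mem hg hxb) (inv_mem hg)), q_conj hg hxb, hc, mul_inv_cancel_right,
      ← q_mul hxb hxb, hx, q_one]
  obtain ⟨o, ho, h1⟩ := exists_correct hx (odd_orderOf_of_mem (odd_Oz b) hs)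
  have hoO := mem_zpowers_le hs ho
  refine ⟨o, ho, mul_mem (Oz_le b hoO) hg, mem_Cz.mpr h1, ?_⟩
  rw [q_mul (Oz_le b hoO) hg, (q_eq_one (Oz_le b hoO)).mpr hoO, one_mul]

/-- The odd core of a subgroup, in `G`. -/
def coreIn (H : Subgroup G) : Subgroup G := (oddCore ↥H).map H.subtype

omit [Finite G] in
theorem coreIn_le (H : Subgroup G) : coreIn H ≤ H := Subgroup.map_subtype_le _

theorem odd_coreIn (H : Subgroup G) : Odd (Nat.card ↥(coreIn H)) := by
  rw [coreIn, Subgroup.card_map_of_injective H.subtype_injective]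
  haveI : Fact (Nat.Prime 2) := ⟨Nat.prime_two⟩
  exact Nat.odd_iff.2 (Nat.two_dvd_ne_zero.1 (Constrained.pPrimeCore_not_dvd (p := 2)))

theorem Oz_inf_le_coreIn {b : G} {H : Subgroup G} (hH : H ≤ Cz b) : Oz b ⊓ H ≤ coreIn H := by
  intro o ho
  have hn : ((Oz b ⊓ H).subgroupOf H).Normal :=
    ⟨fun m hm a => ⟨Oz_conj (hH a.2) (hm : (m : G) ∈ Oz b ⊓ H).1, (a * m * a⁻¹).2⟩⟩
  have hodd : (Nat.card ↥((Oz b ⊓ H).subgroupOf H)).Coprime 2 := by
    rw [Nat.card_congr (Subgroup.subgroupOfEquivOfLe (inf_le_right : Oz b ⊓ H ≤ H)).toEquiv]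
    exact Nat.coprime_two_right.mpr
      ((odd_Oz b).of_dvd_nat (Subgroup.card_dvd_of_le inf_le_left))
  have hle : (Oz b ⊓ H).subgroupOf H ≤ oddCore ↥H := le_sSup ⟨hn, hodd⟩
  exact ⟨⟨o, ho.2⟩, hle (x := ⟨o, ho.2⟩) ho, rfl⟩

theorem coreIn_conj {H : Subgroup G} {g o : G} (hg : g ∈ Subgroup.normalizer (H : Set G))
    (ho : o ∈ coreIn H) : g * o * g⁻¹ ∈ coreIn H := by
  obtain ⟨o', ho', rfl⟩ := ho
  let e := LocalBalance.act H ⟨g, hg⟩
  exact ⟨e o', (Constrained.pPrimeCore_map e 2).le ⟨o', ho', rfl⟩, rfl⟩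

/-! ### The Z*-theorem for an involution normalising a component -/

/-- An involution isolated among its commuting conjugates is central modulo the odd core. -/
theorem isolated_core {t : G} (ht : orderOf t = 2)
    (hiso : ∀ g : G, (g * t * g⁻¹) * t = t * (g * t * g⁻¹) → g * t * g⁻¹ = t) :
    ∃ N : Subgroup G, N.Normal ∧ Odd (Nat.card N) ∧ ∀ g : G, t * g * t⁻¹ * g⁻¹ ∈ N := by
  haveI : Fact (Nat.Prime 2) := ⟨Nat.prime_two⟩
  obtain ⟨P, hP⟩ := (IsPGroup.of_card (n := 1)
    (by rw [Nat.card_zpowers, ht, pow_one]) : IsPGroup 2 ↥(Subgroup.zpowers t)).exists_le_sylow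
  have htP : t ∈ (P : Subgroup G) := hP (Subgroup.mem_zpowers t)
  have hcent : ∀ p ∈ (P : Subgroup G), p * t = t * p := by
    by_contra! hno
    obtain ⟨p0, hp0, hne⟩ := hno
    haveI := P.2.isNilpotent
    set C : Subgroup ↥(P : Subgroup G) := Subgroup.centralizer ({⟨t, htP⟩} : Set _) with hC
    have hlt : C < ⊤ := lt_top_iff_ne_top.mpr fun e => hne (congrArg Subtype.val
      (Subgroup.mem_centralizer_singleton_iff.mp
        (e.symm ▸ Subgroup.mem_top (⟨p0, hp0⟩ : ↥(P : Subgroup G)) : _ ∈ C)))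
    obtain ⟨p, hp, hpC⟩ := SetLike.exists_of_lt
      (Group.normalizerCondition_of_isNilpotent C hlt)
    have h1 : p * ⟨t, htP⟩ * p⁻¹ ∈ C := (Subgroup.mem_normalizer_iff.mp hp _).mp
      (Subgroup.mem_centralizer_singleton_iff.mpr rfl)
    have h2 := hiso p (congrArg Subtype.val (Subgroup.mem_centralizer_singleton_iff.mp h1))
    refine hpC (Subgroup.mem_centralizer_singleton_iff.mpr (Subtype.ext ?_))
    show (p : G) * t = t * p
    conv_rhs => rw [← h2]
    group
  exact CfsgLib.ZStar.exists_normal_odd_of_no_fusion ht P fun g hg => hiso g (hcent _ hg)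

/-- An involution normalising `K` is fused to its product with the involution of `K`, or acts
trivially modulo the odd core. -/
theorem Classical.exists_inverting {n : ℕ} {z w : G} {K : Subgroup G} (hK : Classical n w K)
    (hz : orderOf z = 2) (hzK : z ∈ Subgroup.normalizer (K : Set G)) :
    (∃ k ∈ K, k * z * k⁻¹ = z * w) ∨ ∀ b ∈ bar w K, q w z * b = b * q w z := by
  set H : Subgroup G := K ⊔ Subgroup.zpowers z with hH
  have hzH : z ∈ H := le_sup_right (a := K) (Subgroup.mem_zpowers z)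
  have hKH : K ≤ H := le_sup_left
  have hdec : ∀ g ∈ H, ∃ k ∈ K, ∃ i ∈ Subgroup.zpowers z, g = k * i := by
    intro g hg
    rw [hH, ← SetLike.mem_coe, Subgroup.coe_mul_of_right_le_normalizer_left K _
      (Subgroup.zpowers_le.mpr hzK)] at hg
    obtain ⟨k, hk, i, hi, rfl⟩ := hg
    exact ⟨k, hk, i, hi, rfl⟩
  have hzz := sq_of_orderOf hz
  by_cases hiso : ∀ g : ↥H, (g * ⟨z, hzH⟩ * g⁻¹) * ⟨z, hzH⟩ = ⟨z, hzH⟩ * (g * ⟨z, hzH⟩ * g⁻¹) →
      g * ⟨z, hzH⟩ * g⁻¹ = ⟨z, hzH⟩
  · right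
    obtain ⟨N, hN, hodd, hcomm⟩ := isolated_core (t := (⟨z, hzH⟩ : ↥H)) (by rwa [Subgroup.orderOf_mk]) hiso
    intro b hb
    obtain ⟨k, hk, hkC, rfl⟩ := bar_lift hb
    have hzC := hK.z_fixed hzK
    set NK : Subgroup G := N.map H.subtype ⊓ K with hNK
    have hNKle : ∀ m ∈ NK, m ∈ Cz w := fun m hm => hK.le hm.2
    have hmK : z * k * z⁻¹ * k⁻¹ ∈ NK := by
      refine ⟨⟨_, hcomm ⟨k, hKH hk⟩, rfl⟩, ?_⟩
      exact K.mul_mem ((Subgroup.mem_normalizer_iff.mp hzK k).mp hk) (K.inv_mem hk)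
    let I : Subgroup ↥(bar w K) :=
      ((NK.subgroupOf (Cz w)).map (QuotientGroup.mk' (oddCore ↥(Cz w)))).subgroupOf (bar w K)
    have hIn : I.Normal := by
      refine ⟨fun m hm a => ?_⟩
      obtain ⟨⟨m', hm'C⟩, hm', hmeq⟩ := hm
      obtain ⟨a', ha', ha'C, haeq⟩ := bar_lift a.2
      refine ⟨⟨a' * m' * a'⁻¹, mul_mem (mul_mem ha'C hm'C) (inv_mem ha'C)⟩, ⟨?_, ?_⟩, ?_⟩
      · obtain ⟨⟨x, hx, hxm⟩, -⟩ := hm'
        refine ⟨⟨a', hKH ha'⟩ * x * ⟨a', hKH ha'⟩⁻¹, hN.conj_mem x hx _, ?_⟩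
        show a' * (x : G) * a'⁻¹ = a' * m' * a'⁻¹
        rw [show (x : G) = m' from hxm]
      · exact K.mul_mem (K.mul_mem ha' hm'.2) (K.inv_mem ha')
      · show QuotientGroup.mk' (oddCore ↥(Cz w)) _ = _
        rw [← q_of_mem, q_conj ha'C hm'C, haeq, q_of_mem hm'C, hmeq]
        rfl
    have hIodd : Odd (Nat.card ↥I) := by
      refine Odd.of_dvd_nat ?_ (Subgroup.card_dvd_of_injective
        (Subgroup.inclusion (le_refl I)) (Subgroup.inclusion_injective _))
      rw [← Subgroup.card_map_of_injective (bar w K).subtype_injective]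
      refine Odd.of_dvd_nat hodd ?_
      refine (Subgroup.card_dvd_of_le (Subgroup.map_comap_le _ _)).trans ?_
      refine (Subgroup.card_map_dvd _ _).trans ?_
      rw [← Subgroup.card_map_of_injective (Cz w).subtype_injective, Subgroup.subgroupOf_map_subtype]
      refine (Subgroup.card_dvd_of_le (inf_le_left.trans inf_le_left)).trans ?_
      rw [Subgroup.card_map_of_injective H.subtype_injective]
    have hzkC : z * k * z⁻¹ * k⁻¹ ∈ Cz w := hNKle _ hmK
    have hin : q w (z * k * z⁻¹ * k⁻¹) ∈ bar w K := hK.q_mem hmK.2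
    have hI : (⟨_, hin⟩ : ↥(bar w K)) ∈ I :=
      ⟨⟨_, hzkC⟩, hmK, (q_of_mem hzkC).symm⟩
    have hbot : q w (z * k * z⁻¹ * k⁻¹) = 1 := by
      rcases normal_eq_top_or_le_center hK.good_bar.quasi I hIn with e | e
      · exfalso
        have h2 : orderOf (⟨q w w, hK.q_mem hK.mem⟩ : ↥(bar w K)) ∣ Nat.card ↥I :=
          I.orderOf_dvd_natCard (e.symm ▸ Subgroup.mem_top _)
        rw [Subgroup.orderOf_mk, hK.isComp.ord] at h2
        exact Nat.not_even_iff_odd.mpr hIodd (even_iff_two_dvd.mpr h2)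
      · have hodd1 : Odd (orderOf (⟨_, hin⟩ : ↥(bar w K))) :=
          hIodd.of_dvd_nat (I.orderOf_dvd_natCard hI)
        rcases hK.isComp.eq_of_central hin (fun a ha =>
          (congrArg Subtype.val (Subgroup.mem_center_iff.mp (e hI) ⟨a, ha⟩)).symm) with e1 | e1
        · exact e1
        · rw [Subgroup.orderOf_mk, e1, hK.isComp.ord] at hodd1
          exact absurd hodd1 (by decide)
    rw [q_mul (mul_mem (mul_mem hzC hkC) (inv_mem hzC)) (inv_mem hkC), q_conj hzC hkC, q_inv hkC,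
      mul_inv_eq_one] at hbot
    exact mul_inv_eq_iff_eq_mul.mp hbot
  · left
    push Not at hiso
    obtain ⟨⟨g, hg⟩, hcm, hne⟩ := hiso
    obtain ⟨k, hk, i, hi, rfl⟩ := hdec g hg
    have hzi : i * z = z * i := by
      obtain ⟨j, rfl⟩ := hi
      exact ((Commute.refl z).zpow_left j).eq
    have e : k * i * z * (k * i)⁻¹ = k * z * k⁻¹ := by
      rw [mul_assoc k i z, hzi]; group
    have hcm' : k * z * k⁻¹ * z = z * (k * z * k⁻¹) := by
      have := congrArg Subtype.val hcm
      simp only [Subgroup.coe_mul, Subgroup.coe_inv, e] at this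
      exact this
    have hne' : k * z * k⁻¹ ≠ z := fun h => hne (Subtype.ext (by
      simp only [Subgroup.coe_mul, Subgroup.coe_inv, e]; exact h))
    refine ⟨k, hk, ?_⟩
    have hmem : z * (k * z * k⁻¹) ∈ K := by
      have h1 : z * k * z⁻¹ ∈ K := (Subgroup.mem_normalizer_iff.mp hzK k).mp hk
      have h2 := mul_mem h1 (inv_mem hk)
      rwa [inv_eq_of_mul_eq_one_right hzz, mul_assoc, mul_assoc, ← mul_assoc k z k⁻¹] at h2
    have hord : orderOf (z * (k * z * k⁻¹)) = 2 := by
      refine orderOf_eq_prime ?_ ?_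
      · rw [sq, mul_assoc, ← mul_assoc (k * z * k⁻¹) z, hcm', mul_assoc z,
          show k * z * k⁻¹ * (k * z * k⁻¹) = k * (z * z) * k⁻¹ by group, hzz, mul_one, mul_inv_cancel,
          mul_one, hzz]
      · intro e1
        exact hne' (mul_left_cancel (e1.trans hzz.symm))
    rw [← hK.uniq _ hmem hord, ← mul_assoc, hzz, one_mul]

end CfsgLib.SLTwoPair
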